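import Cfsg.Agent.Lib.TW.SpD
import Cfsg.Agent.Lib.OMax.ReflDick

/-!
# Orthogonal tensor factors: geometry of one factor
-/

set_option autoImplicit false
set_option linter.unusedSectionVars false

namespace Cfsg.Lib.TO

open Module QuadraticMap Cfsg.Lib.TW Cfsg.Lib.TMax
open Cfsg.Lib.Orth
open scoped commutatorElement

variable {F U : Type*} [Field F] [AddCommGroup U] [Module F U] {q : QuadraticForm F U}

/-- The rank one map `z ↦ (y, z) x`. -/
noncomputable abbrev r (q : QuadraticForm F U) (x y : U) : End F U := rk (polarBilin q) x y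

/-- The skew map `x ∧ y`. -/
noncomputable abbrev sk (q : QuadraticForm F U) (x y : U) : End F U := ph (polarBilin q) x y

/-- The bilinear map `r q`. -/
noncomputable def rL (q : QuadraticForm F U) : U →ₗ[F] U →ₗ[F] End F U :=
  LinearMap.mk₂ F (r q) rk_add_left rk_smul_left rk_add_right rk_smul_right

@[simp] theorem rL_apply (x y : U) : rL q x y = r q x y := rfl

theorem r_apply (x y z : U) : r q x y z = polar q y z • x := rfl

theorem sk_apply (x y z : U) : sk q x y z = polar q y z • x - polar q x z • y := rfl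

theorem r_mul (x y x' y' : U) : r q x y * r q x' y' = polar q y x' • r q x y' := rk_mul _ _ _ _

theorem sk_eq (x y : U) : sk q x y = r q x y - r q y x := rfl

theorem polar_sing {w : U} (hw : q w = 0) : polar q w w = 0 := by rw [polar_self', hw, mul_zero]

theorem eich_coe {w s : U} (hw : q w = 0) (hs : polar q w s = 0) :
    (eich q w s).1.toLinearMap = 1 + sk q w s - q s • r q w w :=
  LinearMap.ext fun x => by
    simp only [LinearEquiv.coe_coe, eich_apply hw hs, LinearMap.sub_apply, LinearMap.add_apply,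
      End.one_apply, sk_apply, LinearMap.smul_apply, r_apply]
    module

theorem conj_r (b : O q) (x y : U) :
    b.1.toLinearMap * r q x y * (b⁻¹).1.toLinearMap = r q (b.1 x) (b.1 y) :=
  LinearMap.ext fun z => by simp [r_apply, O.polar_left]

theorem conj_sk (b : O q) (x y : U) :
    b.1.toLinearMap * sk q x y * (b⁻¹).1.toLinearMap = sk q (b.1 x) (b.1 y) := by
  rw [sk_eq, mul_sub, sub_mul, conj_r, conj_r, sk_eq]

theorem sk_add_right (x y z : U) : sk q x (y + z) = sk q x y + sk q x z :=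
  LinearMap.ext fun p => by simp only [sk_apply, LinearMap.add_apply, polar_add_left]; module

theorem sk_smul_right (c : F) (x y : U) : sk q x (c • y) = c • sk q x y :=
  LinearMap.ext fun p => by simp only [sk_apply, LinearMap.smul_apply, polar_smul_left']; module

theorem sk_smul_left (c : F) (x y : U) : sk q (c • x) y = c • sk q x y :=
  LinearMap.ext fun p => by simp only [sk_apply, LinearMap.smul_apply, polar_smul_left']; module

theorem sk_swap (x y : U) : sk q y x = -sk q x y := by rw [sk_eq, sk_eq, neg_sub]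

theorem sk_self (x : U) : sk q x x = 0 := sub_self _

theorem sk_add_left (x y z : U) : sk q (x + y) z = sk q x z + sk q y z := by
  rw [sk_swap, sk_add_right, sk_swap x, sk_swap y]; abel

theorem r_smul (a b : F) (x y : U) : r q (a • x) (b • y) = (a * b) • r q x y := rk_smul a b x y

theorem sk_mul {w s s' : U} (hw : q w = 0) (hs : polar q w s = 0) (hs' : polar q w s' = 0) :
    sk q w s * sk q w s' = (-polar q s s') • r q w w := by
  simp [sk_eq, mul_sub, sub_mul, r_mul, polar_comm q s w, hs, hs', polar_sing hw]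

/-- The self-adjoint square zero elements. -/
def TN (q : QuadraticForm F U) : Set (End F U) := {a | ∃ x, q x = 0 ∧ a = r q x x}

/-- The root directions. -/
def TP (q : QuadraticForm F U) : Set (End F U) :=
  {a | ∃ x y, q x = 0 ∧ polar q x y = 0 ∧ a = sk q x y}

/-- Witt index at most one. -/
def W1 (q : QuadraticForm F U) : Prop :=
  ∀ u v, u ≠ 0 → q u = 0 → q v = 0 → polar q u v = 0 → v ∈ F ∙ u

/-- Hypotheses on an orthogonal tensor factor. -/
structure OU (q : QuadraticForm F U) : Prop where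
  nd : ND q
  two : (2 : F) ≠ 0
  three : 3 ≤ finrank F U
  cs : 5 ≤ finrank F U ∨ W1 q ∧ ∃ t : F, t ≠ 0 ∧ t ^ 2 ≠ 1

/-- The group `Ω(U)` as a group of linear maps. -/
def Nq (q : QuadraticForm F U) : Subgroup (U ≃ₗ[F] U) := (eichGroup q).map (O q).subtype

theorem mem_Nq {b : O q} (h : b ∈ eichGroup q) : b.1 ∈ Nq q := ⟨b, h, rfl⟩

theorem eich_mem_Nq (w s : U) : (eich q w s).1 ∈ Nq q := mem_Nq (eich_mem_eichGroup w s)

theorem Nq_le : Nq q ≤ Unitary.UG (polarBilin q) := (Subgroup.map_subtype_le _).trans O_le_UG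

theorem mem_O_of_UG (h2 : (2 : F) ≠ 0) {g : U ≃ₗ[F] U} (h : g ∈ Unitary.UG (polarBilin q)) :
    g ∈ O q := fun v => mul_left_cancel₀ h2 (by simpa [polar_self'] using h v v)

theorem span_nonperp {w f s₀ : U} (h2 : (2 : F) ≠ 0) (h : IsHyp q w f) (h0 : s₀ ∈ hperp q w f)
    (h1 : q s₀ ≠ 0) (S : AddSubgroup U) (hS : ∀ y, q y = 0 → polar q w y ≠ 0 → y ∈ S) (y : U) :
    y ∈ S := by
  have k : ∀ c : F, ∀ s ∈ hperp q w f, c • ((-q s) • w + (1 : F) • f + s) ∈ S := fun c s hs => by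
    rcases eq_or_ne c 0 with rfl | hc
    · simp
    exact hS _ (by rw [Q_smul, h.Q_comb' hs]; simp)
      (by rw [polar_smul_right', h.polar_left_comb hs]; simpa)
  have kf : ∀ c : F, c • f ∈ S := fun c => by simpa using k c 0 (zero_mem _)
  have kw : ∀ c : F, c • w ∈ S := fun c => by
    have := sub_mem (add_mem (k (-c / (2 * q s₀)) s₀ h0) (k (-c / (2 * q s₀)) (-s₀) (neg_mem h0)))
      (kf (-c / q s₀))
    convert this using 1
    rw [q.map_neg]
    match_scalars <;> field_simp <;> ring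
  obtain ⟨a, b, s, hs, rfl⟩ := h.exists_decomp y
  convert add_mem (add_mem (kw (a + q s)) (kf (b - 1))) (k 1 s hs) using 1
  module

variable [Finite F] [FiniteDimensional F U]

theorem exists_pair_eq (h2 : (2 : F) ≠ 0) {X : Submodule F U} (hX : ND (q.restrict X))
    (h3 : 3 ≤ finrank F X) : ∃ x ∈ X, ∃ y ∈ X, q x = 1 ∧ q y = 1 ∧ polar q x y = 0 := by
  obtain ⟨x, hx⟩ := exists_Q_eq hX (by omega) 1
  have h1 := nd_span_singleton (Q := q.restrict X) h2 (v := x) (by simp [hx])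
  have h4 := finrank_add_finrank_perp hX (F ∙ x)
  have h5 := finrank_span_le (F := F) x
  obtain ⟨y, hy, hy'⟩ := OMax.exists_Q_eq_mem (nd_restrict_perp hX h1) (by omega) 1
  exact ⟨x, x.2, y, y.2, hx, hy', by simpa using mem_perp_singleton.1 hy⟩

namespace OU

variable (γ : OU q)
include γ

theorem ef : EF (RingHom.id F) 1 (polarBilin q) := ef_polar γ.nd

theorem t3 : T3 (polarBilin q) := γ.ef.t3 γ.two γ.three

theorem nontrivial : Nontrivial U := nontrivial_of_finrank_pos (R := F) (by have := γ.three; omega)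

theorem exists_hyp : ∃ w f, IsHyp q w f := exists_isHyp_of_three_le γ.nd γ.three

theorem hyp {w : U} (h0 : w ≠ 0) (hw : q w = 0) : ∃ f, IsHyp q w f := exists_isHyp γ.nd hw h0

theorem exists_aniso {w : U} (h0 : w ≠ 0) (hw : q w = 0) : ∃ s, polar q w s = 0 ∧ q s ≠ 0 :=
  let ⟨_, h⟩ := γ.hyp h0 hw
  let ⟨s, h1, h2⟩ := h.exists_nonsingular γ.nd γ.three
  ⟨s, (mem_hperp.1 h1).1, h2⟩

theorem move {x y : U} (hx0 : x ≠ 0) (hx : q x = 0) (hy0 : y ≠ 0) (hy : q y = 0) :
    ∃ g ∈ eichGroup q, ∃ c : F, c ≠ 0 ∧ g.1 x = c • y :=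
  exists_eichGroup_map_singular γ.nd γ.three hx hy hx0 hy0

theorem qe_le (e : U) (he : polarBilin q e e = 0) : Unitary.QE (polarBilin q) e ≤ Nq q := by
  rcases eq_or_ne e 0 with rfl | h0
  · exact QE_le_zero
  intro g hg
  obtain ⟨z, -, hz⟩ := OMax.exists_eq_eich γ.nd (g := ⟨g, mem_O_of_UG γ.two hg.1⟩) h0
    (by simpa [polar_self', γ.two] using he) hg.2.1 hg.2.2
  exact ⟨_, eich_mem_eichGroup e z, (congrArg Subtype.val hz).symm⟩

theorem nonperp {w : U} (h0 : w ≠ 0) (hw : q w = 0) (S : AddSubgroup U)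
    (hS : ∀ y, q y = 0 → polar q w y ≠ 0 → y ∈ S) (y : U) : y ∈ S :=
  let ⟨_, h⟩ := γ.hyp h0 hw
  let ⟨_, h1, h2⟩ := h.exists_nonsingular γ.nd γ.three
  span_nonperp γ.two h h1 h2 S hS y

theorem span_sing (S : AddSubgroup U) (hS : ∀ y, q y = 0 → y ∈ S) (y : U) : y ∈ S :=
  let ⟨_, _, h⟩ := γ.exists_hyp
  γ.nonperp h.ne_zero h.left S (fun y hy _ => hS y hy) y

theorem ind₂ {X : Type*} [AddCommGroup X] [Module F X] (φ : U →ₗ[F] U →ₗ[F] X) (S : AddSubgroup X)
    (h : ∀ x y, q x = 0 → q y = 0 → polar q x y ≠ 0 → φ x y ∈ S) (x y : U) : φ x y ∈ S := by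
  refine γ.span_sing (S.comap (φ.flip y).toAddMonoidHom) (fun w hw => ?_) x
  rcases eq_or_ne w 0 with rfl | h0
  · exact zero_mem _
  exact γ.nonperp h0 hw (S.comap (φ w).toAddMonoidHom) (fun y => h w y hw) y

theorem mem_of_perp {w y : U} (h : ∀ s, polar q w s = 0 → polar q s y = 0) : y ∈ F ∙ w :=
  γ.ef.mem_of_perp fun s hs => h s (Unitary.mem_perp_singleton.1 hs)

theorem scalar_of_fix {β : End F U} (h : ∀ u, q u = 0 → β u ∈ F ∙ u) : ∃ c : F, ∀ x, β x = c • x :=
  let ⟨_, _, h1⟩ := γ.exists_hyp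
  γ.ef.scalar_of_fix γ.t3 h1.ne_zero h1.polar_left fun u hu =>
    h u (by simpa [polar_self', γ.two] using hu)

theorem fpf {w f : U} (h : IsHyp q w f) :
    ∃ h ∈ eichGroup q, ∃ l : F, l ≠ 0 ∧ h.1 w = l • w ∧ h.1 f = l⁻¹ • f ∧
      ∀ s ∈ hperp q w f, l • h.1 s = s → s = 0 := by
  have h2 := γ.two
  by_cases ht : ∃ t : F, t ≠ 0 ∧ t ^ 2 ≠ 1
  · obtain ⟨t, h0, h1⟩ := ht
    exact ⟨_, h.hrot_sq_mem_eichGroup γ.nd γ.three h0, _, pow_ne_zero 2 h0,
      h.hrot_left (pow_ne_zero 2 h0), h.hrot_right (pow_ne_zero 2 h0), fun s hs e => by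
        rw [hrot_of_hperp hs] at e
        exact (smul_eq_zero_iff_right (sub_ne_zero.2 h1)).1
          (by rw [sub_smul, e, one_smul, sub_self])⟩
  have h5 := γ.cs.resolve_right fun h => ht h.2
  push Not at ht
  have h4 := h.finrank_hperp γ.nd
  obtain ⟨x, hx, y, hy, e1, e2, e3⟩ := exists_pair_eq h2 (h.nd_hperp γ.nd) (by omega)
  have e4 : (3 : F) = 0 := by linear_combination ht 2 h2
  have e5 : q (x - y) = -1 := by rw [Q_sub, e1, e2, e3]; linear_combination e4
  have hxy := sub_mem hx hy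
  obtain ⟨a1, a2⟩ := mem_hperp.1 hx
  obtain ⟨a3, a4⟩ := mem_hperp.1 hxy
  have k1 : q (w - (-1 : F)⁻¹ • f) = 1 := by rw [h.Q_sub_smul]; simp
  have k2 : q (w - (1 : F) • f) = -1 := by rw [h.Q_sub_smul]
  refine ⟨hrot q w f (-1) * (refl q x * refl q (x - y)), ?_, -1, by simp, ?_, ?_, fun s hs e => ?_⟩
  · rw [hrot, mul_assoc, ← mul_assoc (refl q (w - (1 : F) • f)), refl_comm_of_perp (v := x) (by
      simp [polar_sub_left, a1, a2]), mul_assoc, ← mul_assoc]
    exact mul_mem (h.refl_mul_refl_mem_eichGroup γ.nd γ.three (by simp only [k1]; simp) (k1.trans e1.symm))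
      (h.refl_mul_refl_mem_eichGroup γ.nd γ.three (by simp only [k2]; simp)
        (k2.trans e5.symm))
  · rw [O.mul_apply, O.mul_apply, refl_apply_of_perp ((polar_comm _ _ _).trans a3),
      refl_apply_of_perp ((polar_comm _ _ _).trans a1), h.hrot_left (by simp)]
  · rw [O.mul_apply, O.mul_apply, refl_apply_of_perp ((polar_comm _ _ _).trans a4),
      refl_apply_of_perp ((polar_comm _ _ _).trans a2), h.hrot_right (by simp)]
  have k3 : (refl q x * refl q (x - y)).1 s = s - (polar q x s - polar q y s) • y +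
      (polar q x s + polar q y s) • x := by
    simp only [O.mul_apply, refl_apply, e1, e5, polar_sub_left, polar_sub_right, polar_smul_right',
      polar_self', e3]
    linear_combination (norm := module) (-(e4 * polar q x s)) • x
  rw [O.mul_apply, k3, hrot_of_hperp (add_mem (sub_mem hs (Submodule.smul_mem _ _ hy))
    (Submodule.smul_mem _ _ hx))] at e
  have k4 := congrArg (polar q x) e
  have k5 := congrArg (polar q y) e
  simp only [polar_smul_right', polar_sub_right, polar_add_right, polar_self', e1, e2, e3,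
    polar_comm q y x] at k4 k5
  have k6 : polar q x s = 0 := by linear_combination k5 - 2 * k4 - 3 * polar q x s * e4
  have k7 : polar q y s = 0 := by linear_combination -k4 - 2 * k5 - 3 * polar q y s * e4
  refine (smul_eq_zero_iff_right h2).1 ?_
  rw [k6, k7] at e
  linear_combination (norm := module) -e

/-- A torus element acting fixed point freely on the unipotent radical. -/
structure _root_.Cfsg.Lib.TO.Ts (q : QuadraticForm F U) (w f : U) (h : O q) (l : F) : Prop where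
  hyp : IsHyp q w f
  mem : h ∈ eichGroup q
  ne : l ≠ 0
  left : h.1 w = l • w
  right : h.1 f = l⁻¹ • f
  fpf : ∀ s ∈ hperp q w f, l • h.1 s = s → s = 0

theorem tor {w f : U} (h : IsHyp q w f) : ∃ b l, Ts q w f b l :=
  let ⟨b, h1, l, h2, h3, h4, h5⟩ := γ.fpf h
  ⟨b, l, h, h1, h2, h3, h4, h5⟩

omit γ [Finite F] [FiniteDimensional F U] in
theorem _root_.Cfsg.Lib.TO.Ts.map_mem {w f : U} {b : O q} {l : F} (τ : Ts q w f b l) {s : U}
    (hs : s ∈ hperp q w f) : b.1 s ∈ hperp q w f := by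
  obtain ⟨h1, h2⟩ := mem_hperp.1 hs
  rw [← O.map_polar b, τ.left, polar_smul_left'] at h1
  rw [← O.map_polar b, τ.right, polar_smul_left'] at h2
  exact mem_hperp.2 ⟨by simpa [τ.ne] using h1, by simpa [τ.ne] using h2⟩

omit γ [Finite F] in
theorem _root_.Cfsg.Lib.TO.Ts.exists_comm {w f : U} {b : O q} {l : F} (τ : Ts q w f b l) {s : U}
    (hs : polar q w s = 0) : ∃ s', polar q w s' = 0 ∧ ⁅b, eich q w s'⁆ = eich q w s := by
  have h := τ.hyp
  let φ : End F (hperp q w f) := (l • b.1.toLinearMap - 1).restrict fun s hs =>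
    sub_mem (Submodule.smul_mem _ _ (τ.map_mem hs)) hs
  obtain ⟨⟨s', h1⟩, h2⟩ := LinearMap.injective_iff_surjective.1 ((injective_iff_map_eq_zero φ).2
    fun s e => Subtype.ext (τ.fpf s s.2 (sub_eq_zero.1 (congrArg Subtype.val e))))
    ⟨_, h.hproj_mem s⟩
  have h3 : l • b.1 s' - s' = hproj q w f s := congrArg Subtype.val h2
  have h4 := (mem_hperp.1 h1).1
  have h5 := (mem_hperp.1 (τ.map_mem h1)).1
  refine ⟨s', h4, ?_⟩
  rw [commutatorElement_def, conj_eich, τ.left, eich_smul_left h.left h5, ← eich_neg h.left h4,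
    ← eich_add h.left (by simp [h5]) (by simp [h4]), ← sub_eq_add_neg, h3, hproj, hs, zero_smul,
    sub_zero, sub_eq_add_neg, ← neg_smul, eich_add_smul_self h.left hs]

theorem perf {L : Subgroup (O q)} (h : ∀ a ∈ eichGroup q, ∀ b ∈ eichGroup q, ⁅a, b⁆ ∈ L) :
    eichGroup q ≤ L := by
  refine eichGroup_le fun w s hw hs => ?_
  rcases eq_or_ne w 0 with rfl | h0
  · simp
  obtain ⟨f, hf⟩ := γ.hyp h0 hw
  obtain ⟨b, l, τ⟩ := γ.tor hf
  obtain ⟨s', -, h2⟩ := τ.exists_comm hs
  exact h2 ▸ h _ τ.mem _ (eich_mem_eichGroup _ _)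

omit γ [Finite F] [FiniteDimensional F U] in
/-- The commutant of a Borel-like subgroup. -/
theorem _root_.Cfsg.Lib.TO.Ts.eq_of_comm (γ : OU q) {w f : U} {b : O q} {l : F} (τ : Ts q w f b l)
    [Finite F] [FiniteDimensional F U] {β : End F U}
    (h1 : ∀ s, polar q w s = 0 → β * sk q w s = sk q w s * β) (h2 : β * r q w w = r q w w * β)
    (h3 : β * b.1.toLinearMap = b.1.toLinearMap * β) :
    β = polar q f (β w) • 1 + polar q f (β f) • r q w w := by
  have h := τ.hyp
  have e1 : β w = polar q w (β f) • w := by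
    simpa [r_apply, h.polar_eq] using LinearMap.congr_fun h2 f
  obtain ⟨c₁, c₀, s₁, hs, e2⟩ := h.exists_decomp (β f)
  have e3 := LinearMap.congr_fun h3 f
  simp only [End.mul_apply, LinearEquiv.coe_coe, τ.right, map_smul, e2, map_add, τ.left] at e3
  obtain ⟨-, -, e4⟩ := h.comb_inj (Submodule.smul_mem _ l⁻¹ hs) (τ.map_mem hs)
    (a := l⁻¹ * c₁) (b := l⁻¹ * c₀) (a' := c₁ * l) (b' := c₀ * l⁻¹) (by
      linear_combination (norm := module) e3)
  obtain rfl : s₁ = 0 := τ.fpf _ hs (by rw [← e4, smul_inv_smul₀ τ.ne])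
  have e5 : polar q w (β f) = c₀ := by rw [e2, h.polar_left_comb hs]
  have e6 : polar q f (β f) = c₁ := by rw [e2, h.polar_right_comb hs]
  refine LinearMap.ext fun y => ?_
  obtain ⟨a, d, s, hs, rfl⟩ := h.exists_decomp y
  obtain ⟨e7, e8⟩ := mem_hperp.1 hs
  have e9 := LinearMap.congr_fun (h1 s e7) f
  simp only [End.mul_apply, sk_apply, polar_comm q s f, e8, h.polar_eq, map_sub, map_smul, e5, e2,
    polar_add_right, polar_smul_right', polar_comm q s w, e7, h.polar_left, add_zero] at e9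
  rw [LinearMap.add_apply, LinearMap.smul_apply, LinearMap.smul_apply, r_apply,
    h.polar_left_comb hs]
  simp only [map_add, map_smul, e1, e5, e6, End.one_apply, polar_smul_right', h.polar_eq']
  rw [e2]
  linear_combination (norm := module) -e9

theorem irr {w : U} (h0 : w ≠ 0) (hw : q w = 0) (S : AddSubgroup U) (h1 : ∀ c : F, c • w ∈ S)
    (h2 : ∀ b ∈ eichGroup q, ∀ l : F, b.1 w = l • w → ∀ s ∈ S, l • b.1 s ∈ S) {s₀ : U}
    (h3 : s₀ ∈ S) (h4 : polar q w s₀ = 0) (h5 : s₀ ∉ F ∙ w) {s : U} (hs : polar q w s = 0) :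
    s ∈ S := by
  obtain ⟨f, h⟩ := γ.hyp h0 hw
  have k1 : ∀ x ∈ S ⊓ (hperp q w f).toAddSubgroup, ∀ c : F,
      c • x ∈ S ⊓ (hperp q w f).toAddSubgroup := fun x hx c =>
    OMax.addSubgroup_smul_of_sq _ (fun t ht => AddSubgroup.mem_inf.2 ⟨by
      simpa [hrot_of_hperp hx.2] using h2 _ (h.hrot_sq_mem_eichGroup γ.nd γ.three ht) _
        (h.hrot_left (pow_ne_zero 2 ht)) x hx.1, Submodule.smul_mem _ _ hx.2⟩) c
  let X : Submodule F U := ⟨(S ⊓ (hperp q w f).toAddSubgroup).toAddSubmonoid, fun c x hx => k1 x hx c⟩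
  have k2 : ∀ y, polar q w y = 0 → hproj q w f y = y - polar q f y • w := fun y hy => by
    simp [hproj, hy]
  have k3 : hproj q w f s₀ ∈ X := ⟨k2 _ h4 ▸ S.sub_mem h3 (h1 _), h.hproj_mem _⟩
  have k4 : hproj q w f s₀ ≠ 0 := fun e =>
    h5 (Submodule.mem_span_singleton.2 ⟨_, (sub_eq_zero.1 (k2 _ h4 ▸ e)).symm⟩)
  have k5 : ∀ b ∈ eichGroup q, b.1 w = w → b.1 f = f → ∀ x ∈ X, b.1 x ∈ X := fun b hb e1 e2 x hx =>
    ⟨by simpa using h2 b hb 1 (by simpa) x hx.1, mem_hperp.2 ⟨by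
      rw [← e1, O.map_polar]; exact (mem_hperp.1 hx.2).1, by
      rw [← e2, O.map_polar]; exact (mem_hperp.1 hx.2).2⟩⟩
  have k6 := h.nd_hperp γ.nd
  have k7 := h.finrank_hperp γ.nd
  suffices k : hperp q w f ≤ X by
    simpa [k2 s hs] using add_mem (k (h.hproj_mem s)).1 (h1 (polar q f s))
  generalize hproj q w f s₀ = x at k3 k4
  by_cases h3 : 5 ≤ finrank F U
  · refine (OMax.le_perp_or_le k6 (by omega) fun u hu z hz x hx => ?_).resolve_left fun e =>
      k4 (nd_restrict_iff.1 k6 x k3.2 fun y hy => mem_perp'.1 (e k3) y hy)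
    by_cases e : q u = 0 ∧ polar q u z = 0
    · obtain ⟨e1, e2⟩ := mem_hperp.1 hu
      obtain ⟨e3, e4⟩ := mem_hperp.1 hz
      exact k5 _ (eich_mem_eichGroup u z) (by simp [eich_apply e.1 e.2, polar_comm q _ w, e1, e3])
        (by simp [eich_apply e.1 e.2, polar_comm q _ f, e2, e4]) x hx
    · rwa [eich_of_not e]
  obtain ⟨hW, t, ht0, ht⟩ := γ.cs.resolve_left h3
  have k8 : ∀ y ∈ hperp q w f, y ≠ 0 → q y ≠ 0 := fun y hy hy0 e => by
    obtain ⟨c, rfl⟩ := Submodule.mem_span_singleton.1 (hW w y h0 hw e (mem_hperp.1 hy).1)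
    exact hy0 (by simpa [h.polar_eq', h0] using (mem_hperp.1 hy).2)
  by_contra k9
  have k10 := Submodule.finrank_lt_finrank_of_lt (lt_of_le_of_ne (fun x hx => hx.2 : X ≤ _)
    fun e => k9 e.ge)
  have k11 := Submodule.eq_of_le_of_finrank_le ((Submodule.span_singleton_le_iff_mem _ _).2 k3)
    (by rw [finrank_span_singleton k4]; omega)
  obtain ⟨y, hy, hy'⟩ := SetLike.not_le_iff_exists.1 k9
  have qx := k8 x k3.2 k4
  obtain ⟨y, hy, hy0, hxy⟩ : ∃ y ∈ hperp q w f, y ∉ X ∧ polar q x y = 0 :=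
    ⟨y - (polar q x y / (2 * q x)) • x, sub_mem hy (Submodule.smul_mem _ _ k3.2), fun e => hy' (by
      simpa using add_mem e (X.smul_mem (polar q x y / (2 * q x)) k3)), by
      have := γ.two
      rw [polar_sub_right, polar_smul_right', polar_self']; field_simp; ring⟩
  obtain ⟨u, hu0, hu⟩ : ∃ u : F, u ≠ 0 ∧ u ^ 2 * q y ≠ q x := by
    by_cases e : q y = q x
    · exact ⟨t, ht0, fun e' => ht (mul_right_cancel₀ qx (by rw [← e', e]; simp [e ▸ e']))⟩
    · exact ⟨1, one_ne_zero, by simpa⟩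
  have hz : x + u • y ∈ hperp q w f := add_mem k3.2 (Submodule.smul_mem _ _ hy)
  have qz := k8 _ hz fun e => hy0 (by
    simpa [hu0] using X.smul_mem u⁻¹ (show u • y ∈ X from eq_neg_of_add_eq_zero_right e ▸ neg_mem k3))
  have k12 : ∀ v ∈ hperp q w f, (refl q v).1 w = w ∧ (refl q v).1 f = f := fun v hv =>
    ⟨refl_apply_of_perp ((polar_comm _ _ _).trans (mem_hperp.1 hv).1),
      refl_apply_of_perp ((polar_comm _ _ _).trans (mem_hperp.1 hv).2)⟩
  have hz' : (refl q (x + u • y)).1 x ∈ hperp q w f := by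
    rw [refl_apply]; exact sub_mem k3.2 (Submodule.smul_mem _ _ hz)
  have k13 := k5 _ (h.refl_mul_refl_mem_eichGroup γ.nd γ.three qx (O.map_Q (refl q (x + u • y)) x).symm)
    (by rw [O.mul_apply, (k12 _ hz').1, (k12 _ k3.2).1])
    (by rw [O.mul_apply, (k12 _ hz').2, (k12 _ k3.2).2]) x k3
  have k14 : q (x + u • y) = q x + u ^ 2 * q y := by rw [Q_add, Q_smul]; simp [hxy]
  have k15 : q (x + u • y) - 2 * q x ≠ 0 := fun e => hu (by linear_combination e - k14)
  have := γ.two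
  refine hy0 ((X.smul_mem_iff (show 4 * (q (x + u • y) - 2 * q x) * q x * u / q (x + u • y) ^ 2 ≠ 0 by
    have : (4 : F) ≠ 0 := by rw [show (4 : F) = 2 * 2 by norm_num]; exact mul_ne_zero this this
    positivity)).1 ?_)
  convert sub_mem k13 (X.smul_mem (2 * (1 - 2 * q x / q (x + u • y)) ^ 2 - 1) k3) using 1
  rw [O.mul_apply, refl_apply (Q := q) ((refl q _).1 x), O.map_Q]
  simp only [refl_apply, polar_sub_left, polar_sub_right, polar_add_left, polar_add_right,
    polar_smul_left', polar_smul_right', polar_self', hxy, polar_comm q y x]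
  match_scalars <;> field_simp <;> ring

theorem tn_sq : Submodule.span F (TN q) ^ 2 = ⊤ := by
  refine eq_top_iff.2 fun a _ => end_ind (p := (· ∈ _)) (zero_mem _) (fun w ψ => ?_)
    (fun _ _ => add_mem) a
  obtain ⟨y, rfl⟩ := γ.ef.exists_eq ψ
  refine γ.ind₂ (rL q) (Submodule.span F (TN q) ^ 2).toAddSubgroup (fun w y hw hy hy' => ?_) w y
  have := Submodule.mul_mem_mul (Submodule.subset_span (R := F) (s := TN q) ⟨w, hw, rfl⟩)
    (Submodule.subset_span (R := F) (s := TN q) ⟨y, hy, rfl⟩)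
  rwa [r_mul, Submodule.smul_mem_iff _ hy', ← pow_two] at this

theorem tn_pow : Submodule.span F (TN q) ^ 4 = ⊤ := by
  rw [show 4 = 2 * 2 from rfl, pow_mul, γ.tn_sq, pow_two]
  exact eq_top_iff.2 fun a _ => mul_one a ▸ Submodule.mul_mem_mul trivial trivial

theorem tp_pow : Submodule.span F (TP q) ^ 4 = ⊤ := by
  rw [show 4 = 2 * 2 from rfl, pow_mul, eq_top_iff, ← γ.tn_sq]
  refine pow_le_pow_left' (Submodule.span_le.2 ?_) 2
  rintro _ ⟨x, hx, rfl⟩
  rcases eq_or_ne x 0 with rfl | h0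
  · simp [rk]
  obtain ⟨y, h1, h2⟩ := γ.exists_aniso h0 hx
  have := Submodule.mul_mem_mul (Submodule.subset_span (R := F) (s := TP q) ⟨x, y, hx, h1, rfl⟩)
    (Submodule.subset_span (R := F) (s := TP q) ⟨x, y, hx, h1, rfl⟩)
  rwa [sk_mul hx h1 h1, polar_self', Submodule.smul_mem_iff _ (by simp [γ.two, h2]), ← pow_two] at this

theorem gen (R : Subalgebra F (End F U))
    (h : ∀ w s, q w = 0 → polar q w s = 0 → (eich q w s).1.toLinearMap ∈ R) (a : End F U) : a ∈ R := by
  have h1 : Submodule.span F (TP q) ≤ Subalgebra.toSubmodule R := Submodule.span_le.2 (by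
    rintro _ ⟨w, s, hw, hs, rfl⟩
    have := sub_mem (h w s hw hs) (h w (-s) hw (by simp [hs]))
    rw [eich_coe hw hs, eich_coe hw (by simp [hs]), ← neg_one_smul F s, sk_smul_right, Q_smul] at this
    exact smul_mem_cancel γ.two (by convert this using 1; module))
  have h2 : ∀ n, Subalgebra.toSubmodule R ^ n ≤ Subalgebra.toSubmodule R := fun n _ hx =>
    Submodule.pow_induction_on_left' _ (C := fun _ x _ => x ∈ R) (algebraMap_mem R)
      (fun _ _ _ _ _ => add_mem) (fun _ hm _ _ _ => mul_mem hm) hx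
  exact h2 4 (pow_le_pow_left' h1 4 (γ.tp_pow.ge trivial))

theorem ns (R : Subalgebra F (End F U)) (h1 : ∀ a ∈ R, ∀ a', Ad (polarBilin q) a a' → a' ∈ R)
    (h2 : ∀ b ∈ Nq q, ∀ a ∈ R, b.toLinearMap * a * (b⁻¹).toLinearMap ∈ R) :
    (∀ a ∈ R, ∃ c : F, ∀ v, a v = c • v) ∨ ∀ a, a ∈ R := by
  refine or_iff_not_imp_left.2 fun h => ?_
  obtain ⟨w, f, hw⟩ := γ.exists_hyp
  refine γ.ef.top_of_orth γ.two ⟨h1, γ.qe_le, Nq_le, h2⟩ γ.three hw.ne_zero hw.polar_left
    (γ.cs.imp_right fun h u v h0 hu hv => h.1 u v h0 ?_ ?_) (γ.cs.imp (by omega) And.right) h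
  · simpa [polar_self', γ.two] using hu
  · simpa [polar_self', γ.two] using hv

theorem mem_of_odd {b : O q} {n : ℕ} (hn : Odd n) (h : b ^ n = 1) : b ∈ eichGroup q := by
  have hE := not_exc_of_two_ne_zero (Q := q) γ.two
  have k : ∀ φ : O q →* ℤˣ, φ b = 1 := fun φ => by
    have := congrArg φ h
    rwa [map_pow, map_one, Int.units_pow_eq_pow_mod_two, Nat.odd_iff.1 hn, pow_one] at this
  exact commutator_eq_eichGroup' γ.nd hE γ.three ▸ (mem_commutator_iff γ.nd hE b).2 ⟨k _, k _⟩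

end OU

end Cfsg.Lib.TO
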