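import Cfsg.Agent.Lib.TO.Der
import Cfsg.Agent.Lib.BG.Hall

/-!
# Orthogonal tensor powers: centralisers of root groups
-/

set_option autoImplicit false
set_option linter.unusedSectionVars false

namespace Cfsg.Lib.TO

open Module QuadraticMap Cfsg.Lib.TW Cfsg.Lib.TMax Function
open Cfsg.Lib.Orth
open Cfsg.Lib.Unitary (UG)
open scoped commutatorElement

universe u

open Subgroup BG in
theorem dvd_card_cent {G : Type*} [Group G] [Finite G] {p : ℕ} [hp : Fact p.Prime] {A X : Subgroup G}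
    (hA : IsPGroup p A) (hn : A ≤ normalizer (X : Set G)) (h : p ∣ Nat.card X) :
    p ∣ Nat.card (X ⊓ centralizer (A : Set G) : Subgroup G) := by
  obtain ⟨S, hS, h1⟩ := Syl.exists_ge hA (le_sup_left : A ≤ A ⊔ X)
  have h2 := hS.inf (le_sup_right : X ≤ _) (hS.le.trans (sup_le hn le_normalizer))
  obtain ⟨x, hx, h3⟩ := (Subgroup.bot_or_exists_ne_one _).resolve_left (nil_meet_center (Syl.nil hS)
    inf_le_left (fun s hs => inf_normalizer_le_normalizer_inf ⟨le_normalizer hs,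
      hS.le.trans (sup_le hn le_normalizer) hs⟩) (Syl.ne_bot' h2 h))
  obtain ⟨k, hk⟩ := (IsPGroup.iff_orderOf.1 (Syl.pgroup hS)) ⟨x, hx.1.1⟩
  rw [orderOf_mk] at hk
  refine Dvd.dvd.trans ?_ (orderOf_dvd_natCard _ ⟨hx.1.2, centralizer_le h1 hx.2⟩)
  exact hk ▸ dvd_pow_self p fun e => h3 (by simpa [e] using hk)

theorem exists_order {G : Type*} [Group G] [Finite G] {p : ℕ} [hp : Fact p.Prime] {X : Subgroup G} :
    p ∣ Nat.card X ↔ ∃ x ∈ X, x ≠ 1 ∧ x ^ p = 1 :=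
  ⟨fun h => let ⟨x, hx⟩ := exists_prime_orderOf_dvd_card' p h
    ⟨x, x.2, fun e => hp.out.one_lt.ne (by rw [← hx, show x = 1 from Subtype.ext e, orderOf_one]),
      by rw [← hx, ← Subgroup.coe_pow, pow_orderOf_eq_one]; rfl⟩,
    fun ⟨_, h1, h2, h3⟩ => orderOf_eq_prime h3 h2 ▸ X.orderOf_dvd_natCard h1⟩

section

variable {F U W V : Type*} [Field F] [AddCommGroup U] [Module F U] [AddCommGroup W] [Module F W]
  [AddCommGroup V] [Module F V] {q : QuadraticForm F U} {Q : QuadraticForm F V}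
  {T : TF F U W V} {M : Subgroup (V ≃ₗ[F] V)} {g k : V ≃ₗ[F] V} {v w f : U}
  {ι : Type*} [DecidableEq ι] [Fintype ι] {Φ : Fam ι F U W V} {i j l m : ι}

theorem finite_equiv [Finite F] [FiniteDimensional F V] : Finite (V ≃ₗ[F] V) :=
  have := Module.finite_of_finite F (M := V)
  Finite.of_injective _ DFunLike.coe_injective

theorem _root_.Cfsg.Lib.TW.Cm.comm_kr (h : Cm T g.toLinearMap) (b) : g * T.kr b 1 = T.kr b 1 * g :=
  LinearEquiv.toLinearMap_injective (by simpa [TF.kr_coe] using h b.toLinearMap)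

theorem cm_kr (h : i ≠ j) (b) : Cm (Φ.T i) ((Φ.T j).kr b 1).toLinearMap :=
  (Φ.T j).kr_coe b ▸ Φ.cm_e h _

theorem _root_.Cfsg.Lib.TW.Cm.map_P [FiniteDimensional F U] {η : End F V} (h : Cm T η) {x : V}
    (hx : x ∈ T.P (F ∙ v)) : η x ∈ T.P (F ∙ v) := by
  rcases eq_or_ne v 0 with rfl | h0
  · obtain ⟨u, rfl⟩ := T.mem_P1.1 hx
    simp
  exact T.mem_P1'.2 fun ψ hψ => h.cw_eq h0 (T.c_of_mem1 hψ hx)

theorem cw_kr (b : O q) (w : U) (x : V) : cw T q w (T.kr b.1 1 x) = cw T q ((b⁻¹).1 w) x := by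
  rw [cw, T.c_kr, LinearEquiv.coe_one, id]; congr 2; ext v; simp [O.polar_right]

/-- The pointwise stabiliser of a set of vectors. -/
def Fx (p : V → Prop) : Subgroup (V ≃ₗ[F] V) where
  carrier := {g | ∀ x, p x → g x = x}
  one_mem' := fun _ _ => rfl
  mul_mem' := fun h h' x hx => by simp [h x hx, h' x hx]
  inv_mem' := fun {g} h x hx => g.injective (by simp [h x hx])

theorem conj_mem_Fx {p : V → Prop} (hg : g ∈ Fx p) (h : ∀ x, p x → p (k⁻¹ x)) :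
    k * g * k⁻¹ ∈ Fx (F := F) p := fun x hx => by simp [hg (k.symm x) (h x hx)]

theorem conj_mem_cent {G : Type*} [Group G] {s : Set G} {g k : G}
    (hg : g ∈ Subgroup.centralizer s) (h : k ∈ Subgroup.centralizer s) :
    k * g * k⁻¹ ∈ Subgroup.centralizer s := mul_mem (mul_mem h hg) (inv_mem h)

variable [Finite F] [FiniteDimensional F U]

theorem OU.exists_pure (γ : OU q) [Nontrivial V] (Φ : Fam ι F U W V) {x : ι → U} (h : ∀ i, x i ≠ 0) :
    ∃ z ≠ 0, ∀ i, z ∈ (Φ.T i).P (F ∙ x i) := by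
  obtain ⟨y, hy⟩ := DFunLike.ne_iff.1 (pi_ne_zero (Φ := Φ) (fun i => r q (x i) (x i))
    fun i => γ.r_ne (h i) (h i))
  exact ⟨_, hy, fun i => by rw [Φ.eq_mul _ i, End.mul_apply, e_r]; exact TF.t_mem_P1 _ _ _⟩

theorem Fm.ad_of_comm [FiniteDimensional F V] (μ : Fm q Q M Φ) {b : O q} {c : F} (τ : Ts q w f b c) (K : Finset ι) :
    ∀ X : End F V, (∀ i ∉ K, Cm (Φ.T i) X) → (∀ i ∈ K, (∀ s, polar q w s = 0 →
      X * (ae (Φ.T i) q w s).toLinearMap = (ae (Φ.T i) q w s).toLinearMap * X) ∧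
        X * (Φ.T i).e b.1.toLinearMap = (Φ.T i).e b.1.toLinearMap * X) → Ad (polarBilin Q) X X := by
  have := μ.γ.nontrivial
  induction K using Finset.induction_on with
  | empty =>
    intro X h _
    obtain ⟨c, rfl⟩ := Φ.cen X fun i => h i (by simp)
    exact Ad.one.smul c
  | insert i K hi ih =>
    intro X h h'
    have k : ∀ y, Ad (polarBilin Q) (cf (Φ.T i) q X f y) (cf (Φ.T i) q X f y) := fun y =>
      ih _ (fun l hl => by
        rcases eq_or_ne l i with rfl | e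
        · exact cm_cf _ _ _
        · exact fun a => cf_comm (Φ.cm_e e.symm a) (h l (by simp [e, hl]) a) _ _) fun l hl =>
        have e : i ≠ l := fun e => hi (e ▸ hl)
        have := h' l (by simp [hl])
        ⟨fun s hs => cf_comm (cm_kr e _) (this.1 s hs) _ _, cf_comm (Φ.cm_e e _) this.2 _ _⟩
    have := (k w).add (((μ.sl i).ad_e (ad_r w w)).mul (k f))
    rwa [cm_cf, ← μ.γ.eq_of_comm τ (h' i (by simp)).1 (h' i (by simp)).2] at this

theorem Sl.polar_res (σ : Sl q Q M T) {b : O q} {c : F} (τ : Ts q w f b c) (hg : g ∈ M)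
    (h : ∀ a ∈ Aw T τ.hyp.left, g * a = a * g) (h1 : g * T.kr b.1 1 = T.kr b.1 1 * g) {β : W → W}
    (e : ∀ u, g (T.t w u) = T.t w (β u)) (u u' : W) :
    polar Q (T.t w (β u)) (T.t f (β u')) = polar Q (T.t w u) (T.t f u') := by
  have h2 := LinearMap.congr_fun (σ.γ.eq_of_comm τ (X := g.toLinearMap)
    (fun s hs => congrArg LinearEquiv.toLinearMap (h _ ⟨s, hs, rfl⟩))
    (T.kr_coe _ ▸ congrArg LinearEquiv.toLinearMap h1)) (T.t f u')
  simp only [LinearEquiv.coe_coe, LinearMap.add_apply, End.mul_apply, cf_t, e, e_r, TF.c_t,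
    polarBilin_apply_apply, τ.hyp.polar_eq', one_smul] at h2
  rw [← O.map_polar ⟨g, σ.le hg⟩ (T.t w u), e, h2, polar_add_right, left_eq_add]
  exact σ.cp.B_eq_zero (T.t_mem_P1 _ _) (by simp [τ.hyp.polar_left])

end

variable {F W V : Type u} {U : Type*} [Field F] [AddCommGroup U] [Module F U] [AddCommGroup W]
  [Module F W] [AddCommGroup V] [Module F V] {q : QuadraticForm F U} {Q : QuadraticForm F V}
  {M : Subgroup (V ≃ₗ[F] V)} {ι : Type} [DecidableEq ι] [Fintype ι] {Φ : Fam ι F U W V}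
  [Finite F] [FiniteDimensional F U] [FiniteDimensional F W] [FiniteDimensional F V] [Nontrivial W]
  {g : V ≃ₗ[F] V} {i j : ι} {w w' : U}

namespace St

variable (μ : St q Q M Φ)
include μ

theorem two : 2 ≤ finrank F U := by have := μ.γ.three; omega

theorem nontrivial : Nontrivial V := by
  have := μ.two
  exact nontrivial_of_finrank_pos (R := F) (μ.rk ▸ pow_pos (by omega) _)

/-- The centraliser of a root group stabilises the decomposition. -/
theorem cen_le (h0 : w ≠ 0) (hw : q w = 0) (hg : g ∈ M)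
    (h : ∀ a ∈ Aw (Φ.T j) hw, g * a = a * g) : g ∈ WG Φ := by
  obtain ⟨p, hp⟩ := CharP.exists F
  have := Fact.mk (CharP.char_is_prime F p)
  have := μ.nontrivial
  have := finite_equiv (F := F) (V := V)
  obtain ⟨f, hf⟩ := μ.γ.hyp h0 hw
  obtain ⟨b, c, τ⟩ := μ.γ.tor hf
  set C := M ⊓ Subgroup.centralizer (Aw (Φ.T j) hw : Set (V ≃ₗ[F] V)) ⊓
    Subgroup.centralizer {(Φ.T j).kr b.1 1}
  have c1 : ∀ g ∈ M, Cm (Φ.T j) g.toLinearMap → g ∈ C := fun g hg h =>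
    ⟨⟨hg, fun _ ⟨_, _, e⟩ => e ▸ (h.comm_kr _).symm⟩, fun _ e => e ▸ (h.comm_kr _).symm⟩
  have c2 : ∀ g ∈ C, (∀ x ∈ (Φ.T j).P (F ∙ w), g x = x) → g = 1 := fun g hg h =>
    (μ.sl j).eq_one_of_tor (μ.gd j) τ hg.1.1 (fun a ha => (hg.1.2 a ha).symm) (hg.2 _ rfl).symm
      fun u => h _ (TF.t_mem_P1 _ _ _)
  rcases μ.dich p h0 c1 (fun g hg => (μ.sl j).map_P h0 hw fun a ha => (hg.1.2 a ha).symm)
    (fun β ⟨g, hg, e⟩ => ⟨f, by simp [hf.polar_eq], (μ.sl j).polar_res τ hg.1.1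
      (fun a ha => (hg.1.2 a ha).symm) (hg.2 _ rfl).symm e⟩) with h1 | ⟨l, hl, h1⟩
  · obtain ⟨a, ha, e⟩ := (μ.sl j).exists_tor (μ.gd j) τ hg h
    obtain ⟨s, hs, rfl⟩ := id ha
    have h2 : ae (Φ.T j) q w s * g ∈ C := ⟨⟨mul_mem ((μ.sl j).ae_mem _ _) hg, mul_mem (by
      rintro _ ⟨s', hs', rfl⟩
      rw [← ae_add hw hs' hs, add_comm, ae_add hw hs hs']) fun a ha => (h a ha).symm⟩,
        fun _ e' => e' ▸ e.symm⟩
    refine (mul_mem_cancel_left (kr_mem_WG j _)).1 (mem_WG_of μ.two j fun m hm => ?_ :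
      ae (Φ.T j) q w s * g ∈ _)
    obtain ⟨l, hl, h3⟩ := h1 _ h2 m hm
    refine ⟨l, μ.γ.sub_of_kr fun x y hx hy => ?_⟩
    obtain ⟨b, hb, h4⟩ := h3 x y hx hy
    have := c2 _ (mul_mem (inv_mem (c1 _ ((μ.sl l).su' hb) (cm_kr hl.symm _))) (mul_mem (mul_mem h2
      (c1 _ ((μ.sl m).ae_mem x y) (cm_kr hm.symm _))) (inv_mem h2))) fun z hz => by
        rw [LinearEquiv.mul_apply, h4 z hz]; simp
    exact ⟨_, by rw [smul_ae, ← inv_mul_eq_one.1 this, TF.kr_coe]⟩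
  obtain ⟨x, hx, h2, h3, y, hy, h4⟩ := h1 w h0 hw
  set X := C ⊓ Fx fun y => y ∈ (Φ.T j).P (F ∙ w) ∧ cw (Φ.T l) q w y = 0
  have c3 : ∀ m ≠ j, ∀ a ∈ eichGroup q, ∀ d : F, a.1 w = d • w → ∀ x ∈ X,
      (Φ.T m).kr a.1 1 * x * ((Φ.T m).kr a.1 1)⁻¹ ∈ X := fun m hm a ha d e x hx => by
    have := c1 _ ((μ.sl m).su' ha) (cm_kr hm.symm _)
    refine ⟨C.mul_mem (C.mul_mem this hx.1) (C.inv_mem this), conj_mem_Fx hx.2 fun y hy =>
      ⟨(cm_kr hm.symm _).inv.map_P hy.1, ?_⟩⟩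
    rcases eq_or_ne l m with rfl | e'
    · rw [← kr_inv', ← Subgroup.coe_inv, cw_kr]; simp [e, cw_smul, hy.2]
    · exact (cm_kr e' _).inv.cw_eq h0 hy.2
  have c4 : ∀ K : Finset ι, j ∉ K → p ∣ Nat.card (X ⊓ ⨅ m ∈ K,
      Subgroup.centralizer (Aw (Φ.T m) hw : Set (V ≃ₗ[F] V)) : Subgroup _) := fun K => by
    induction K using Finset.induction_on with
    | empty =>
      exact fun _ => exists_order.2 ⟨x, by simpa using ⟨hx, fun y hy => h2 y hy.1 hy.2⟩,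
        fun e => h4 (by simp [e]), c2 _ (pow_mem hx p) h3⟩
    | insert m K hm ih =>
      intro hj
      rw [Finset.mem_insert, not_or] at hj
      rw [Finset.iInf_insert, inf_comm (Subgroup.centralizer _), ← inf_assoc]
      refine dvd_card_cent (aw_pgroup p hw) ?_ (ih hj.2)
      rintro _ ⟨s, hs, rfl⟩
      refine Subgroup.mem_normalizer_fintype fun x hx => ⟨c3 m (Ne.symm hj.1) _
        (eich_mem_eichGroup w s) 1 (by simp [eich_apply_self hw hs]) x hx.1, ?_⟩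
      exact Subgroup.mem_iInf.2 fun n => Subgroup.mem_iInf.2 fun hn => conj_mem_cent
        (Subgroup.mem_iInf.1 (Subgroup.mem_iInf.1 hx.2 n) hn) fun _ ⟨_, _, e⟩ =>
        e ▸ ((cm_kr (i := n) (j := m) (fun e => hm (e ▸ hn)) _).comm_kr _).symm
  obtain ⟨z, h5, h7, h8⟩ := exists_order.1 (c4 (Finset.univ.erase j) (by simp))
  obtain ⟨h5, h6⟩ := Subgroup.mem_inf.1 h5
  simp only [Subgroup.mem_iInf] at h6
  have c5 : ∀ m, ∀ a ∈ Aw (Φ.T m) hw, z * a = a * z := fun m a ha => by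
    rcases eq_or_ne m j with rfl | e
    exacts [(h5.1.1.2 a ha).symm, (h6 m (by simpa) a ha).symm]
  have c6 : ∀ m, z * (Φ.T m).kr b.1 1 = (Φ.T m).kr b.1 1 * z := fun m => by
    rcases eq_or_ne m j with rfl | e
    · exact (h5.1.2 _ rfl).symm
    obtain ⟨s, hs, e1⟩ := (μ.sl m).comm_mem (μ.gd m) τ h5.1.1.1 (c5 m)
    have e2 : ae (Φ.T m) q w s ∈ X := e1 ▸ mul_mem (c3 m e b τ.mem c τ.left z h5) (inv_mem h5)
    refine (commutatorElement_eq_one_iff_mul_comm.1 (e1.trans (μ.γ.ae_eq_one h0 hw hs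
      fun y hy => ?_))).symm
    rcases eq_or_ne y 0 with rfl | y0
    · exact let ⟨u, hu⟩ := exists_ne (0 : W); ⟨u, hu, by simp⟩
    obtain ⟨v, v0, hv⟩ := μ.γ.exists_pure Φ (x := update (fun _ => w) m y) fun i => by
      by_cases i = m <;> simp [*]
    obtain ⟨u, rfl⟩ := (Φ.T m).mem_P1.1 (by simpa using hv m)
    refine ⟨u, fun e => v0 (by simp [e]), e2.2 _ ⟨by simpa [e.symm] using hv j,
      TF.c_of_mem1 _ ?_ (hv l)⟩⟩
    by_cases l = m <;> simp [*, polar_sing hw]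
  have := (μ.ad_of_comm τ Finset.univ z.toLinearMap (by simp) fun m _ =>
    ⟨fun s hs => congrArg LinearEquiv.toLinearMap (c5 m _ ⟨s, hs, rfl⟩),
      (Φ.T m).kr_coe _ ▸ congrArg LinearEquiv.toLinearMap (c6 m)⟩).unique (μ.sl j).hB
        (Ad.of_UG ((μ.sl j).ug h5.1.1.1))
  obtain ⟨n, hn⟩ := odd_char μ.γ p
  rw [hn, pow_succ, pow_mul, pow_two, mul_eq_one_iff_eq_inv.2 (LinearEquiv.toLinearMap_injective this),
    one_pow, one_mul] at h8
  exact (h7 h8).elim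

theorem loc (h0 : w ≠ 0) (hw : q w = 0) (h0' : w' ≠ 0) (hw' : q w' = 0) (hg : g ∈ M)
    (h : ∀ u, g ((Φ.T j).t w' u) ∈ (Φ.T i).P (F ∙ w)) : g ∈ WG Φ := by
  have e := P1_eq_of_le (T := g • Φ.T j) (T' := Φ.T i) h0' h0 (TF.P_le _ fun x hx u => by
    obtain ⟨c, rfl⟩ := Submodule.mem_span_singleton.1 hx
    simpa using Submodule.smul_mem _ c (h u))
  have h1 := (μ.sl i).aw_le ((μ.sl j).smul hg) (μ.gd i) h0 hw hw' e
  have h2 := ((μ.sl j).smul hg).aw_le (μ.sl i) ((μ.gd j).smul hg) h0' hw' hw e.symm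
  refine μ.γ.mem_WG_of_rel (μ.sl i).hB μ.cp ((μ.sl i).ug hg) j i (fun m hm b hb => μ.cen_le (j := i)
    h0 hw (mul_mem (mul_mem hg ((μ.sl m).su' hb)) (inv_mem hg)) fun a ha => ?_) fun l hl b hb =>
      μ.cen_le (j := j) h0' hw' (mul_mem (mul_mem (inv_mem hg) ((μ.sl l).su' hb)) hg) ?_
  · obtain ⟨s, -, rfl⟩ := h2 ha
    have := (cm_kr (Φ := Φ) hm.symm b.1).comm_kr (eich q w' s).1
    rw [smul_ae, conj_mul, conj_mul, ae, this]
  rintro _ ⟨s, hs, rfl⟩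
  obtain ⟨s', -, e⟩ := h1 ⟨s, hs, rfl⟩
  have := (cm_kr (Φ := Φ) hl.symm b.1).comm_kr (eich q w s').1
  rw [← ae, ← e, smul_ae] at this
  calc _ = g⁻¹ * ((Φ.T l).kr b.1 1 * (g * ae (Φ.T j) q w' s * g⁻¹)) * g := by group
    _ = _ := by rw [this]; group

end St

end Cfsg.Lib.TO
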