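import Cfsg.Agent.Lib.TO.Wr

/-!
# Orthogonal tensor powers: removing one slot
-/

set_option autoImplicit false
set_option linter.unusedSectionVars false

namespace Cfsg.Lib.TO

open Module QuadraticMap Cfsg.Lib.TW Cfsg.Lib.TMax Function
open Cfsg.Lib.Orth
open Cfsg.Lib.Unitary (UG)
open scoped commutatorElement

universe u

section

variable {F U W V : Type*} [Field F] [AddCommGroup U] [Module F U] [AddCommGroup W] [Module F W]
  [AddCommGroup V] [Module F V] {q : QuadraticForm F U} {Q : QuadraticForm F V}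
  {T : TF F U W V} {M C : Subgroup (V ≃ₗ[F] V)} {g : V ≃ₗ[F] V} {v : U}

theorem km_inj [Nontrivial U] {a b : End F W} (h : T.km 1 a = T.km 1 b) : a = b := by
  obtain ⟨v, hv⟩ := exists_ne (0 : U)
  exact LinearMap.ext fun u => T.t_inj hv (by simpa using LinearMap.congr_fun h (T.t v u))

theorem km_one : T.km 1 1 = 1 := T.ext' fun _ _ => by simp

theorem exists_lift [Nontrivial U] {R : Type*} [Monoid R] (f : R →* End F V) (h : ∀ x, Cm T (f x)) :
    ∃ f' : R →* End F W, ∀ x, f x = T.km 1 (f' x) := by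
  choose f' hf using fun x => (h x).exists_km
  exact ⟨⟨⟨f', km_inj (by rw [← hf, map_one, km_one])⟩, fun a b => km_inj (by
    rw [← hf, ← km_one_mul, ← hf, ← hf, map_mul])⟩, hf⟩

/-- The action on `v ⊗ W`. -/
def Res (T : TF F U W V) (v : U) (C : Subgroup (V ≃ₗ[F] V)) : Subgroup (W ≃ₗ[F] W) where
  carrier := {β | ∃ g ∈ C, ∀ u, g (T.t v u) = T.t v (β u)}
  one_mem' := ⟨1, one_mem _, fun _ => rfl⟩
  mul_mem' := fun ⟨_, h, e⟩ ⟨_, h', e'⟩ => ⟨_, mul_mem h h', fun u => by simp [e, e']⟩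
  inv_mem' := fun ⟨g, h, e⟩ => ⟨_, inv_mem h, fun u => g.injective (by simp [e])⟩

theorem exists_res [FiniteDimensional F W] (hv : v ≠ 0) (h : ∀ u, g (T.t v u) ∈ T.P (F ∙ v)) :
    ∃ β : W ≃ₗ[F] W, ∀ u, g (T.t v u) = T.t v (β u) := by
  obtain ⟨α, e⟩ := exists_t_eq (T := T) (T' := g • T) (w := v) hv
    (TF.P_le _ fun x hx u => by
      obtain ⟨c, rfl⟩ := Submodule.mem_span_singleton.1 hx
      simpa using Submodule.smul_mem _ c (h u))
  exact ⟨LinearEquiv.ofInjectiveEndo α fun u u' e' => T.t_inj hv (g.injective (by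
    rw [← T.smul_t, ← T.smul_t, e, e, e'])), e⟩

theorem exists_kr_of_cm [Nontrivial U] [FiniteDimensional F W] (h : Cm T g.toLinearMap) :
    ∃ β : W ≃ₗ[F] W, g = T.kr 1 β := by
  obtain ⟨β, e⟩ := h.exists_km
  obtain ⟨v, hv⟩ := exists_ne (0 : U)
  have k : ∀ v u, g (T.t v u) = T.t v (β u) := fun v u => by
    simpa using LinearMap.congr_fun e (T.t v u)
  exact ⟨LinearEquiv.ofInjectiveEndo β fun u u' e' => T.t_inj hv (g.injective (by rw [k, k, e'])),
    T.eq_of_t fun v u => by rw [k, T.kr_t]; rfl⟩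

variable [Finite F] [FiniteDimensional F U]

theorem OU.cp_of_adj (γ : OU q) {B : V →ₗ[F] V →ₗ[F] F}
    (h : ∀ a a', Ad (polarBilin q) a a' → Ad B (T.e a) (T.e a')) : Cp (polarBilin q) B T := by
  obtain ⟨w, f, h0⟩ := γ.exists_hyp
  refine ⟨(B.compl₂ (T.t f)).comp (T.t w), fun x u y u' => ?_⟩
  simpa [r_apply, h0.polar_eq', mul_comm] using h _ _ (ad_r x f) (T.t w u) (T.t y u')

theorem OU.sl_top (γ : OU q) (nd : ND Q) (cp : Cp (polarBilin q) (polarBilin Q) T) :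
    Sl q Q (O Q) T :=
  ⟨γ, nd, cp, le_rfl, fun _ hb => mem_O_of_UG γ.two (cp.kr_mem (Nq_le hb))⟩

theorem Sl.sim [Nontrivial W] (σ : Sl q Q M T) {a b} (h : T.kr a b ∈ O Q) :
    ∃ l : F, l ≠ 0 ∧ (∀ x y, polar q x y = l * polar q (a x) (a y)) ∧ (b = 1 → l = 1) := by
  obtain ⟨Q', h1, e⟩ := σ.exists_Q
  obtain ⟨u, hu⟩ := exists_ne (0 : W)
  obtain ⟨u', h2⟩ := h1.exists_polar_ne hu
  have k : ∀ x y, polar q x y = polar Q' (b u) (b u') / polar Q' u u' * polar q (a x) (a y) :=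
    fun x y => by
      have := O.map_polar ⟨_, h⟩ (T.t x u) (T.t y u')
      simp only [TF.kr_t, e] at this
      field_simp
      linear_combination -this
  obtain ⟨w, f, h3⟩ := σ.γ.exists_hyp
  exact ⟨_, fun e => by simpa [e, h3.polar_eq] using k w f, k, fun e => by simp [e, h2]⟩

theorem Sl.exists_eich [Nontrivial W] (σ : Sl q Q M T) {b} (h : T.kr b 1 ∈ O Q) {n : ℕ} (hn : Odd n)
    (h1 : T.kr b 1 ^ n = 1) : ∃ c ∈ eichGroup q, c.1 = b := by
  obtain ⟨l, -, h2, h3⟩ := σ.sim h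
  refine ⟨⟨b, mem_O_of_UG σ.γ.two fun x y => ?_⟩, σ.γ.mem_of_odd hn (Subtype.ext (kr_inj (T := T) ?_)),
    rfl⟩
  · simpa [h3 rfl] using (h2 x y).symm
  · exact (T.krHom.map_pow b n).trans (h1.trans T.kr_one.symm)

theorem odd_char (γ : OU q) (p : ℕ) [hp : Fact p.Prime] [CharP F p] : Odd p :=
  hp.out.odd_of_ne_two fun e => γ.two (by simpa [e] using CharP.cast_eq_zero F p)

variable {ι : Type*} [DecidableEq ι] [Fintype ι] {Φ : Fam ι F U W V}

theorem le_WG_of_card [Nontrivial W] [Nontrivial U] (h : Fintype.card ι ≤ 1) (g) : g ∈ WG Φ :=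
  ⟨1, fun i _ => exists_e fun l hl => (hl (Fintype.card_le_one_iff.1 h l i)).elim⟩

theorem exists_der [Nontrivial U] [FiniteDimensional F W] (j : ι) {W' : Type*} [AddCommGroup W']
    [Module F W'] [FiniteDimensional F W'] (h : finrank F W = finrank F U * finrank F W') :
    ∃ Φ' : Fam {l // l ≠ j} F U W' W, ∀ l a, (Φ.T l.1).e a = (Φ.T j).km 1 ((Φ'.T l).e a) := by
  let ex : ({l // l ≠ j} → End F U) →* ι → End F U :=
    { toFun := fun a l => if h : l ≠ j then a ⟨l, h⟩ else 1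
      map_one' := funext fun l => by simp
      map_mul' := fun a b => funext fun l => by by_cases h : l = j <;> simp [h] }
  obtain ⟨π, hπ⟩ := exists_lift (T := Φ.T j) (Φ.π.comp ex) fun a => Φ.cm (by simp [ex])
  have k : ∀ (l : {l // l ≠ j}) a, (Φ.T l.1).e a = (Φ.T j).km 1 (π (Pi.mulSingle l a)) := fun l a => by
    rw [← hπ, ← Φ.single, MonoidHom.comp_apply]
    congr 1
    funext m
    by_cases h : m = j
    · simp [ex, h, Pi.mulSingle_eq_of_ne l.2.symm]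
    · simp [ex, h, Pi.mulSingle_apply, Subtype.ext_iff]
  choose T hT using fun l : {l // l ≠ j} => exists_tf (W := W') (AlgHom.ofLinearMap
    { toFun := fun a => π (Pi.mulSingle l a)
      map_add' := fun a b => km_inj (T := Φ.T j) (by
        rw [← k, map_add, k, k]; exact (Φ.T j).ext' fun _ _ => by simp)
      map_smul' := fun a b => km_inj (T := Φ.T j) (by
        rw [← k, map_smul, k]; exact (Φ.T j).ext' fun _ _ => by simp) } (by simp)
    fun a b => by simp [Pi.mulSingle_mul]) h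
  have k' : ∀ l a, (Φ.T l.1).e a = (Φ.T j).km 1 ((T l).e a) := fun l a => by rw [hT, k]; rfl
  refine ⟨⟨T, π, fun l a => by rw [hT]; rfl, fun Y hY => ?_⟩, k'⟩
  obtain ⟨c, hc⟩ := Φ.cen ((Φ.T j).km 1 Y) fun l => by
    by_cases h : l = j
    · exact h ▸ cm_km _
    · exact fun a => by rw [k' ⟨l, h⟩, km_one_mul, km_one_mul, hY]
  exact ⟨c, km_inj (T := Φ.T j) (hc.trans ((Φ.T j).ext' fun _ _ => by simp))⟩

end

/-- The dichotomy for tensor powers with `n` slots. -/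
def Dich {F : Type u} {U : Type*} [Field F] [AddCommGroup U] [Module F U] [FiniteDimensional F U]
    (q : QuadraticForm F U) (n : ℕ) : Prop :=
  ∀ (ι : Type) [DecidableEq ι] [Fintype ι] (W V : Type u) [AddCommGroup W] [Module F W]
    [AddCommGroup V] [Module F V] [FiniteDimensional F W] [FiniteDimensional F V] [Nontrivial W]
    (Q : QuadraticForm F V) (M : Subgroup (V ≃ₗ[F] V)) (Φ : Fam ι F U W V), Fintype.card ι = n →
    Fm q Q M Φ → finrank F V = finrank F U ^ n →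
    M ≤ WG Φ ∨ (commutator (O Q)).map (O Q).subtype ≤ M

variable {F W V : Type u} {U : Type*} [Field F] [AddCommGroup U] [Module F U] [AddCommGroup W]
  [Module F W] [AddCommGroup V] [Module F V] {q : QuadraticForm F U} {Q : QuadraticForm F V}
  {M C : Subgroup (V ≃ₗ[F] V)} {ι : Type} [DecidableEq ι] [Fintype ι] {Φ : Fam ι F U W V}
  [Finite F] [FiniteDimensional F U] [FiniteDimensional F W] [FiniteDimensional F V] [Nontrivial W]

/-- Hypotheses for the inductive step. -/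
structure St (q : QuadraticForm F U) (Q : QuadraticForm F V) (M : Subgroup (V ≃ₗ[F] V))
    (Φ : Fam ι F U W V) : Prop extends Fm q Q M Φ where
  ih : Dich q (Fintype.card ι - 1)
  rk : finrank F V = finrank F U ^ Fintype.card ι
  gd : ∀ i, Gd q M (Φ.T i)

theorem St.dich (μ : St q Q M Φ) (p : ℕ) [Fact p.Prime] [CharP F p] {j : ι} {v : U} (hv : v ≠ 0)
    (h1 : ∀ g ∈ M, Cm (Φ.T j) g.toLinearMap → g ∈ C)
    (h2 : ∀ g ∈ C, ∀ u, g ((Φ.T j).t v u) ∈ (Φ.T j).P (F ∙ v))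
    (h3 : ∀ β ∈ Res (Φ.T j) v C, ∃ v', polar q v v' ≠ 0 ∧ ∀ u u',
      polar Q ((Φ.T j).t v (β u)) ((Φ.T j).t v' (β u')) = polar Q ((Φ.T j).t v u) ((Φ.T j).t v' u')) :
    (∀ g ∈ C, ∀ m ≠ j, ∃ l ≠ j, ∀ w s, q w = 0 → polar q w s = 0 → ∃ b ∈ eichGroup q,
      ∀ x ∈ (Φ.T j).P (F ∙ v), (g * ae (Φ.T m) q w s * g⁻¹) x = (Φ.T l).kr b.1 1 x) ∨
    ∃ l ≠ j, ∀ w, w ≠ 0 → q w = 0 → ∃ g ∈ C, (∀ x ∈ (Φ.T j).P (F ∙ v), cw (Φ.T l) q w x = 0 → g x = x) ∧
      (∀ x ∈ (Φ.T j).P (F ∙ v), (g ^ p) x = x) ∧ ∃ x ∈ (Φ.T j).P (F ∙ v), g x ≠ x := by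
  have γ := μ.γ
  have := γ.nontrivial
  have h3' := γ.three
  by_cases h0 : Fintype.card ι ≤ 1
  · exact .inl fun _ _ m hm => (hm (Fintype.card_le_one_iff.1 h0 m j)).elim
  obtain ⟨n, hn⟩ : ∃ n, Fintype.card ι = n + 2 := ⟨Fintype.card ι - 2, by omega⟩
  have r1 : finrank F W = finrank F U ^ (n + 1) := Nat.eq_of_mul_eq_mul_left
    (show 0 < finrank F U by omega)
    (by rw [← (Φ.T j).finrank_eq, μ.rk, hn]; ring)
  obtain ⟨Φ', e⟩ := exists_der (Φ := Φ) j (W' := Fin (finrank F U ^ n) → F) (by simp [r1, pow_succ'])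
  have : Nontrivial (Fin (finrank F U ^ n) → F) := Module.nontrivial_of_finrank_pos (R := F) (by
    simpa using pow_pos (by omega) _)
  obtain ⟨Q', nd, pol⟩ := (μ.sl j).exists_Q
  obtain ⟨w₀, f₀, hw₀⟩ := γ.exists_hyp
  have e1 : ∀ l a u, (Φ.T l.1).e a ((Φ.T j).t v u) = (Φ.T j).t v ((Φ'.T l).e a u) := by simp [e]
  have e2 : ∀ l b u, (Φ.T l.1).kr b 1 ((Φ.T j).t v u) = (Φ.T j).t v ((Φ'.T l).kr b 1 u) := by
    simp [TF.kr_one_apply, e1]
  have μ' : Fm q Q' (Res (Φ.T j) v C) Φ' := by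
    refine ⟨γ, μ.h4, nd, fun l => γ.cp_of_adj fun a a' h x y => ?_, fun β hβ => ?_,
      fun l b hb => ⟨_, h1 _ (μ.su l b hb) ((Φ.T l).kr_coe b ▸ Φ.cm_e l.2.symm _), e2 l b⟩, fun s s' => ?_⟩
    · simpa [e, pol, hw₀.polar_eq] using (μ.sl l).ad_e h ((Φ.T j).t w₀ x) ((Φ.T j).t f₀ y)
    · obtain ⟨v', k1, k2⟩ := h3 β hβ
      exact mem_O_of_UG γ.two fun x y => mul_left_cancel₀ k1 (by simpa [pol] using k2 x y)
    obtain ⟨g, hg, k⟩ := μ.pm (.ofSubtype s) (.ofSubtype s')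
    rw [← map_commutatorElement] at k
    have k1 : Cm (Φ.T j) g.toLinearMap := fun a => by
      have := k j a
      rw [Equiv.Perm.ofSubtype_apply_of_not_mem _ (by simp)] at this
      exact LinearMap.ext fun x => by simpa using LinearMap.congr_fun this (g x)
    obtain ⟨β, rfl⟩ := exists_kr_of_cm k1
    refine ⟨β, ⟨_, h1 _ hg k1, by simp⟩, fun l a => km_inj (T := Φ.T j) ?_⟩
    rw [← e, ← Equiv.Perm.ofSubtype_apply_coe, ← k, e]
    exact (Φ.T j).ext' fun _ _ => by simp [TF.kr_inv]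
  have c1 : Fintype.card {l // l ≠ j} = n + 1 := by simp [hn]
  by_cases hW : Res (Φ.T j) v C ≤ WG Φ'
  · refine .inl fun g hg m hm => ?_
    obtain ⟨β, k⟩ := exists_res hv (h2 g hg)
    obtain ⟨σ, hσ⟩ := hW ⟨g, hg, k⟩
    refine ⟨_, (σ ⟨m, hm⟩).2, fun w s hw hs => ?_⟩
    obtain ⟨b, hb⟩ := (hσ ⟨m, hm⟩).conj_kr (eich q w s).1
    obtain ⟨c, hc, rfl⟩ := (μ'.sl _).exists_eich (hb ▸ μ'.le (mul_mem (mul_mem ⟨g, hg, k⟩
      ((μ'.sl _).ae_mem w s)) (inv_mem ⟨g, hg, k⟩))) (odd_char γ p) (by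
        rw [← hb, conj_pow, show TF.kr _ _ _ ^ p = 1 from ae_pow p hw hs]; simp)
    refine ⟨c, hc, fun x hx => ?_⟩
    obtain ⟨u, rfl⟩ := (Φ.T j).mem_P1.1 hx
    have : g⁻¹ ((Φ.T j).t v u) = (Φ.T j).t v (β⁻¹ u) := g.injective (by simp [k])
    rw [e2, ← hb, LinearEquiv.mul_apply, LinearEquiv.mul_apply, this, ae, e2 ⟨m, hm⟩, k]
    rfl
  have hΩ := (μ.ih _ _ _ Q' _ Φ' (by omega) μ' (by rw [r1, hn]; rfl)).resolve_left hW
  have n0 : n ≠ 0 := fun e => hW fun g _ => le_WG_of_card (by omega) g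
  obtain ⟨l⟩ : Nonempty {l // l ≠ j} := Fintype.card_pos_iff.1 (by omega)
  refine .inr ⟨l, l.2, fun w w0 hw => ?_⟩
  obtain ⟨a, ha⟩ := exists_ne (0 : Fin (finrank F U ^ n) → F)
  obtain ⟨b, hb⟩ := exists_notMem (N := F ∙ a) (by
    have := finrank_span_le (F := F) a
    have := Nat.le_self_pow n0 (finrank F U)
    simp; omega)
  have z : ∀ a x, cw (Φ'.T l) q w x = 0 → polar Q' ((Φ'.T l).t w a) x = 0 := fun a x =>
    (μ'.cp l).B_eq_zero (TF.t_mem_P1 _ _ _)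
  have z1 := fun a b => z a ((Φ'.T l).t w b) (by simp [polar_sing hw])
  have z2 : Q' ((Φ'.T l).t w a) = 0 := by simpa [polar_self', γ.two] using z1 a a
  have z3 : Q' ((Φ'.T l).t w b) = 0 := by simpa [polar_self', γ.two] using z1 b b
  obtain ⟨g, hg, k⟩ := hΩ ⟨_, eich_mem_commutator nd (not_exc_of_two_ne_zero γ.two)
    ((Φ'.T l).t w a) ((Φ'.T l).t w b), rfl⟩
  simp only [Subgroup.subtype_apply, eich_apply z2 (z1 a b), z3, zero_mul, zero_smul, sub_zero] at k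
  refine ⟨g, hg, fun x hx h => ?_, fun x hx => ?_, ?_⟩
  · obtain ⟨u, rfl⟩ := (Φ.T j).mem_P1.1 hx
    have : cw (Φ'.T l) q w u = 0 := (Φ'.T l).t_inj w0 ((Φ.T j).t_inj hv (by
      rw [← e_r, ← e1, e_r, h]; simp))
    simp [k, z _ _ this]
  · obtain ⟨u, rfl⟩ := (Φ.T j).mem_P1.1 hx
    have : ∀ n : ℕ, (g ^ n) ((Φ.T j).t v u) = (Φ.T j).t v (u + (n : F) • (polar Q' ((Φ'.T l).t w b) u •
        (Φ'.T l).t w a - polar Q' ((Φ'.T l).t w a) u • (Φ'.T l).t w b)) := fun n => by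
      induction n with
      | zero => simp
      | succ n ih =>
        rw [pow_succ', LinearEquiv.mul_apply, ih, k]
        simp only [polar_add_right, polar_smul_right', polar_sub_right, z1]
        congr 1; push_cast; module
    simp [this]
  obtain ⟨y, e3, e4⟩ := (ef_polar nd).exists_perp_one (w := (Φ'.T l).t w a) (x := (Φ'.T l).t w b)
    (fun h => hb (by
      obtain ⟨c, hc⟩ := Submodule.mem_span_singleton.1 h
      exact Submodule.mem_span_singleton.2 ⟨c, (Φ'.T l).t_inj w0 (by simp [hc])⟩)) 1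
  refine ⟨_, TF.t_mem_P1 _ v y, fun h => (Φ'.T l).t_ne_zero w0 ha ?_⟩
  simpa [show polar Q' _ y = 0 from e3, polar_comm Q' _ y, show polar Q' y _ = 1 from e4] using
    (Φ.T j).t_inj hv ((k y).symm.trans h)

end Cfsg.Lib.TO
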