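import Cfsg.Agent.Lib.TO.Base

/-!
# Orthogonal tensor factors: extraction of pure coefficients
-/

set_option autoImplicit false
set_option linter.unusedSectionVars false

namespace Cfsg.Lib.TO

open Module QuadraticMap Cfsg.Lib.TW Cfsg.Lib.TMax Function
open Cfsg.Lib.Orth
open scoped commutatorElement

variable {F U W V : Type*} [Field F] [AddCommGroup U] [Module F U] [AddCommGroup W] [Module F W]
  [AddCommGroup V] [Module F V] {q : QuadraticForm F U} {T : TF F U W V}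

/-- The coefficients of `β` as a bilinear map. -/
noncomputable def cf (T : TF F U W V) (q : QuadraticForm F U) (β : End F V) :
    U →ₗ[F] U →ₗ[F] End F V :=
  LinearMap.mk₂ F (fun x y => T.coef (polarBilin q x) y β)
    (fun _ _ _ => T.ext' fun _ _ => by simp [TF.coef, TF.c_add])
    (fun _ _ _ => T.ext' fun _ _ => by simp [TF.coef, TF.c_smul])
    (fun _ _ _ => T.ext' fun _ _ => by simp [TF.coef])
    (fun _ _ _ => T.ext' fun _ _ => by simp [TF.coef])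

theorem cm_cf (β : End F V) (x y : U) : Cm T (cf T q β x y) := T.cm_coef _ _ _

theorem rr (a x y b : U) (β : End F V) :
    T.e (r q a x) * β * T.e (r q y b) = T.e (r q a b) * cf T q β x y := T.rk_mul_rk _ _ _ _ _

theorem cf_t (β : End F V) (x y v : U) (u : W) :
    cf T q β x y (T.t v u) = T.t v (T.c (polarBilin q x) (β (T.t y u))) := by
  simp [cf, TF.coef]

theorem cf_comm [Nontrivial U] {Y β : End F V} (h : Cm T Y) (e : β * Y = Y * β) (x y : U) :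
    cf T q β x y * Y = Y * cf T q β x y := h.coef_comm e _ _

theorem cm_zero : Cm T 0 := fun _ => by simp

theorem _root_.Cfsg.Lib.TW.Cm.neg {X : End F V} (h : Cm T X) : Cm T (-X) := by
  simpa using h.smul (-1)

/-- A nonzero self-adjoint square zero element. -/
def NT (q : QuadraticForm F U) (a : End F U) : Prop := ∃ w, w ≠ 0 ∧ q w = 0 ∧ a = r q w w

/-- A nonzero root direction. -/
def PT (q : QuadraticForm F U) (a : End F U) : Prop :=
  ∃ w s, w ≠ 0 ∧ q w = 0 ∧ polar q w s = 0 ∧ s ∉ F ∙ w ∧ a = sk q w s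

theorem r_mul_sk {w s : U} (hw : q w = 0) (hs : polar q w s = 0) : r q w w * sk q w s = 0 := by
  simp [sk_eq, mul_sub, r_mul, hs, polar_sing hw]

theorem sk_mul_r {w s : U} (hw : q w = 0) (hs : polar q w s = 0) : sk q w s * r q w w = 0 := by
  simp [sk_eq, sub_mul, r_mul, polar_comm q s w, hs, polar_sing hw]

theorem r_mul_self {w : U} (hw : q w = 0) : r q w w * r q w w = 0 := by
  simp [r_mul, polar_sing hw]

theorem sk_neg (x y : U) : sk q x (-y) = -sk q x y := by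
  rw [← neg_one_smul F y, sk_smul_right, neg_one_smul]

theorem eich_inv_coe {w s : U} (hw : q w = 0) (hs : polar q w s = 0) :
    ((eich q w s).1⁻¹).toLinearMap = 1 - sk q w s - q s • r q w w := by
  rw [← Subgroup.coe_inv, ← eich_neg hw hs, eich_coe hw (by simp [hs]), sk_neg, q.map_neg,
    sub_eq_add_neg 1]

theorem conj_e {N : Subgroup (U ≃ₗ[F] U)} {S : AddSubgroup (End F V)} (h : Cl T N S) {b : O q}
    (hb : b.1 ∈ N) {a : End F U} {δ : End F V} (hδ : Cm T δ) (h1 : T.e a * δ ∈ S) :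
    T.e (b.1.toLinearMap * a * (b⁻¹).1.toLinearMap) * δ ∈ S := by
  have := h _ hb _ h1
  rwa [mul_assoc, mul_assoc, hδ, ← mul_assoc, ← mul_assoc, ← map_mul, ← map_mul] at this

theorem sym_mem {S : AddSubgroup (End F V)} (h : Cl T (Nq q) S) {β} (hβ : β ∈ S) {w s : U}
    (hw : q w = 0) (hs : polar q w s = 0) (c : F) :
    (2 * c ^ 2) • (-q s • (T.e (r q w w) * β + β * T.e (r q w w)) -
      T.e (sk q w s) * β * T.e (sk q w s)) +
      (2 * c ^ 4 * q s ^ 2) • (T.e (r q w w) * β * T.e (r q w w)) ∈ S := by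
  have h1 : polar q w (c • s) = 0 := by simp [hs]
  have h2 : polar q w (-(c • s)) = 0 := by simp [hs]
  convert sub_mem (sub_mem (add_mem (h _ (eich_mem_Nq w (c • s)) β hβ)
    (h _ (eich_mem_Nq w (-(c • s))) β hβ)) hβ) hβ using 1
  rw [eich_coe hw h1, eich_coe hw h2, eich_inv_coe hw h1, eich_inv_coe hw h2, q.map_neg, sk_neg,
    sk_smul_right, Q_smul]
  simp only [map_add, map_sub, map_smul, map_neg, map_one, mul_add, add_mul, mul_sub, sub_mul,
    smul_mul_assoc, mul_smul_comm, neg_mul, mul_neg, one_mul, mul_one]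
  module

variable [Finite F] [FiniteDimensional F U]

namespace OU

variable (γ : OU q)
include γ

theorem r_ne {x y : U} (hx : x ≠ 0) (hy : y ≠ 0) : r q x y ≠ 0 := fun h => by
  obtain ⟨z, hz⟩ := γ.ef.exists_eq_one hy
  exact hx (by simpa [r_apply, show polar q y z = 1 from hz] using LinearMap.congr_fun h z)

theorem sk_ne {w s : U} (h0 : w ≠ 0) (h1 : s ∉ F ∙ w) : sk q w s ≠ 0 := fun h => by
  obtain ⟨z, h2, h3⟩ := γ.ef.exists_perp_one h1 1
  have := LinearMap.congr_fun h z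
  simp [sk_apply, show polar q w z = 0 from h2, polar_comm q s z, show polar q z s = 1 from h3,
    h0] at this

theorem NT.ne {a} (h : NT q a) : a ≠ 0 := let ⟨_, h0, _, e⟩ := h; e ▸ γ.r_ne h0 h0

theorem PT.ne {a} (h : PT q a) : a ≠ 0 := let ⟨_, _, h0, _, _, h1, e⟩ := h; e ▸ γ.sk_ne h0 h1

theorem cm_of_cf {β : End F V}
    (h : ∀ w, w ≠ 0 → q w = 0 → ∀ s, polar q w s = 0 → cf T q β s w = 0) : Cm T β := by
  refine cm_of_scalar fun χ u => γ.scalar_of_fix (β := T.d χ ∘ₗ β ∘ₗ T.t.flip u) fun w hw => ?_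
  rcases eq_or_ne w 0 with rfl | h0
  · simp
  refine γ.mem_of_perp fun s hs => ?_
  have := LinearMap.congr_fun (h w h0 hw s hs) (T.t w u)
  rw [cf_t] at this
  have h4 : T.c (polarBilin q s) (β (T.t w u)) = 0 := T.t_inj h0 (by simpa using this)
  exact (T.apply_d (polarBilin q s) χ _).trans (by simp [h4])

theorem exists_line (h5 : 5 ≤ finrank F U) {w : U} (h0 : w ≠ 0) (hw : q w = 0) :
    ∃ s, q s = 0 ∧ polar q w s = 0 ∧ s ∉ F ∙ w := by
  obtain ⟨f, h⟩ := γ.hyp h0 hw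
  have := h.finrank_hperp γ.nd
  obtain ⟨⟨s, hs⟩, f', h1⟩ := exists_isHyp_of_three_le (h.nd_hperp γ.nd) (by omega)
  refine ⟨s, h1.left, (mem_hperp.1 hs).1, fun e => h1.ne_zero (Subtype.ext ?_)⟩
  obtain ⟨c, rfl⟩ := Submodule.mem_span_singleton.1 e
  simpa [h.polar_eq', h0] using (mem_hperp.1 hs).2

theorem span_perp (h5 : 5 ≤ finrank F U) {w : U} (h0 : w ≠ 0) (hw : q w = 0) (S : AddSubgroup U)
    (hS : ∀ s, q s = 0 → polar q w s = 0 → s ∈ S) {s : U} (hs : polar q w s = 0) : s ∈ S := by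
  obtain ⟨s₀, e1, e2, e3⟩ := γ.exists_line h5 h0 hw
  have k : ∀ {s}, q s = 0 → polar q w s = 0 →
      s ∈ AddSubgroup.closure {s | q s = 0 ∧ polar q w s = 0} := fun h h' =>
    AddSubgroup.subset_closure ⟨h, h'⟩
  refine (AddSubgroup.closure_le (k := {s | q s = 0 ∧ polar q w s = 0}) S).2
    (fun s h => hS s h.1 h.2) (γ.irr h0 hw _ (fun c => k (by simp [Q_smul, hw])
      (by simp [polar_sing hw])) (fun b _ l hb s hs => ?_) (k e1 e2) e2 e3 hs)
  refine (AddSubgroup.closure_le (AddSubgroup.comap (l • b.1.toLinearMap).toAddMonoidHom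
    (AddSubgroup.closure {s | q s = 0 ∧ polar q w s = 0}))).2
    (fun s h => k (s := l • b.1 s) (by simp [Q_smul, O.map_Q, h.1]) ?_) hs
  have := O.map_polar b w s
  rw [hb, h.2, polar_smul_left'] at this
  simpa using this

theorem ex_five (h5 : 5 ≤ finrank F U) {S : AddSubgroup (End F V)} (hS : Cl T (Nq q) S) {β}
    (hβ : β ∈ S) (h : ¬ Cm T β) : ∃ a c x y, (NT q a ∨ PT q a) ∧ c ≠ 0 ∧ cf T q β x y ≠ 0 ∧
      T.e a * (c : F) • cf T q β x y ∈ S := by
  have h2 := γ.two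
  have k : ∀ {w s β}, β ∈ S → q w = 0 → polar q w s = 0 → T.e (r q w w) * β = 0 →
      β * T.e (r q w w) = 0 → (-2 : F) • (T.e (sk q w s) * β * T.e (sk q w s)) ∈ S :=
    fun hβ hw hs e1 e2 => by simpa [e1, e2] using sym_mem hS hβ hw hs 1
  have k' : ∀ {w s}, q w = 0 → q s = 0 → polar q w s = 0 →
      (-2 : F) • (T.e (sk q w s) * β * T.e (sk q w s)) ∈ S :=
    fun hw hs' hs => by simpa [hs'] using sym_mem hS hβ hw hs 1
  by_cases h1 : ∀ w, q w = 0 → cf T q β w w = 0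
  swap
  · push Not at h1
    obtain ⟨w, hw, h1⟩ := h1
    have h0 : w ≠ 0 := fun e => h1 (by simp [e])
    obtain ⟨s, e1, e2, e3⟩ := γ.exists_line h5 h0 hw
    obtain ⟨y, e4, e5⟩ := γ.ef.exists_perp_one e3 1
    replace e5 : polar q y s = 1 := e5
    refine ⟨_, 4, w, w, .inl ⟨w, h0, hw, rfl⟩, by
      rw [show (4 : F) = 2 * 2 by norm_num]; exact mul_ne_zero h2 h2, h1, ?_⟩
    convert k (s := y) (k' hw e1 e2) hw e4 (by
      simp [← mul_assoc, ← map_mul, r_mul_sk hw e2]) (by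
      simp [mul_assoc, ← map_mul, sk_mul_r hw e2]) using 1
    simp only [mul_smul_comm, smul_mul_assoc, ← rr, smul_smul, ← mul_assoc, ← map_mul,
      sk_mul hw e4 e2, e5]
    simp only [mul_assoc, ← map_mul, sk_mul hw e2 e4, polar_comm q s y, e5, map_smul, mul_smul_comm,
      smul_mul_assoc, smul_smul]
    norm_num
  have := mt γ.cm_of_cf h
  push Not at this
  obtain ⟨w, h0, hw, s, hs, h3⟩ := this
  have := mt (fun e => γ.span_perp h5 h0 hw (LinearMap.ker ((cf T q β).flip w)).toAddSubgroup e hs) h3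
  push Not at this
  obtain ⟨s, e1, e2, e3⟩ := this
  refine ⟨_, -2, s, w, .inr ⟨w, s, h0, hw, e2, fun e => e3 ?_, rfl⟩, by simpa, e3, ?_⟩
  · obtain ⟨c, rfl⟩ := Submodule.mem_span_singleton.1 e
    simp [h1 w hw]
  have e4 := h1 (w + s) (by simp [Q_add, hw, e1, e2])
  simp only [map_add, LinearMap.add_apply, h1 w hw, h1 s e1, zero_add, add_zero] at e4
  convert k' hw e1 e2 using 1
  simp only [sk_eq, map_sub, mul_sub, sub_mul, rr, h1 w hw, h1 s e1, eq_neg_of_add_eq_zero_right e4,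
    mul_smul_comm, mul_neg, mul_zero]
  module

theorem one_eq (h3 : finrank F U = 3) {w f s : U} (h : IsHyp q w f) (hs : s ∈ hperp q w f)
    (h0 : q s ≠ 0) : (∀ y ∈ hperp q w f, y ∈ F ∙ s) ∧
      (1 : End F U) = r q w f + r q f w + (2 * q s)⁻¹ • r q s s := by
  have h1 := h.finrank_hperp γ.nd
  have h2 := Submodule.eq_of_le_of_finrank_le ((Submodule.span_singleton_le_iff_mem _ _).2 hs)
    (by rw [finrank_span_singleton fun e => h0 (by simp [e])]; omega)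
  refine ⟨fun y hy => h2.ge hy, LinearMap.ext fun y => ?_⟩
  obtain ⟨a, b, z, hz, rfl⟩ := h.exists_decomp y
  obtain ⟨c, rfl⟩ := Submodule.mem_span_singleton.1 (h2.ge hz)
  obtain ⟨e1, e2⟩ := mem_hperp.1 hs
  have := γ.two
  simp only [LinearMap.add_apply, LinearMap.smul_apply, r_apply, h.polar_left_comb hz,
    h.polar_right_comb hz, End.one_apply]
  simp only [polar_add_right, polar_smul_right', polar_comm q s w, polar_comm q s f, e1, e2,
    polar_self']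
  match_scalars <;> field_simp <;> ring

theorem exists_t (h : finrank F U < 5) : ∃ t : F, t ≠ 0 ∧ t ^ 2 ≠ 1 :=
  (γ.cs.resolve_left (by omega)).2

theorem ex_three (h3 : finrank F U = 3) {S : AddSubgroup (End F V)} (hS : Cl T (Nq q) S) {β}
    (hβ : β ∈ S) (h : ¬ Cm T β) : ∃ a c x y, (NT q a ∨ PT q a) ∧ c ≠ 0 ∧ cf T q β x y ≠ 0 ∧
      T.e a * (c : F) • cf T q β x y ∈ S := by
  have h2 := γ.two
  obtain ⟨t, t0, t1⟩ := γ.exists_t (by omega)
  replace t1 := sub_ne_zero.2 t1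
  by_cases h1 : ∀ w, q w = 0 → cf T q β w w = 0
  swap
  · push Not at h1
    obtain ⟨w, hw, h1⟩ := h1
    have h0 : w ≠ 0 := fun e => h1 (by simp [e])
    obtain ⟨s, e1, e2⟩ := γ.exists_aniso h0 hw
    refine ⟨_, -(2 * (t ^ 2 - 1) * (2 * t) * q s) ^ 2, w, w, .inl ⟨w, h0, hw, rfl⟩, by
      simp [h2, t0, t1, e2], h1, ?_⟩
    convert sub_mem (add_mem (sym_mem hS hβ hw e1 (t ^ 2 - 1)) (sym_mem hS hβ hw e1 (2 * t)))
      (sym_mem hS hβ hw e1 (t ^ 2 + 1)) using 1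
    rw [mul_smul_comm, ← rr]
    module
  have := mt γ.cm_of_cf h
  push Not at this
  obtain ⟨w, h0, hw, y, hy, h4⟩ := this
  obtain ⟨f, hf⟩ := γ.hyp h0 hw
  obtain ⟨s, hs, e0⟩ := hf.exists_nonsingular γ.nd γ.three
  obtain ⟨e1, e2⟩ := γ.one_eq h3 hf hs e0
  obtain ⟨e3, e4⟩ := mem_hperp.1 hs
  have k : ∀ c : F, c • (cf T q β f s + cf T q β s f) + c ^ 2 • (cf T q β s s -
      q s • (cf T q β w f + cf T q β f w)) - (c ^ 3 * q s) • (cf T q β w s + cf T q β s w) = 0 :=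
    fun c => by
      have := h1 _ (show q ((-q (c • s)) • w + (1 : F) • f + c • s) = 0 by
        rw [hf.Q_comb' (Submodule.smul_mem _ _ hs)]; simp)
      simp only [map_add, map_smul, LinearMap.add_apply, LinearMap.smul_apply, h1 w hw,
        h1 f hf.right, Q_smul] at this
      linear_combination (norm := module) this
  have k1 : cf T q β s s = q s • (cf T q β w f + cf T q β f w) :=
    sub_eq_zero.1 ((smul_eq_zero_iff_right h2).1 (by linear_combination (norm := module) k 1 + k (-1)))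
  have k2 : cf T q β w s = -cf T q β s w :=
    eq_neg_of_add_eq_zero_left ((smul_eq_zero_iff_right (show t * (t ^ 2 - 1) * q s ≠ 0 by
      simp [t0, t1, e0])).1 (by linear_combination (norm := module) t • k 1 - k t + (t ^ 2 - t) • k1))
  have k3 : s ∉ F ∙ w := fun e => by
    obtain ⟨c, rfl⟩ := Submodule.mem_span_singleton.1 e
    simp [Q_smul, hw] at e0
  refine ⟨_, -1, s, w, .inr ⟨w, s, h0, hw, e3, k3, rfl⟩, by simp, fun e => h4 ?_, ?_⟩
  · obtain ⟨a, b, z, hz, rfl⟩ := hf.exists_decomp y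
    obtain ⟨c, rfl⟩ := Submodule.mem_span_singleton.1 (e1 z hz)
    rw [hf.polar_left_comb hz] at hy
    simp [hy, e, h1 w hw]
  convert sym_mem hS hβ hw e3 1 using 1
  rw [rr, h1 w hw, ← mul_one (T.e (r q w w) * β), ← one_mul (β * T.e (r q w w)), ← map_one T.e, e2]
  simp only [sk_eq, map_sub, map_add, map_smul, mul_sub, sub_mul, mul_add, add_mul, ← mul_assoc, rr,
    h1 w hw, k1, k2, mul_smul_comm, smul_mul_assoc, mul_neg, mul_zero]
  match_scalars <;> field_simp <;> ring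

theorem ex0 (h4 : finrank F U ≠ 4) {S : AddSubgroup (End F V)} (hS : Cl T (Nq q) S) {β}
    (hβ : β ∈ S) (h : ¬ Cm T β) : ∃ a δ, (NT q a ∨ PT q a) ∧ δ ≠ 0 ∧ Cm T δ ∧
      (∀ Y, Cm T Y → β * Y = Y * β → δ * Y = Y * δ) ∧ T.e a * δ ∈ S := by
  have := γ.nontrivial
  have := γ.three
  obtain ⟨a, c, x, y, h1, h2, h3, h5⟩ := (show finrank F U = 3 ∨ 5 ≤ finrank F U by omega).elim
    (γ.ex_three · hS hβ h) (γ.ex_five · hS hβ h)
  exact ⟨a, _, h1, smul_ne_zero h2 h3, (cm_cf _ _ _).smul c, fun Y hY e => by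
    rw [smul_mul_assoc, cf_comm hY e, mul_smul_comm], h5⟩

theorem spreadP {S : AddSubgroup (End F V)} (hS : Cl T (Nq q) S) {a δ} (ha : PT q a) (hδ : Cm T δ)
    (h : T.e a * δ ∈ S) {w s : U} (hw : q w = 0) (hs : polar q w s = 0) : T.e (sk q w s) * δ ∈ S := by
  obtain ⟨x, y, h0, hx, hy, h1, rfl⟩ := ha
  rcases eq_or_ne w 0 with rfl | h2
  · simp [sk_eq, rk]
  obtain ⟨g, hg, c, hc, e⟩ := γ.move h0 hx h2 hw
  have k := conj_e hS (mem_Nq hg) hδ h
  rw [conj_sk, e, sk_smul_left, ← sk_smul_right] at k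
  refine γ.irr h2 hw (S.comap (LinearMap.mulRight F δ ∘ₗ T.e.toLinearMap ∘ₗ
    ((rL q w) - (rL q).flip w)).toAddMonoidHom) (fun c => ?_) (fun b hb l e s hs => ?_) k ?_ ?_ hs
  · change T.e (sk q w (c • w)) * δ ∈ S
    simp [sk_smul_right, sk_self]
  · have := conj_e hS (mem_Nq hb) hδ hs
    change T.e (_ * sk q w s * _) * δ ∈ S at this
    rwa [conj_sk, e, sk_smul_left, ← sk_smul_right] at this
  · rw [polar_smul_right', ← polar_smul_left', ← e, O.map_polar, hy]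
  · rw [Submodule.smul_mem_iff _ hc]
    refine fun e' => h1 ?_
    obtain ⟨d, e'⟩ := Submodule.mem_span_singleton.1 e'
    exact Submodule.mem_span_singleton.2 ⟨d / c, g.1.injective (by
      rw [map_smul, e, smul_smul, div_mul_cancel₀ _ hc, e'])⟩

theorem spreadN {S : Submodule F (End F V)} (hS : Cl T (Nq q) S.toAddSubgroup) {a δ} (ha : NT q a)
    (hδ : Cm T δ) (h : T.e a * δ ∈ S) {w : U} (hw : q w = 0) : T.e (r q w w) * δ ∈ S := by
  obtain ⟨x, h0, hx, rfl⟩ := ha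
  rcases eq_or_ne w 0 with rfl | h2
  · simp [rk]
  obtain ⟨g, hg, c, hc, e⟩ := γ.move h0 hx h2 hw
  have k := conj_e hS (mem_Nq hg) hδ h
  rw [conj_r, e, r_smul, map_smul, smul_mul_assoc] at k
  exact (S.smul_mem_iff (mul_ne_zero hc hc)).1 k

variable {ι : Type*} [DecidableEq ι] [Fintype ι] {Φ : Fam ι F U W V} (h4 : finrank F U ≠ 4)
include h4

theorem exm (K : Finset ι) : ∀ S : AddSubgroup (End F V), (∀ l ∈ K, Cl (Φ.T l) (Nq q) S) →
    ∀ β ∈ S, β ≠ 0 → ∃ (a : ι → End F U) (δ : End F V), δ ≠ 0 ∧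
      (∀ l, a l = 1 ∨ l ∈ K ∧ (NT q (a l) ∨ PT q (a l))) ∧ (∀ l ∈ K, Cm (Φ.T l) δ) ∧
      (∀ Y, (∀ l ∈ K, Cm (Φ.T l) Y) → β * Y = Y * β → δ * Y = Y * δ) ∧ Φ.π a * δ ∈ S ∧
      ((∀ l, a l = 1) → δ = β) := by
  induction K using Finset.induction_on with
  | empty => exact fun S _ β hβ h0 => ⟨1, β, h0, by simp, by simp, fun _ _ => id, by simpa, by simp⟩
  | insert i K hi ih =>
    intro S hS β hβ h0
    have e : ∀ l ∈ K, l ≠ i := fun l hl e => hi (e ▸ hl)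
    by_cases h : Cm (Φ.T i) β
    · obtain ⟨a, δ, h1, h2, h3, h5, h6, h7⟩ := ih S (fun l hl => hS l (by simp [hl])) β hβ h0
      exact ⟨a, δ, h1, fun l => (h2 l).imp_right fun h => ⟨by simp [h.1], h.2⟩, by
        simpa using ⟨fun x => h5 _ (fun l hl => Φ.cm_e (e l hl) x) (h x), h3⟩,
        fun Y hY => h5 Y fun l hl => hY l (by simp [hl]), h6, h7⟩
    obtain ⟨b, ζ, k1, k2, k3, k4, k5⟩ := γ.ex0 h4 (hS i (by simp)) hβ h
    obtain ⟨a, δ, h1, h2, h3, h5, h6, -⟩ := ih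
      (S.comap (LinearMap.mulLeft F ((Φ.T i).e b)).toAddMonoidHom) (fun l hl c hc η hη => by
        have := hS l (by simp [hl]) c hc _ hη
        change (Φ.T l).e _ * ((Φ.T i).e b * η) * _ ∈ S at this
        change (Φ.T i).e b * _ ∈ S
        rwa [← mul_assoc, ← Φ.cm_e (e l hl), mul_assoc, mul_assoc, ← mul_assoc _ η] at this) ζ k5 k2
    refine ⟨update a i b, δ, h1, fun l => ?_, by
      simpa using ⟨fun x => h5 _ (fun l hl => Φ.cm_e (e l hl) x) (k3 x), h3⟩, fun Y hY e =>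
        h5 Y (fun l hl => hY l (by simp [hl])) (k4 Y (hY i (by simp)) e), ?_, fun h => ?_⟩
    · rcases eq_or_ne l i with rfl | e
      · simp [k1]
      · simpa [e] using h2 l
    · rw [Φ.update_of_one ((h2 i).resolve_right fun h => hi h.1), mul_assoc]; exact h6
    obtain rfl : b = 1 := by simpa using h i
    rcases k1 with ⟨w, h0, hw, e⟩ | ⟨w, s, h0, hw, hs, -, e⟩ <;>
      exact (h0 ((LinearMap.congr_fun e w).trans (by
        simp [r_apply, sk_apply, polar_sing hw, polar_comm q _ w, *]))).elim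

theorem extract {K : Finset ι} {S} (hS : Φ.Inv (Nq q) K S) {i : ι} {β} (hβ : β ∈ S)
    (h : ¬ Cm (Φ.T i) β) : ∃ τ, (τ = TN q ∨ τ = TP q) ∧ ∃ Γ, Γ ≠ ⊥ ∧ Φ.Inv (Nq q) (K.erase i) Γ ∧
      ∀ a ∈ τ, ∀ δ ∈ Γ, (Φ.T i).e a * δ ∈ S := by
  have hi : i ∈ K := by_contra fun hi => h (hS.2 i hi β hβ)
  obtain ⟨a, δ, ha, h0, h1, h2, h3⟩ := γ.ex0 h4 (hS.1 i hi) hβ h
  obtain ⟨τ, hτ, h3⟩ : ∃ τ, (τ = TN q ∨ τ = TP q) ∧ ∀ a ∈ τ, (Φ.T i).e a * δ ∈ S := by
    rcases ha with ha | ha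
    · exact ⟨_, .inl rfl, fun _ ⟨_, hw, e⟩ => e ▸ γ.spreadN (hS.1 i hi) ha h1 h3 hw⟩
    · exact ⟨_, .inr rfl, fun _ ⟨_, _, hw, hs, e⟩ => e ▸ γ.spreadP (hS.1 i hi) ha h1 h3 hw hs⟩
  refine ⟨τ, hτ,
    { carrier := {δ | (∀ k ∉ K.erase i, Cm (Φ.T k) δ) ∧ ∀ a ∈ τ, (Φ.T i).e a * δ ∈ S}
      zero_mem' := ⟨fun _ _ _ => by simp, by simp⟩
      add_mem' := fun h h' => ⟨fun k hk => (h.1 k hk).add (h'.1 k hk), fun a ha =>
        mul_add ((Φ.T i).e a) _ _ ▸ add_mem (h.2 a ha) (h'.2 a ha)⟩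
      smul_mem' := fun c _ h => ⟨fun k hk => (h.1 k hk).smul c, fun a ha =>
        mul_smul_comm c ((Φ.T i).e a) _ ▸ S.smul_mem c (h.2 a ha)⟩ },
    fun h => h0 (h.le (show δ ∈ _ from ⟨fun k hk => ?_, h3⟩)), ⟨fun k hk b hb ζ hζ => ⟨fun l hl => ?_,
      fun a ha => ?_⟩, fun k hk ζ hζ => hζ.1 k hk⟩, fun a ha ζ hζ => hζ.2 a ha⟩
  · rcases eq_or_ne k i with rfl | e
    · exact h1
    · exact fun a => h2 _ (Φ.cm_e e.symm a) (hS.2 k (by simpa [e] using hk) β hβ a)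
  · have e : l ≠ k := fun e => hl (e ▸ hk)
    exact ((Φ.cm_e e _).mul (hζ.1 l hl)).mul (Φ.cm_e e _)
  · have := hS.1 k (Finset.mem_of_mem_erase hk) b hb _ (hζ.2 a ha)
    rwa [← mul_assoc, Φ.cm_e (Finset.ne_of_mem_erase hk).symm, mul_assoc, mul_assoc, ← mul_assoc _ ζ]
      at this

omit h4 in
theorem ty_pow {τ} (h : τ = TN q ∨ τ = TP q) : Submodule.span F τ ^ 4 = ⊤ := by
  rcases h with rfl | rfl
  exacts [γ.tn_pow, γ.tp_pow]

theorem one_mem_pow (K : Finset ι) : ∀ S, Φ.Inv (Nq q) K S → S ≠ ⊥ → 1 ∈ S ^ 4 := by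
  induction K using Finset.strongInduction with | _ K ih
  intro S hS h0
  obtain ⟨β, hβ, h1⟩ := Submodule.exists_mem_ne_zero_of_ne_bot h0
  by_cases h : ∀ i, Cm (Φ.T i) β
  · obtain ⟨c, rfl⟩ := Φ.cen β h
    simpa using Submodule.pow_mem_pow S ((S.smul_mem_iff fun h => h1 (by simp [h])).1 hβ) 4
  obtain ⟨i, hi⟩ := not_forall.1 h
  obtain ⟨τ, hτ, Γ, h2, h3, h5⟩ := γ.extract h4 hS hβ hi
  simpa using e_mem_pow (γ.ty_pow hτ) (h3.2 i (by simp)) h5 (ih _ (Finset.erase_ssubset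
    (by_contra fun h => hi (hS.2 i h β hβ))) Γ h3 h2) 1

theorem e_mem_pow {K : Finset ι} {S} (hS : Φ.Inv (Nq q) K S) {i : ι} {β} (hβ : β ∈ S)
    (h : ¬ Cm (Φ.T i) β) (a : End F U) : (Φ.T i).e a ∈ S ^ 4 :=
  let ⟨_, hτ, Γ, h2, h3, h5⟩ := γ.extract h4 hS hβ h
  TW.e_mem_pow (γ.ty_pow hτ) (h3.2 i (by simp)) h5 (γ.one_mem_pow h4 _ Γ h3 h2) a

end OU

omit [Finite F] in
theorem exists_e_of_coef {Y : End F V} (h : ∀ ψ w, ∃ c : F, T.coef ψ w Y = c • 1) :
    ∃ a, Y = T.e a := by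
  rcases subsingleton_or_nontrivial W with hW | hW
  · exact ⟨0, T.ext' fun v u => by simp [Subsingleton.elim u 0]⟩
  obtain ⟨u₀, hu⟩ := exists_ne (0 : W)
  obtain ⟨χ, hχ⟩ := exists_dual_one (F := F) hu
  refine ⟨T.d χ ∘ₗ Y ∘ₗ T.t.flip u₀, T.ext' fun v u => sub_eq_zero.1 (T.eq_zero_of_c fun ψ => ?_)⟩
  rcases eq_or_ne v 0 with rfl | hv
  · simp
  obtain ⟨c, hc⟩ := h ψ v
  have k : ∀ u, T.c ψ (Y (T.t v u)) = c • u := fun u => T.t_inj hv (by
    simpa [TF.coef] using LinearMap.congr_fun hc (T.t v u))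
  simp [TF.apply_d, k, hχ]

omit [Finite F] in
/-- The commutant of all slots but one. -/
theorem exists_e {ι : Type*} [DecidableEq ι] {Φ : Fam ι F U W V} [Nontrivial U] {j : ι}
    {Y : End F V} (h : ∀ l ≠ j, Cm (Φ.T l) Y) : ∃ a, Y = (Φ.T j).e a :=
  exists_e_of_coef fun ψ w => Φ.cen _ fun l => by
    rcases eq_or_ne l j with rfl | e
    · exact TF.cm_coef _ _ _ _
    · exact fun a => (Φ.cm_e e.symm a).coef_comm (h l e a) ψ w

end Cfsg.Lib.TO
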