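import Cfsg.Agent.Lib.TO.Std

/-!
# Tensor powers of orthogonal spaces of dimension at least five
-/

set_option autoImplicit false
set_option linter.unusedSectionVars false

namespace Cfsg.Lib.TO

section

open Module Cfsg.Lib.Unitary Cfsg.Lib.TMax

variable {F V V₁ V₂ : Type*} [Field F] [AddCommGroup V] [Module F V] [AddCommGroup V₁]
  [Module F V₁] [AddCommGroup V₂] [Module F V₂]
  {B : V →ₗ[F] V →ₗ[F] F} {B₁ : V₁ →ₗ[F] V₁ →ₗ[F] F} {B₂ : V₂ →ₗ[F] V₂ →ₗ[F] F}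

set_option maxHeartbeats 400000 in
/-- The global argument with long root elements of an orthogonal factor. -/
theorem le_of_long (T : TStr 1 B₁ B₂ B) {K H : Subgroup (V ≃ₗ[F] V)} [FiniteDimensional F V₁]
    [FiniteDimensional F V₂] [FiniteDimensional F V] [Nontrivial V₁] [Finite V] (h2 : (2 : F) ≠ 0)
    (le : K ≤ UG B) (five : 5 ≤ finrank F V₂)
    (e₂ : ∀ {w}, B₂ w w = 0 → ∀ {b}, b ∈ QE B₂ w → T.kr 1 b ∈ K) {w₁ w₂ : V₂} (h0 : w₁ ≠ 0)
    (hw₁ : B₂ w₁ w₁ = 0) (hw₂ : B₂ w₂ w₂ = 0) (h12 : B₂ w₁ w₂ = 0) (h1 : w₂ ∉ F ∙ w₁)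
    (hline : ∀ k ∈ K, (∀ v, k (T.t v w₁) ∈ T.PS (Submodule.span F {w₁, w₂})) → k ∈ H)
    (hlong : ∀ {s}, B₂ s s = 0 → B₂ w₁ s = 0 → s ∉ F ∙ w₁ → ∀ {b}, IsEich B₂ w₁ s 0 b → b ∈ UG B₂ →
      ∀ k ∈ K, k * T.kr 1 b * k⁻¹ ∈ H → k ∈ H)
    (hH : ∀ k ∈ K, k ∈ H → k ∈ T.kron ∨ ∀ p ∈ T.PS (Submodule.span F {w₁, w₂}), ∀ y s,
      ∃ p' ∈ T.PS (Submodule.span F {w₁, w₂}), k p' = T.t (T.cr s (k p)) y) : K ≤ H := by
  by_contra hK
  set L := Submodule.span F {w₁, w₂} with hL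
  have hL1 : L ≤ perp B₂ L := T.pair_le_perp hw₁ hw₂ h12
  have hli : LinearIndependent F ![w₁, w₂] :=
    (LinearIndependent.pair_iff' h0).2 fun a ha => h1 (Submodule.mem_span_singleton.2 ⟨a, ha⟩)
  have hL2 : finrank F L = 2 := finrank_span_pair_of_linearIndependent hli
  have hL3 : w₁ ∈ L := Submodule.subset_span (by simp)
  have hL4 : w₂ ∈ L := Submodule.subset_span (by simp)
  obtain ⟨b₀, hb₀, hb₀'⟩ : ∃ b ∈ QE B₂ w₁, IsEich B₂ w₁ w₂ 0 b := by
    obtain ⟨b, hb, hb'⟩ := T.h₂.exists_gE (a := -w₂) (γ := 0) hw₁ (by simp [h12]) (by simp [hw₂])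
    exact ⟨b, hb, fun y => by simp [hb', sub_eq_add_neg, add_right_comm]⟩
  have hx := e₂ hw₁ hb₀
  have hx1 := T.kr_long hb₀'
  have hx2 := T.sq_long hw₁ hw₂ h12 hb₀'
  have hx3 := hlong hw₂ h12 h1 hb₀' hb₀.1
  have hx4 : ∀ y, T.kr 1 b₀ y - y ∈ T.PS L := fun y => by
    simpa [hx1] using sub_mem (T.t_mem_PS _ hL4) (T.t_mem_PS _ hL3)
  have hx5 : ∀ y ∈ perp B (T.PS L), T.kr 1 b₀ y = y := fun y hy => by
    simp [hx1, T.mem_perp_PS.1 hy _ hL3, T.mem_perp_PS.1 hy _ hL4]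
  obtain ⟨y₁, hy₁⟩ := T.h₂.exists_apply_eq hli ![1, 0]
  obtain ⟨y₂, hy₂⟩ := T.h₂.exists_apply_eq hli ![0, 1]
  simp only [Fin.forall_fin_two, Matrix.cons_val_zero, Matrix.cons_val_one] at hy₁ hy₂
  have hx6 : T.PS L ≤ LinearMap.range (dev (T.kr 1 b₀)) := T.PS_le fun v y hy => by
    obtain ⟨a, d, rfl⟩ := Submodule.mem_span_pair.1 hy
    exact ⟨T.t v (d • y₁ - a • y₂), by simp [hx1, hy₁, hy₂, add_comm]⟩
  obtain ⟨g, M⟩ := exists_max hK (T.PS L)
  generalize hxx : T.kr 1 b₀ = x at *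
  have hP := T.PS_le_perp hL1
  have hP' : mp g (T.PS L) ≤ perp B (mp g (T.PS L)) := fun y hy =>
    (mem_perp_mp (le M.mem)).2 (hP hy)
  have hx' := mul_mem (mul_mem M.mem hx) (inv_mem M.mem)
  have hx7 : ∀ y ∈ perp B (mp g (T.PS L)), (g * x * g⁻¹) y = y := fun y hy => by
    rw [LinearEquiv.mul_apply, LinearEquiv.mul_apply, hx5 _ ((mem_perp_mp (le M.mem)).1 hy)]
    simp
  have n1 : ∀ u ∈ T.PS L, (g * x * g⁻¹) u ∈ T.PS L → u ∈ mp g (T.PS L) := fun u hu hu' => by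
    by_contra h3
    exact M.nmem (hx3 g M.mem (by
      simpa using M.conj_mem (one_mem _) hx' inf_le_left (fun y hy => hx7 y (hP' hy.2)) hu
        (fun h => h3 h.2) hu'))
  have n2 : ∀ y ∈ T.PS L ⊔ mp g (T.PS L), y ∈ perp B (T.PS L) → y ∈ T.PS L := fun y hy hy' => by
    obtain ⟨p, hp, p', hp', rfl⟩ := Submodule.mem_sup.1 hy
    by_contra h3
    exact M.nmem ((H.inv_mem_iff).1 (hx3 _ (inv_mem M.mem) (M.conj_mem M.mem hx inf_le_right
      (fun y hy => hx5 y (hP hy.1)) hp' (fun h => h3 (add_mem hp h.1))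
      (by rwa [hx5 _ (by simpa using sub_mem hy' (hP hp))]))))
  have bad : T.PS L ⊓ mp g (T.PS L) = ⊥ → ∀ L₄ : Submodule F V₂, 4 ≤ finrank F L₄ →
      ¬ T.PS L₄ ≤ T.PS L ⊔ mp g (T.PS L) := fun hD L₄ h3 h4 => by
    have h5 := Submodule.finrank_add_le_finrank_add_finrank (T.PS L) (mp g (T.PS L))
    have h6 := T.finrank_PS L₄
    have h7 := Nat.mul_le_mul_left (finrank F V₁) h3
    have h8 := finrank_pos (R := F) (M := V₁)
    rw [finrank_mp, T.finrank_PS, hL2] at h5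
    have h9 := Submodule.eq_of_le_of_finrank_le h4 (by omega)
    have h10 : finrank F L₄ = 4 := by
      rw [← h9] at h5
      nlinarith
    have h11 : ¬ perp B₂ L₄ ≤ ⊥ := fun h => by
      have := Submodule.finrank_mono h
      have := T.h₂.finrank_add_finrank_perp L₄
      have := five
      rw [finrank_bot] at *
      omega
    obtain ⟨v, hv⟩ := exists_ne (0 : V₁)
    obtain ⟨z, hz, -, hz'⟩ := T.h₂.exists_aniso_perp h2 (fun h => h11 fun y hy => by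
      have h12 := T.perp_PS L₄ ▸ T.t_mem_PS v hy
      rw [h9, perp_sup] at h12
      have h13 := n2 _ (h4 (T.t_mem_PS v (h hy))) h12.1
      by_contra h14
      exact T.t_ne_zero hv h14 ((Submodule.eq_bot_iff _).1 hD _
        ⟨h13, n1 _ h13 (by rwa [hx7 _ h12.2])⟩)) h11
    have hE0 : ∀ w ∈ L, ∃ E ∈ UG B₂, ∃ γ, IsEich B₂ w z γ E ∧ B₂ w z = 0 ∧
        g⁻¹ * T.kr 1 E * g ∈ H := fun w hw => by
      have h12 : B₂ w z = 0 := hz w (T.mem_of_t_mem hv (h9 ▸ Submodule.mem_sup_left (T.t_mem_PS v hw)))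
      obtain ⟨E, hE, γ, hE'⟩ := T.h₂.exists_isEich (hL1 hw w hw) h12
      refine ⟨E, hE, γ, hE', h12, ?_⟩
      obtain ⟨p, hp, hp0⟩ := Submodule.exists_mem_ne_zero_of_ne_bot
        (p := mp g (T.PS L) ⊓ T.PS (L₄ ⊓ perp B₂ (F ∙ w))) fun h => by
          have e1 := Submodule.finrank_sup_add_finrank_inf_eq (mp g (T.PS L))
            (T.PS (L₄ ⊓ perp B₂ (F ∙ w)))
          have e2 := Submodule.finrank_mono (show mp g (T.PS L) ⊔ T.PS (L₄ ⊓ perp B₂ (F ∙ w)) ≤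
            T.PS L₄ from sup_le (h9 ▸ le_sup_right) (T.PS_mono inf_le_left))
          have e3 := Submodule.finrank_sup_add_finrank_inf_eq L₄ (perp B₂ (F ∙ w))
          have e4 := T.h₂.finrank_add_finrank_perp (F ∙ w)
          have e5 := Submodule.finrank_le (L₄ ⊔ perp B₂ (F ∙ w))
          have e6 : finrank F (F ∙ w) ≤ 1 := finrank_span_le_card ({w} : Set V₂) |>.trans (by simp)
          have e7 := Nat.mul_le_mul_left (finrank F V₁)
            (show 3 ≤ finrank F ↥(L₄ ⊓ perp B₂ (F ∙ w)) by omega)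
          rw [h, finrank_bot, finrank_mp, T.finrank_PS, T.finrank_PS, hL2] at e1
          rw [h10] at h6
          omega
      refine M.conj_mem M.mem (e₂ (hL1 hw w hw) (isEich_mem_QE T.h₂ hE (hL1 hw w hw) h12 hE'))
        inf_le_right (by simp [hD]) hp.1 (by simpa [hD]) ?_
      rw [show T.kr 1 E p = p from T.PS_ext (f := (T.kr 1 E).toLinearMap) (g := 1) (fun v y hy => by
        simp [hE' y, mem_perp_singleton.1 hy.2, T.h₂.swap (hz y hy.1)]) hp.2]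
      exact hp.1
    obtain ⟨E₁, h13, γ₁, h14, h15, h16⟩ := hE0 w₁ hL3
    obtain ⟨E₂, h17, γ₂, h18, h19, h20⟩ := hE0 w₂ hL4
    have h21 := isEich_mul hw₁ (by simp [h18 z, h19, T.h₂.swap h15, T.h₂.swap h12]) (by simp [h15])
      (isEich_conj h17 (by simp [h18 w₁, T.h₂.swap h15, T.h₂.swap h12]) h14)
      (isEich_inv hw₁ (T.h₂.swap h15) h15 h14)
    refine M.nmem ((H.inv_mem_iff).1 (hlong (s := -B₂ z z • w₂)
      (by simp [hw₂]) (by simp [h12]) (by rwa [Submodule.smul_mem_iff _ (neg_ne_zero.2 hz')])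
      (b := E₂ * E₁ * E₂⁻¹ * E₁⁻¹) (by convert h21 using 1 <;> simp [h18 z, h19, sub_eq_add_neg])
      (mul_mem (mul_mem (mul_mem h17 h13) (inv_mem h17)) (inv_mem h13)) _ (inv_mem M.mem) ?_))
    convert mul_mem (mul_mem (mul_mem h20 h16) (inv_mem h20)) (inv_mem h16) using 1
    rw [show T.kr 1 (E₂ * E₁ * E₂⁻¹ * E₁⁻¹) = T.kr 1 E₂ * T.kr 1 E₁ * (T.kr 1 E₂)⁻¹ * (T.kr 1 E₁)⁻¹ by
      simp [T.kr_inv, T.kr_mul]]
    group
  have hΓ : Subgroup.closure {x, g * x * g⁻¹} ≤ K ⊓ fixStab (perp B (T.PS L ⊔ mp g (T.PS L))) := by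
    rw [Subgroup.closure_le, perp_sup]
    rintro _ (rfl | rfl)
    exacts [⟨hx, fun y hy => hx5 y hy.1⟩, ⟨hx', fun y hy => hx7 y hy.2⟩]
  have h10 : ∀ k ∈ Subgroup.closure {x, g * x * g⁻¹}, ∀ p ∈ T.PS L ⊓ mp g (T.PS L), k p = p :=
    fun k hk p hp => (hΓ hk).2 p (perp_sup (B := B) _ _ ▸ ⟨hP hp.1, hP' hp.2⟩)
  have h11 : ∀ k ∈ Subgroup.closure {x, g * x * g⁻¹}, ∀ y, k y - y ∈ T.PS L ⊔ mp g (T.PS L) :=
    fun k hk => T.h.sub_mem_of_fix (le (hΓ hk).1) (hΓ hk).2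
  have hxΓ : x ∈ Subgroup.closure {x, g * x * g⁻¹} := Subgroup.subset_closure (by simp)
  have stab : ∀ a b, T.kr a b ∈ Subgroup.closure {x, g * x * g⁻¹} → L.map b.toLinearMap = L →
      ∀ p ∈ T.PS L, T.kr a b p = p := fun a b hk hb => by
    have hU := le (hΓ hk).1
    have h3 : ∀ p ∈ T.PS L, T.kr a b p ∈ T.PS L := fun p hp => by
      rw [← hb, ← T.map_kr_PS a]; exact Submodule.mem_map_of_mem hp
    replace hb : ∀ y ∈ L, ∀ v, T.kr a b (T.t v y) ∈ T.PS L := fun y hy v => h3 _ (T.t_mem_PS v hy)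
    obtain ⟨b', hb'⟩ := T.kr_one_of_perp five hL2.le (a := a) (b := b) fun y hy =>
      n2 _ (h11 _ hk y) (sub_mem (fun p hp => by
        obtain ⟨p, rfl⟩ := (T.kr a b).surjective p
        rw [hU, hy p (((mem_subStab_of_le h3) p).2 hp)]) hy)
    rw [hb'] at hk hU h3 hb ⊢
    obtain ⟨p, p₂, ⟨e1, -, e2⟩, ⟨e3, e4, -⟩, e5⟩ :=
      exists_normal_form T.h (le hx) (le hx') hx2 (hx2.conj g) hk
    have h4 : ∀ y, T.kr 1 b' (dev x y) = dev x (p y) := fun y => by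
      have h4 := LinearMap.congr_fun e5 y
      rw [e1, e4, mul_assoc, e3] at h4
      simp only [Module.End.mul_apply, LinearMap.add_apply, LinearEquiv.coe_coe] at h4
      have h5 : dev (g * x * g⁻¹) (dev x (p₂ y)) ∈ T.PS L := by
        rw [← sub_eq_iff_eq_add'.2 h4]
        exact sub_mem (h3 _ (hx4 _)) (hx4 _)
      rw [h4, dev_apply (g * x * g⁻¹), hx7 (dev x (p₂ y)) (hP' (n1 _ (hx4 _) (by
        simpa using add_mem h5 (hx4 (p₂ y))))), sub_self, add_zero]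
    obtain ⟨v, hv⟩ := exists_ne (0 : V₁)
    obtain ⟨u, hu⟩ := T.h₁.exists_eq_one hv
    have h5 : ∀ y y', B₂ (b' (B₂ w₁ y • w₂ - B₂ w₂ y • w₁)) y' =
        -B₂ y (b' (B₂ w₁ y' • w₂ - B₂ w₂ y' • w₁)) := fun y y' => by
      have h5 : B (T.kr 1 b' (dev x (T.t v y))) (T.t u y') =
          -B (T.t v y) (T.kr 1 b' (dev x (T.t u y'))) := by
        rw [h4, h4, hx2.skew T.h (le hx), e2, ← Module.End.mul_apply p, e1, Module.End.mul_apply]
      simpa [hx1, T.tt, hu] using h5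
    obtain ⟨a₁, a₂, e6⟩ := Submodule.mem_span_pair.1 (T.mem_of_t_mem hv (by simpa using hb _ hL3 v))
    obtain ⟨a₃, a₄, e7⟩ := Submodule.mem_span_pair.1 (T.mem_of_t_mem hv (by simpa using hb _ hL4 v))
    have e8 := h5 y₁ y₁
    have e9 := h5 y₂ y₂
    have e10 := h5 y₁ y₂
    simp only [hy₁, hy₂, one_smul, zero_smul, sub_zero, zero_sub, map_neg, ← e6, ← e7, map_add,
      map_smul, LinearMap.add_apply, LinearMap.smul_apply, LinearMap.neg_apply, smul_eq_mul,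
      T.h₂.comm y₁, T.h₂.comm y₂] at e8 e9 e10
    have h6 : ∀ y ∈ L, b' y = a₁ • y := fun y hy => by
      obtain ⟨s, t, rfl⟩ := Submodule.mem_span_pair.1 hy
      rw [map_add, map_smul, map_smul, ← e6, ← e7,
        (mul_eq_zero.1 (show 2 * a₂ = 0 by linear_combination -e9)).resolve_left h2,
        (mul_eq_zero.1 (show 2 * a₃ = 0 by linear_combination e8)).resolve_left h2,
        show a₄ = a₁ by linear_combination e10]
      module
    have h7 : ∀ p ∈ T.PS L, T.kr 1 b' p = a₁ • p := fun p hp =>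
      T.PS_ext (f := (T.kr 1 b').toLinearMap) (g := a₁ • 1) (fun v y hy => by simp [h6 y hy]) hp
    by_cases h8 : a₁ = 1
    · simpa [h8] using h7
    have h9 := sub_ne_zero.2 h8
    refine (bad ((Submodule.eq_bot_iff _).2 fun p hp => ?_) (LinearMap.range (dev b')) ?_
      (T.PS_le ?_)).elim
    · have := (h7 p hp.1).symm.trans (h10 _ hk p hp)
      exact (smul_eq_zero_iff_right h9).1 (by rw [sub_smul, this, one_smul, sub_self])
    · have hb2 := T.mem_UG₂ hU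
      have e11 := Submodule.finrank_sup_add_finrank_inf_eq (LinearMap.range (dev b')) (perp B₂ L)
      have e12 := Submodule.finrank_mono (show L ≤ LinearMap.range (dev b') ⊓ perp B₂ L from
        fun y hy => ⟨⟨(a₁ - 1)⁻¹ • y, by
          rw [map_smul, dev_apply, h6 y hy, inv_smul_eq_iff₀ h9, sub_smul, one_smul]⟩, hL1 hy⟩)
      have e13 := T.h₂.finrank_add_finrank_perp L
      rw [show LinearMap.range (dev b') ⊔ perp B₂ L = ⊤ from eq_top_iff.2 fun y _ =>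
        Submodule.mem_sup.2 ⟨_, ⟨((1 - a₁)⁻¹ * a₁) • y, rfl⟩,
          y - dev b' (((1 - a₁)⁻¹ * a₁) • y), fun w hw => ?_, by abel⟩,
        finrank_top] at e11
      · omega
      have e14 : a₁ * B₂ w (b' y) = B₂ w y := by rw [← hb2 w y, h6 w hw]; simp
      have := sub_ne_zero.2 (Ne.symm h8)
      simp only [map_sub, map_smul, dev_apply, smul_eq_mul, ← e14]
      field_simp
      ring
    · rintro v _ ⟨y, rfl⟩
      simpa using h11 _ hk (T.t v y)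
  refine M.false_of_sub (x := fun c => if c then x else x⁻¹) (hΓ.trans inf_le_left)
    (fun k hk h => hline k hk fun v => h _ (T.t_mem_PS v hL3))
    (fun k hk c => ?_) (fun c y => ?_) (fun y hy => ?_) (fun c => ?_)
    (Subgroup.subset_closure (by simp)) h10 ?_
  · cases c
    · exact fun h => hx3 k hk (by simpa [mul_assoc] using inv_mem h)
    · exact hx3 k hk
  · cases c
    · simpa [-LinearEquiv.coe_inv, hx2 y] using neg_mem (hx4 y)
    · exact hx4 y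
  · simp only [↓reduceIte, Bool.false_eq_true, hx2 y] at hy ⊢
    exact sub_eq_zero.1 ((smul_eq_zero_iff_right h2).1 (by linear_combination (norm := module) hy))
  · cases c
    exacts [inv_mem hxΓ, hxΓ]
  intro k hk hkH
  obtain ⟨a, b, rfl⟩ : k ∈ T.kron := (hH k (hΓ hk).1 hkH).resolve_right fun h => by
    obtain ⟨y, hy, hy'⟩ := SetLike.not_le_iff_exists.1 (show ¬ perp B₂ L ≤ L from fun h => by
      have := Submodule.finrank_mono h
      have := T.h₂.finrank_add_finrank_perp L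
      omega)
    obtain ⟨v, hv⟩ := exists_ne (0 : V₁)
    obtain ⟨s, hs⟩ : ∃ s, T.cr s (k (T.t v w₁)) ≠ 0 := by
      by_contra! h3
      exact T.t_ne_zero hv h0 (k.map_eq_zero_iff.1 (T.PS_le (L := ⊥) (X := ⊥) (by simp)
        (T.mem_PS.2 fun s _ => h3 s)))
    obtain ⟨p, hp, e⟩ := h _ (T.t_mem_PS v hL3) y s
    exact hy' (T.mem_of_t_mem hs (n2 _ (e ▸ by
      simpa using add_mem (h11 _ hk p) (Submodule.mem_sup_left hp)) (T.perp_PS L ▸ T.t_mem_PS _ hy)))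
  by_cases h3 : L.map b.toLinearMap = L
  · exact stab a b hk h3
  have h4 : T.PS (L.map b.toLinearMap) ≤ T.PS L ⊔ mp g (T.PS L) := by
    rw [← T.map_kr_PS a]
    rintro _ ⟨p, hp, rfl⟩
    simpa using add_mem (h11 _ hk p) (Submodule.mem_sup_left hp)
  have h5 := LinearEquiv.finrank_map_eq b L
  by_cases h6 : L ⊓ L.map b.toLinearMap = ⊥
  · refine (bad ((Submodule.eq_bot_iff _).2 fun p hp => ?_) (L ⊔ L.map b.toLinearMap) ?_
      (by rw [T.PS_sup]; exact sup_le le_sup_left h4)).elim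
    · have : p ∈ T.PS (L ⊓ L.map b.toLinearMap) := by
        rw [T.PS_inf, ← T.map_kr_PS a]
        exact ⟨hp.1, p, hp.1, h10 _ hk p hp⟩
      rw [h6] at this
      exact T.PS_le (X := ⊥) (by simp) this
    · have := Submodule.finrank_sup_add_finrank_inf_eq L (L.map b.toLinearMap)
      rw [h6, finrank_bot] at this
      omega
  obtain ⟨w, hw, hw0⟩ := Submodule.exists_mem_ne_zero_of_ne_bot h6
  have h7 := mul_mem (mul_mem hk hxΓ) (inv_mem hk)
  have h8 := hx2.conj (T.kr a b)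
  have h9 : ∀ y, (T.kr a b * x * (T.kr a b)⁻¹) y - y ∈ T.PS (L.map b.toLinearMap) := fun y => by
    rw [← T.map_kr_PS a]
    exact ⟨_, hx4 ((T.kr a b)⁻¹ y), by simp⟩
  have h12 : T.kr a b * x * (T.kr a b)⁻¹ = T.kr 1 (b * b₀ * b⁻¹) := by
    simp [← hxx, T.kr_inv, T.kr_mul]
  obtain ⟨v, hv⟩ := exists_ne (0 : V₁)
  have h13 := stab 1 (b * b₀ * b⁻¹) (h12 ▸ h7) (mem_subStab_iff_map.1 (mem_subStab_of_le
    fun s hs => by
      rw [h12] at h7 h8 h9
      generalize b * b₀ * b⁻¹ = d at *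
      simpa using add_mem hs ((Submodule.span_singleton_le_iff_mem _ _).2 hw.1 (skew_mem T.h₂ h2
        (Sq.skew T.h₂ (T.mem_UG₂ (le (hΓ h7).1)) fun y => T.symm.t_inj hv (by
          simpa [T.kr_inv] using h8 (T.t v y))) (h5.trans hL2).le
        (fun y => T.mem_of_t_mem hv (by simpa using h9 (T.t v y))) hw.2 hw0 (hL1 hw.1 s hs)))))
  refine (h3 (Submodule.eq_of_le_of_finrank_eq (fun y hy => T.mem_of_t_mem hv
    (n2 _ (h4 (T.t_mem_PS v hy)) ?_)) h5)).elim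
  obtain ⟨p, hp, hp'⟩ := (T.map_kr_PS a b L).ge (T.t_mem_PS v hy)
  obtain ⟨u, rfl⟩ := hx6 hp
  intro p hp
  rw [← hp', show (T.kr a b).toLinearMap (dev x u) =
    (T.kr a b * x * (T.kr a b)⁻¹) (T.kr a b u) - T.kr a b u by simp, h12,
    T.h.apply_sub (le (hΓ (h12 ▸ h7)).1), show (T.kr 1 (b * b₀ * b⁻¹))⁻¹ p = p from
      (T.kr 1 _).symm_apply_eq.2 (h13 p hp).symm]
  simp

end

open Module QuadraticMap Cfsg.Lib.TW Cfsg.Lib.TMax Function
open Cfsg.Lib.Orth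
open Cfsg.Lib.Unitary (UG IsEich)

universe u

section

variable {F U W V : Type*} [Field F] [AddCommGroup U] [Module F U] [AddCommGroup W] [Module F W]
  [AddCommGroup V] [Module F V] {q : QuadraticForm F U} {Q : QuadraticForm F V}
  {T : TF F U W V} {M : Subgroup (V ≃ₗ[F] V)} {g : V ≃ₗ[F] V} {v w s : U}
  {ι : Type*} [DecidableEq ι] [Fintype ι] {Φ : Fam ι F U W V} {i j l m : ι}

theorem exists_kr_one {a} {β : W ≃ₗ[F] W} {c : F} [Nontrivial W] (h : ∀ u, β u = c • u) :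
    ∃ d, T.kr a β = T.kr d 1 := by
  obtain ⟨u, hu⟩ := exists_ne (0 : W)
  exact ⟨a.trans (LinearEquiv.smulOfNeZero F U c (by
    rintro rfl; exact hu (β.injective (by simp [h])))), T.eq_of_t fun x u => by simp [h]⟩

variable [Finite F] [FiniteDimensional F U] [Nontrivial W]

theorem OU.exists_cw (γ : OU q) {z : V} (hz : z ≠ 0) : ∃ s, cw T q s z ≠ 0 := by
  by_contra! h
  obtain ⟨u, e⟩ := T.mem_P1.1 (γ.mem_P (w := 0) fun s _ => h s)
  exact hz (by simp [← e])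

theorem OU.sub_of_le (γ : OU q) (hg : g ∈ WG Φ) (hv : v ≠ 0) {N : Submodule F U} {y : U} (hy : y ∉ N)
    (h : ∀ u, g ((Φ.T l).t v u) ∈ (Φ.T j).P N) : Sub (g • Φ.T l) (Φ.T j) := by
  obtain ⟨s, hs⟩ := hg
  by_contra h1
  obtain ⟨u, hu⟩ := exists_ne (0 : W)
  obtain ⟨x, hx⟩ := γ.exists_cw (T := Φ.T j) ((g • Φ.T l).t_ne_zero hv hu)
  obtain ⟨u', e⟩ := (g • Φ.T l).mem_P1.1 (((hs l).cm (Φ.cm_e (j := j) (fun e => h1 (e ▸ hs l))
    (r q y x))).map_P ((g • Φ.T l).t_mem_P1 v u))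
  exact hy ((Φ.T j).mem_of_t_mem hx (by rw [← e_r, ← e]; exact h u'))

theorem OU.kr_of_fix [FiniteDimensional F W] (γ : OU q) (hg : g ∈ WG Φ) (hv : v ≠ 0)
    (h : ∀ u, g ((Φ.T l).t v u) = (Φ.T l).t v u) : ∃ d, g = (Φ.T l).kr d 1 := by
  have := γ.nontrivial
  obtain ⟨y, hy⟩ := exists_notMem (N := F ∙ v) (by
    have := finrank_span_le (F := F) v; have := γ.three; omega)
  obtain ⟨a, β, rfl⟩ := (γ.sub_of_le hg hv hy fun u => h u ▸ TF.t_mem_P1 _ _ _).exists_kr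
  obtain ⟨ψ, hψ⟩ := exists_dual_one (F := F) hv
  have k : ∀ u, ψ (a v) • β u = u := fun u => by simpa [hψ] using congrArg ((Φ.T l).c ψ) (h u)
  obtain ⟨u, hu⟩ := exists_ne (0 : W)
  exact exists_kr_one (c := (ψ (a v))⁻¹) fun x =>
    (eq_inv_smul_iff₀ (left_ne_zero_of_smul ((k u).symm ▸ hu))).2 (k x)

theorem Fm.sing [FiniteDimensional F V] (μ : Fm q Q M Φ) (hg : g ∈ M) {N : Submodule F U}
    (hN : ∀ x ∈ N, ∀ y ∈ N, polar q x y = 0) (h : ∀ u, g ((Φ.T l).t v u) ∈ (Φ.T j).P N) : q v = 0 := by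
  have := μ.γ.nontrivial
  obtain ⟨u, hu⟩ := exists_ne (0 : W)
  have := (μ.cp l).A_eq_zero (μ.sl l).hB (v := v) (v' := v) hu fun u' => by
    rw [← (μ.sl l).ug hg]
    exact (Φ.T j).P_ext (f := (polarBilin Q).flip _) (g := 0) (fun y hy u'' => (μ.cp j).B_eq_zero
      (TF.t_mem_P1 _ _ _) (TF.c_of_mem _ (hN y hy) (h u))) (h u')
  simpa [polar_self', μ.γ.two] using this

/-- A quadratic unipotent element fixes every factor. -/
theorem OU.sub_of_sq [FiniteDimensional F W] (γ : OU q) (hg : g ∈ WG Φ)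
    (h : ∀ z, g (g z) - (2 : F) • g z + z = 0) (m : ι) : Sub (g • Φ.T m) (Φ.T m) := by
  have := γ.nontrivial
  obtain ⟨s, hs⟩ := id hg
  obtain ⟨s', hs'⟩ := inv_mem hg
  by_contra h1
  have e1 : m ≠ s m := fun e => h1 (by simpa [← e] using hs m)
  have e2 : m ≠ s' m := fun e => h1 (by simpa [← e] using ((hs' m).smul g).symm)
  obtain ⟨v, hv⟩ := exists_ne (0 : U)
  obtain ⟨v₁, -, h2⟩ := (hs m).same.exists_P1 hv
  obtain ⟨v₂, -, h3⟩ := (hs' m).same.exists_P1 hv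
  obtain ⟨ψ, h0, h4, h5⟩ := exists_dual_pair γ.three v₁ v₂
  obtain ⟨z, hz⟩ := exists_apply_one h0
  obtain ⟨φ, hφ⟩ := exists_dual_one (F := F) hv
  have n0 : ψ.smulRight z ≠ 0 := fun e => by simpa [hz] using congrArg ψ (LinearMap.congr_fun e z)
  have hc := (Φ.cm_e e1 (ψ.smulRight z)).mul (Φ.cm_e e2 (ψ.smulRight z))
  have k : (Φ.T (s m)).e (ψ.smulRight z) * (Φ.T (s' m)).e (ψ.smulRight z) =
      (Φ.T (s' m)).e (ψ.smulRight z) * (Φ.T (s m)).e (ψ.smulRight z) := by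
    rcases eq_or_ne (s' m) (s m) with e | e
    exacts [by rw [e], Φ.cm_e e _ _]
  have k0 := hc.eq_zero (a := φ.smulRight v) (fun e => hv (by
    simpa [hφ] using LinearMap.congr_fun e v)) (by
      rw [← hc]
      refine LinearMap.ext fun x => smul_right_injective V γ.two ?_
      have f1 := TF.c_of_mem1 _ h4 (h2 ▸ (g • Φ.T m).t_mem_P1 v ((Φ.T m).c φ x))
      have f2 := TF.c_of_mem1 _ h5 (h3 ▸ (g⁻¹ • Φ.T m).t_mem_P1 v ((Φ.T m).c φ x))
      have f3 := h (g⁻¹ ((Φ.T m).t v ((Φ.T m).c φ x)))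
      rw [← LinearEquiv.mul_apply g g⁻¹, mul_inv_cancel, sub_add_eq_add_sub, sub_eq_zero] at f3
      rw [TF.smul_t] at f1 f2
      simp only [End.mul_apply (_ * _), TF.e_r, LinearMap.zero_apply, smul_zero]
      rw [← map_smul, ← show _ = (2 : F) • (Φ.T m).t v _ from f3, map_add]
      nth_rewrite 1 [k]
      simp [TF.e_r, f1, f2, -LinearEquiv.coe_inv])
  rcases eq_or_ne (s m) (s' m) with e | e
  · rw [e, ← map_mul, map_eq_zero_iff _ (e_inj _)] at k0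
    simpa [hz] using congrArg ψ (LinearMap.congr_fun k0 z)
  · exact n0 (e_inj _ (((Φ.cm_e e _).eq_zero n0 k0).trans (map_zero _).symm))

end

variable {F W V : Type u} {U : Type*} [Field F] [AddCommGroup U] [Module F U] [AddCommGroup W]
  [Module F W] [AddCommGroup V] [Module F V] {q : QuadraticForm F U} {Q : QuadraticForm F V}
  {M : Subgroup (V ≃ₗ[F] V)} {ι : Type} [DecidableEq ι] [Fintype ι] {Φ : Fam ι F U W V}
  [Finite F] [FiniteDimensional F U] [FiniteDimensional F W] [FiniteDimensional F V] [Nontrivial W]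
  {g : V ≃ₗ[F] V} {j l : ι} {v w s : U}

namespace St

variable (μ : St q Q M Φ) (h5 : 5 ≤ finrank F U)
include μ h5

theorem line (h0 : w ≠ 0) (hw : q w = 0) (hs : q s = 0) (hws : polar q w s = 0) (hv : v ≠ 0)
    (hg : g ∈ M) (h : ∀ u, g ((Φ.T l).t v u) ∈ (Φ.T j).P (Submodule.span F {w, s})) : g ∈ WG Φ := by
  have h1 : ¬ Unitary.perp (polarBilin q) (Submodule.span F {w, s}) ≤ Submodule.span F {w, s} :=
    fun h => by
      have := Submodule.finrank_mono h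
      have := μ.γ.ef.finrank_add_finrank_perp (Submodule.span F {w, s})
      have := finrank_span_pair_le (F := F) w s
      omega
  obtain ⟨z, hz, -, h2⟩ := μ.γ.ef.exists_aniso_perp μ.γ.two h1 h1
  obtain ⟨h3, h4⟩ : polar q w z = 0 ∧ polar q s z = 0 := TMax.mem_perp_pair.1 hz
  have h6 : ∀ u, (g⁻¹ * ae (Φ.T j) q w z * g) ((Φ.T l).t v u) = (Φ.T l).t v u := fun u =>
    g.symm_apply_eq.2 ((Φ.T j).P_ext (f := (ae (Φ.T j) q w z).toLinearMap) (g := 1) (fun y hy u => by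
      obtain ⟨a, b, rfl⟩ := Submodule.mem_span_pair.1 hy
      simp [ae_t, eich_apply_self hw h3, eich_apply_of_perp hw h3 hws, polar_comm q z s, h4]) (h u))
  have h7 := μ.toFm.sing hg (fun x hx y hy => by
    obtain ⟨a, b, rfl⟩ := Submodule.mem_span_pair.1 hx
    obtain ⟨c, d, rfl⟩ := Submodule.mem_span_pair.1 hy
    simp [polar_sing, hw, hs, hws, polar_comm q s w]) h
  obtain ⟨d, hd⟩ := μ.γ.kr_of_fix (μ.loc hv h7 hv h7 (mul_mem (mul_mem (inv_mem hg)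
    ((μ.sl j).ae_mem w z)) hg) fun u => h6 u ▸ TF.t_mem_P1 _ _ _) hv h6
  have h8 : ∀ y u, g ((Φ.T l).t (d (d y - y) - (d y - y)) u) =
      -polar q z z • (Φ.T j).t w (cw (Φ.T j) q w (g ((Φ.T l).t y u))) := fun y u => by
    have k : ∀ y, g ((Φ.T l).t (d y) u) = ae (Φ.T j) q w z (g ((Φ.T l).t y u)) := fun y => by
      simpa using congrArg g (LinearEquiv.congr_fun hd ((Φ.T l).t y u)).symm
    simpa [pow_two, k, e_r] using LinearMap.congr_fun (ae_sq (T := Φ.T j) hw h3) (g ((Φ.T l).t y u))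
  obtain ⟨y, hy⟩ : ∃ y, d (d y - y) - (d y - y) ≠ 0 := by
    by_contra! h9
    obtain ⟨f, hf⟩ := μ.γ.hyp h0 hw
    obtain ⟨u, hu⟩ := exists_ne (0 : W)
    have := (Φ.T l).ext_t (f := cw (Φ.T j) q w ∘ₗ g.toLinearMap) (g := 0) (fun y u =>
      (Φ.T j).t_inj h0 (smul_right_injective V (neg_ne_zero.2 h2) (by
        have := h8 y u
        rw [h9] at this
        simpa using this.symm)))
        (g⁻¹ ((Φ.T j).t f u))
    simp [hf.polar_eq, hu] at this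
  have h9 := fun u => h8 y u ▸ Submodule.smul_mem _ (-polar q z z) ((Φ.T j).t_mem_P1 w _)
  exact μ.loc h0 hw hy (μ.toFm.sing hg (fun x hx y hy => by
    obtain ⟨a, rfl⟩ := Submodule.mem_span_singleton.1 hx
    obtain ⟨c, rfl⟩ := Submodule.mem_span_singleton.1 hy
    simp [polar_sing hw]) h9) hg h9

theorem long (h0 : w ≠ 0) (hw : q w = 0) (hs : q s = 0) (hws : polar q w s = 0) (h1 : s ∉ F ∙ w) {b}
    (hb : IsEich (polarBilin q) w s 0 b) (hg : g ∈ M) (h : g * (Φ.T j).kr b 1 * g⁻¹ ∈ WG Φ) :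
    g ∈ WG Φ := by
  have := μ.γ.nontrivial
  have k : ∀ z, (Φ.T j).kr b 1 z = z + ((Φ.T j).t s (cw (Φ.T j) q w z) - (Φ.T j).t w (cw (Φ.T j) q s z)) :=
    (Φ.T j).ext_t (f := ((Φ.T j).kr b 1).toLinearMap) (g := 1 + ((Φ.T j).t s ∘ₗ cw (Φ.T j) q w -
      (Φ.T j).t w ∘ₗ cw (Φ.T j) q s)) fun y u => by simp [hb y, add_sub_assoc]
  have h2 : ∀ z, (g * (Φ.T j).kr b 1 * g⁻¹) ((g * (Φ.T j).kr b 1 * g⁻¹) z) -
      (2 : F) • (g * (Φ.T j).kr b 1 * g⁻¹) z + z = 0 := fun z => by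
    obtain ⟨z, rfl⟩ := g.surjective z
    simp [k, polar_sing, hw, hs, hws, polar_comm q s w]
    module
  have h3 : g * (Φ.T j).kr b 1 * g⁻¹ ≠ 1 := fun e => by
    obtain ⟨f, hf⟩ := μ.γ.hyp h0 hw
    obtain ⟨u, hu⟩ := exists_ne (0 : W)
    have := k ((Φ.T j).t f u)
    rw [conj_eq_one_iff.1 e] at this
    simp only [LinearEquiv.coe_one, id, cw_t, hf.polar_eq, one_smul, left_eq_add, sub_eq_zero] at this
    exact h1 ((Φ.T j).mem_of_t_mem hu (this.symm ▸ TF.t_mem_P1 _ _ _))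
  obtain ⟨m, d, hd⟩ : ∃ m d, g * (Φ.T j).kr b 1 * g⁻¹ = (Φ.T m).kr d 1 := by
    by_contra! h4
    obtain ⟨c, hc⟩ := Φ.cen _ fun m => (show _ ∈ CG (Φ.T m) by
      obtain ⟨a, β, e⟩ := (μ.γ.sub_of_sq h h2 m).exists_kr
      rcases scalar_of_sq μ.γ.two (e ▸ h2) with ⟨c, hc⟩ | ⟨c, hc⟩
      · exact e ▸ kr_mem_CG hc β
      · exact let ⟨d, e'⟩ := exists_kr_one hc; (h4 m d (e.trans e')).elim)
    refine h3 (LinearEquiv.ext fun z => ?_)
    have h6 : ∀ z, (g * (Φ.T j).kr b 1 * g⁻¹) z = c • z := LinearMap.congr_fun hc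
    have := h2 z
    rw [h6, h6] at this
    rcases smul_eq_zero.1 (show (c - 1) ^ 2 • z = 0 by linear_combination (norm := module) this)
      with e | rfl
    · simp [h6, sub_eq_zero.1 (pow_eq_zero_iff two_ne_zero |>.1 e), -LinearEquiv.mul_apply]
    · simp
  obtain ⟨y, hy⟩ : ∃ y, d y - y ≠ 0 := by
    by_contra! h4
    exact h3 (by rw [hd, show d = 1 from LinearEquiv.ext fun y => sub_eq_zero.1 (h4 y), TF.kr_one])
  refine inv_mem_iff.1 (μ.line h5 (l := m) (j := j) h0 hw hs hws hy (inv_mem hg) fun u => ?_)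
  have := congrArg (fun z => g⁻¹ (z - (Φ.T m).t y u)) (LinearEquiv.congr_fun hd ((Φ.T m).t y u))
  simp only [LinearEquiv.mul_apply, k, TF.kr_t, LinearEquiv.coe_one, id] at this
  rw [map_sub (Φ.T m).t, LinearMap.sub_apply, ← this]
  simpa using sub_mem ((Φ.T j).t_mem_P (Submodule.subset_span (by simp : s ∈ ({w, s} : Set U))) _)
    ((Φ.T j).t_mem_P (Submodule.subset_span (by simp : w ∈ ({w, s} : Set U))) _)

theorem le_WG_five : M ≤ WG Φ := by
  have := μ.γ.nontrivial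
  have := finite_of_finite F (M := V)
  by_cases h1 : Fintype.card ι ≤ 1
  · exact fun g _ => le_WG_of_card h1 g
  obtain ⟨j, -⟩ := Fintype.exists_pair_of_one_lt_card (not_le.1 h1)
  obtain ⟨Q', h2, h3⟩ := (μ.sl j).exists_Q
  let S : TStr 1 (polarBilin Q') (polarBilin q) (polarBilin Q) :=
    ⟨(TensorProduct.comm F W U).trans (Φ.T j).φ, fun u v u' v' => (h3 v u v' u').trans (mul_comm _ _),
      ef_polar h2, μ.γ.ef, (μ.sl j).hB⟩
  have e1 : ∀ u v, S.t u v = (Φ.T j).t v u := fun _ _ => rfl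
  have e2 : ∀ a b, S.kr a b = (Φ.T j).kr b a := fun _ _ => S.eq_of_t fun _ _ => by
    rw [S.kr_t, e1, e1, TF.kr_t]
  have e3 : ∀ L, S.PS L = (Φ.T j).P L := fun L => le_antisymm
    (S.PS_le fun u _ h => (Φ.T j).t_mem_P h u) ((Φ.T j).P_le fun _ h u => S.t_mem_PS u h)
  have e4 : ∀ s z, S.cr s z = cw (Φ.T j) q s z := fun s =>
    S.ext_t fun _ _ => by rw [S.cr_t, e1, cw_t]; rfl
  obtain ⟨w, f, hf⟩ := μ.γ.exists_hyp
  obtain ⟨s, hs, hws, h4⟩ := μ.γ.exists_line h5 hf.ne_zero hf.left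
  refine le_of_long S μ.γ.two (fun _ => (μ.sl j).ug) h5
    (fun hw b hb => e2 _ _ ▸ μ.su j b (μ.γ.qe_le _ hw hb)) hf.ne_zero (polar_sing hf.left)
    (polar_sing hs) hws h4 (fun k hk h => μ.line h5 hf.ne_zero hf.left hs hws hf.ne_zero hk
      fun u => e3 _ ▸ h u) (fun hs hws h4 b hb _ k hk h => μ.long h5 hf.ne_zero hf.left
        (by simpa [polar_self', μ.γ.two] using hs) hws h4 hb hk (e2 _ _ ▸ h)) fun k _ ⟨t, ht⟩ => ?_
  by_cases e : t j = j
  · obtain ⟨a, b, rfl⟩ := (show Sub (k • Φ.T j) (Φ.T j) by simpa [e] using ht j).exists_kr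
    exact .inl ⟨b, a, e2 _ _⟩
  refine .inr fun p hp y x => ?_
  rw [e3] at *
  have hc := (ht j).cm (Φ.cm_e e (r q y x))
  obtain ⟨p', h6, h7⟩ := ((Φ.T j).smul_P k _).le ((k • Φ.T j).P_le (X := .comap ((Φ.T j).e (r q y x))
    ((k • Φ.T j).P (Submodule.span F {w, s}))) (fun z hz u => (k • Φ.T j).P_mono
      ((Submodule.span_singleton_le_iff_mem _ _).2 hz) (hc.map_P (TF.t_mem_P1 _ _ _)))
        (((Φ.T j).smul_P k _).ge ⟨p, hp, rfl⟩))
  exact ⟨p', h6, by rw [e1, e4, ← e_r]; exact h7⟩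

end St

theorem dich_five (h5 : 5 ≤ finrank F U) (n : ℕ) : Dich q n :=
  dich_of (fun _ _ _ _ _ _ _ _ _ _ _ _ _ _ _ μ => μ.le_WG_five h5) n

open Cfsg.Geo in
theorem isMaximalIn_pow_five {F : Type*} [Field F] [Fintype F] {κ : Type} [Fintype κ] [DecidableEq κ]
    {k t : ℕ} {Q : QuadraticForm F (κ → F)} (hQ : ND Q) (h2 : (2 : F) ≠ 0) (hk : 5 ≤ k) (ht : 2 ≤ t)
    {f₁ : (Fin k → F) → (Fin k → F) → F} (h₁ : IsSymmetricForm f₁) {e : κ ≃ (Fin t → Fin k)}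
    {P : GL κ F} (hT : IsTensorPowerFormStructure id (polar Q) f₁ e P) :
    IsMaximalIn (omegaGL Q) (tensorWreathSubgroup k t e P ⊓ omegaGL Q) := by
  obtain ⟨q, h3, h4⟩ := exists_quad h2 h₁ one_ne_zero
  refine isMaximalIn_pow hQ ?_ ht h₁ h4 ⟨h3, h2, by simp; omega, .inl (by simpa)⟩ (by omega)
    (dich_five (by simpa) t) hT
  rw [Fintype.card_congr e, Fintype.card_pi_const, Fintype.card_fin]
  exact le_trans (by decide : 6 ≤ 5 ^ 2) ((Nat.pow_le_pow_left hk 2).trans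
    (Nat.pow_le_pow_right (by omega) ht))

end Cfsg.Lib.TO
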