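import Cfsg.Agent.Lib.TO.Cen

/-!
# Involutions of three-dimensional orthogonal groups
-/

set_option autoImplicit false
set_option linter.unusedSectionVars false

namespace Cfsg.Lib.TO

open Module QuadraticMap Cfsg.Lib.TW Cfsg.Lib.TMax Function
open Cfsg.Lib.Orth
open Cfsg.Lib.Unitary (UG)
open scoped commutatorElement

variable {F U : Type*} [Field F] [AddCommGroup U] [Module F U] {q : QuadraticForm F U} {v x y : U}
  {a : U ≃ₗ[F] U}

/-- The negative of a reflection. -/
noncomputable def nr (q : QuadraticForm F U) (v : U) : O q := O.neg q * refl q v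

theorem nr_apply (v x : U) : (nr q v).1 x = ((q v)⁻¹ * polar q v x) • v - x := by
  simp [nr, refl_apply]

theorem nr_self (hv : q v ≠ 0) : (nr q v).1 v = v := by simp [nr, refl_apply_self hv]

theorem nr_perp (h : polar q v x = 0) : (nr q v).1 x = -x := by simp [nr_apply, h]

theorem neg_comm (b : O q) : b * O.neg q = O.neg q * b := Subgroup.mem_center_iff.1 neg_mem_center b

theorem nr_mul (v x : U) : nr q v * nr q x = refl q v * refl q x := by
  rw [nr, nr, mul_assoc, ← mul_assoc (refl q v), neg_comm, ← mul_assoc, ← mul_assoc,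
    Orth.neg_mul_neg, one_mul]

theorem nr_mul_self (v : U) : nr q v * nr q v = 1 := by rw [nr_mul, refl_mul_self]

theorem conj_nr (b : O q) (v : U) : b * nr q v * b⁻¹ = nr q (b.1 v) := by
  rw [nr, nr, ← conj_refl, ← mul_assoc, neg_comm]; group

theorem nr_comm (h : polar q v x = 0) : nr q v * nr q x = nr q x * nr q v := by
  rw [nr_mul, nr_mul, refl_comm_of_perp h]

theorem mem_of_nr (h2 : (2 : F) ≠ 0) (h : (nr q v).1 x = x) : x ∈ F ∙ v := by
  rw [nr_apply, sub_eq_iff_eq_add, ← two_smul F] at h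
  rw [← Submodule.smul_mem_iff _ h2, ← h]
  exact Submodule.smul_mem _ _ (Submodule.mem_span_singleton_self v)

/-- Similarities. -/
def Sim (q : QuadraticForm F U) (a : U ≃ₗ[F] U) (l : F) : Prop :=
  ∀ x y, polar q x y = l * polar q (a x) (a y)

theorem Sim.exists_O (h2 : (2 : F) ≠ 0) {l μ : F} (h : Sim q a l) (e : l * μ ^ 2 = 1) :
    ∃ b : O q, ∀ x, a x = μ • b.1 x := by
  have h0 : μ ≠ 0 := by rintro rfl; simp at e
  refine ⟨⟨a.trans (LinearEquiv.smulOfNeZero F U μ⁻¹ (inv_ne_zero h0)), fun x => ?_⟩, fun x => by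
    simp [h0, Units.smul_def]⟩
  have := h x x
  simp only [polar_self'] at this
  refine mul_left_cancel₀ h2 ?_
  simp only [LinearEquiv.trans_apply, LinearEquiv.smulOfNeZero_apply, Q_smul, this]
  field_simp
  linear_combination (-q (a x)) * e

theorem exists_of_nilp {N : End F U} {n : ℕ} (h : N ^ n = 0) (h0 : N ≠ 0) :
    ∃ x, N x ≠ 0 ∧ N (N x) = 0 := by
  by_contra! h1
  have k : ∀ n x, (N ^ (n + 1)) x = 0 → N x = 0 := fun n => by
    induction n with
    | zero => simp
    | succ n ih => exact fun x hx => by_contra fun e => h1 x e (ih _ (by rwa [pow_succ] at hx))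
  exact h0 (LinearMap.ext fun x => k n x (by simp [pow_succ', h]))

variable [Finite F] [FiniteDimensional F U]

namespace OU

variable (γ : OU q) (h3 : finrank F U = 3)
include γ

theorem nd_line (hv : q v ≠ 0) : ND (q.restrict (F ∙ v)) := nd_restrict_iff.2 fun x hx h => by
  obtain ⟨c, rfl⟩ := Submodule.mem_span_singleton.1 hx
  have := h v (Submodule.mem_span_singleton_self v)
  simp only [polar_smul_left', polar_self', mul_eq_zero, γ.two, hv, or_false] at this
  simp [this]

theorem exists_perp (hv : q v ≠ 0) (c : F) : ∃ x, polar q v x = 0 ∧ q x = c := by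
  have h1 := finrank_add_finrank_perp γ.nd (F ∙ v)
  have := finrank_span_le (F := F) v
  have := γ.three
  obtain ⟨x, hx, e⟩ := OMax.exists_Q_eq_mem (nd_restrict_perp γ.nd (γ.nd_line hv)) (by omega) c
  exact ⟨x, mem_perp_singleton.1 hx, e⟩

theorem refl_mul_mem (hv : q v ≠ 0) (h : q v = q x) : refl q v * refl q x ∈ eichGroup q :=
  let ⟨_, _, hf⟩ := γ.exists_hyp
  hf.refl_mul_refl_mem_eichGroup γ.nd γ.three hv h

theorem move3 (hv : q v ≠ 0) : ∃ n ∈ eichGroup q, polar q v (n.1 v) = 0 := by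
  obtain ⟨x, h1, h2⟩ := γ.exists_perp hv (q v)
  obtain ⟨y, h4, h5⟩ := γ.exists_perp hv (q (v - x))
  have h6 : q (v - x) ≠ 0 := by
    rw [Q_sub, h1, h2, sub_zero, ← two_mul]; exact mul_ne_zero γ.two hv
  refine ⟨_, γ.refl_mul_mem h6 h5.symm, ?_⟩
  rw [Subgroup.coe_mul, LinearEquiv.mul_apply, refl_apply_of_perp (x := v) (by rwa [polar_comm]),
    refl_sub_apply h2.symm h6, h1]

theorem nr_ne (hv : q v ≠ 0) (c : F) : ¬ ∀ x, (nr q v).1 x = c • x := fun h => by
  obtain ⟨x, h1, h2⟩ := γ.exists_perp hv 1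
  have h4 := congrArg (polar q v) (h v)
  have h5 := congrArg (polar q x) (h x)
  simp only [nr_self hv, nr_perp h1, polar_neg_right, polar_smul_right', polar_self', h2] at h4 h5
  exact mul_ne_zero γ.two (mul_ne_zero γ.two hv) (by linear_combination h4 - q v * h5)

include h3

theorem nr_eq {c : F} (h : ∀ z, (nr q v).1 z = c • (nr q x).1 z) : nr q v = nr q x := by
  obtain ⟨z, hz, h0⟩ := Submodule.exists_mem_ne_zero_of_ne_bot
    (p := perp q (Submodule.span F {v, x})) fun e => by
      have := finrank_add_finrank_perp γ.nd (Submodule.span F {v, x})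
      have := finrank_span_pair_le (F := F) v x
      rw [e, finrank_bot] at *
      omega
  have h1 := h z
  rw [nr_perp (Orth.mem_perp_pair.1 hz).1, nr_perp (Orth.mem_perp_pair.1 hz).2] at h1
  obtain rfl : c = 1 := by
    by_contra e
    exact h0 ((smul_eq_zero_iff_right (sub_ne_zero.2 e)).1 (by linear_combination (norm := module) h1))
  exact Subtype.ext (LinearEquiv.ext fun z => by simpa using h z)

theorem third (hv : q v ≠ 0) (hx : q x ≠ 0) (h : polar q v x = 0) :
    ∃ y, q y ≠ 0 ∧ polar q v y = 0 ∧ polar q x y = 0 ∧ nr q v * nr q x = nr q y := by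
  have h1 := finrank_add_finrank_perp γ.nd (Submodule.span F {v, x})
  rw [Unitary.finrank_span_pair_of_linearIndependent ((LinearIndependent.pair_iff'
    (by rintro rfl; simp at hv)).2 fun c e => hx (by
      rw [← e] at h ⊢
      simp only [polar_smul_right', polar_self', mul_eq_zero, γ.two, hv, or_false] at h
      simp [h]))] at h1
  obtain ⟨⟨y, hy⟩, h0, h2⟩ := finrank_eq_one_iff'.1 (show finrank F (perp q
    (Submodule.span F {v, x})) = 1 by omega)
  have k : ∀ z, ∃ a b c : F, z = a • v + b • x + c • y := fun z => by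
    obtain ⟨c, hc⟩ := h2 ⟨(refl q v * refl q x).1 z + z, Orth.mem_perp_pair.2 ⟨by
      simp [refl_apply, h, polar_self', hv, γ.two]; field_simp; ring, by
      simp [refl_apply, polar_comm q x v, h, polar_self', hx, γ.two]; field_simp; ring⟩⟩
    replace hc := congrArg Subtype.val hc
    simp only [SetLike.val_smul, Subgroup.coe_mul, LinearEquiv.mul_apply, refl_apply] at hc
    refine ⟨2⁻¹ * ((q v)⁻¹ * polar q v (z - ((q x)⁻¹ * polar q x z) • x)),
      2⁻¹ * ((q x)⁻¹ * polar q x z), 2⁻¹ * c, ?_⟩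
    rw [mul_smul 2⁻¹, mul_smul 2⁻¹, mul_smul 2⁻¹, ← smul_add, ← smul_add, eq_inv_smul_iff₀ γ.two, hc]
    module
  obtain ⟨h4, h5⟩ := Orth.mem_perp_pair.1 hy
  refine ⟨y, fun e => h0 (Subtype.ext (γ.nd.eq_zero fun z => ?_)), h4, h5,
    Subtype.ext (LinearEquiv.ext fun z => ?_)⟩ <;> obtain ⟨a, b, c, rfl⟩ := k z
  · simp [polar_comm q y v, polar_comm q y x, h4, h5, polar_self', e]
  have h6 : q y ≠ 0 := fun e => h0 (Subtype.ext (γ.nd.eq_zero fun z => by
    obtain ⟨a, b, c, rfl⟩ := k z
    simp [polar_comm q y v, polar_comm q y x, h4, h5, polar_self', e]))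
  simp [nr_self, hv, hx, h6, nr_perp h, nr_perp h4, nr_perp h5, nr_perp ((polar_comm _ _ _).trans h),
    nr_perp ((polar_comm _ _ _).trans h4), nr_perp ((polar_comm _ _ _).trans h5)]

theorem exists_nr (hv : q v ≠ 0) : ∃ y, q y ≠ 0 ∧ polar q v y = 0 ∧ nr q y ∈ eichGroup q := by
  obtain ⟨x, h1, h2⟩ := γ.exists_perp hv (q v)
  obtain ⟨y, h4, h5, -, h6⟩ := γ.third h3 hv (h2 ▸ hv) h1
  exact ⟨y, h4, h5, by rw [← h6, nr_mul]; exact γ.refl_mul_mem hv h2.symm⟩

theorem exists_four : ∃ v x, q v ≠ 0 ∧ q x ≠ 0 ∧ polar q v x = 0 ∧ nr q v ∈ eichGroup q ∧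
    nr q x ∈ eichGroup q := by
  have := γ.nontrivial
  obtain ⟨u, hu⟩ := γ.nd.exists_Q_ne
  obtain ⟨v, h1, -, h2⟩ := γ.exists_nr h3 hu
  obtain ⟨x, h4, h5, h6⟩ := γ.exists_nr h3 h1
  exact ⟨v, x, h1, h4, h5, h2, h6⟩

theorem nr_of_comm (hv : q v ≠ 0) (hx : q x ≠ 0) (h : nr q v * nr q x = nr q x * nr q v) :
    nr q v = nr q x ∨ ∃ y, q y ≠ 0 ∧ nr q v * nr q x = nr q y := by
  rw [nr_mul, nr_mul] at h
  rcases (commute_refl_iff γ.nd hv hx).1 h with h | ⟨c, rfl⟩
  · exact .inr (let ⟨y, h1, _, _, h2⟩ := γ.third h3 hv hx h; ⟨y, h1, h2⟩)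
  · exact .inl (by rw [nr, nr, refl_smul (by rintro rfl; simp at hx)])

/-- Involutions of the projective similarity group. -/
theorem inv3 {l c : F} (hs : Sim q a l) (h : ∀ x, a (a x) = c • x) :
    (∃ μ : F, ∀ x, a x = μ • x) ∨ ∃ v, ∃ μ : F, q v ≠ 0 ∧ ∀ x, a x = μ • (nr q v).1 x := by
  obtain ⟨u, hu, μ, e⟩ := exists_eigen_of_odd (h3 ▸ by decide) a.toLinearMap
    (f := Polynomial.X ^ 2 - Polynomial.C c) (Polynomial.X_pow_sub_C_ne_zero two_pos c)
    Polynomial.natDegree_X_pow_sub_C.le (LinearMap.ext fun x => by simp [pow_two, h])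
  obtain rfl : μ ^ 2 = c := smul_left_injective F hu (by
    simpa [show a u = μ • u from e, pow_two, mul_smul] using h u)
  obtain ⟨z, hz⟩ := γ.nd.exists_polar_ne hu
  have h1 : (l * μ ^ 2 - 1) * (l * μ ^ 2 + 1) = 0 := mul_right_cancel₀ hz (by
    have := hs (a u) (a z)
    simp only [h, polar_smul_left', polar_smul_right'] at this
    linear_combination -hs u z - l * this)
  rcases mul_eq_zero.1 h1 with h1 | h1
  · obtain ⟨b, hb⟩ := hs.exists_O γ.two (sub_eq_zero.1 h1)
    have h0 : μ ≠ 0 := by rintro rfl; simp at h1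
    have h4 : ∀ x, b.1 (b.1 x) = x := fun x => smul_right_injective U (pow_ne_zero 2 h0) (by
      simpa [hb, pow_two, mul_smul] using h x)
    have h5 := Submodule.finrank_mono (show O.comm b ≤ O.fix (O.neg q * b) from fun _ ⟨y, hy⟩ => by
      simp [O.mem_fix, ← hy, h4])
    have h6 := O.finrank_comm_add_finrank_fix (O.neg q * b)
    have k : ∀ (b : O q) (μ : F), (∀ x, a x = μ • b.1 x) → finrank F (O.comm b) ≤ 1 →
        (∃ μ : F, ∀ x, a x = μ • x) ∨ ∃ v, ∃ μ : F, q v ≠ 0 ∧ ∀ x, a x = μ • (nr q v).1 x :=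
      fun b μ hb h => by
        rcases Nat.le_one_iff_eq_zero_or_eq_one.1 h with h | h
        · obtain rfl := O.comm_eq_bot_iff.1 (Submodule.finrank_eq_zero.1 h)
          exact .inl ⟨μ, hb⟩
        · obtain ⟨v, hv, rfl⟩ := exists_eq_refl_of_finrank_comm γ.nd h
          exact .inr ⟨v, -μ, hv, fun x => by simp [hb, nr]⟩
    by_cases h7 : finrank F (O.comm b) ≤ 1
    exacts [k b μ hb h7, k (O.neg q * b) (-μ) (fun x => by simp [hb]) (by omega)]
  have h0 : μ ≠ 0 := by rintro rfl; simp at h1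
  have k : ∀ ν : F, ν ^ 2 = μ ^ 2 → finrank F (LinearMap.range (a.toLinearMap + ν • 1)) ≤ 1 :=
    fun ν e => by
      have := finrank_add_finrank_perp γ.nd (LinearMap.range (a.toLinearMap + ν • 1))
      have := Submodule.finrank_mono (show LinearMap.range (a.toLinearMap + ν • 1) ≤
        perp q (LinearMap.range (a.toLinearMap + ν • 1)) from fun _ ⟨x, hx⟩ => mem_perp.2
          fun _ ⟨y, hy⟩ => by
            have e1 := hs y x
            have e2 := hs y (a x)
            simp only [← hx, ← hy, h, LinearMap.add_apply, LinearEquiv.coe_coe, LinearMap.smul_apply,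
              End.one_apply, polar_add_left, polar_add_right, polar_smul_left', polar_smul_right']
              at e2 ⊢
            linear_combination ν * ν * e1 + ν * e2 + (polar q (a y) (a x) + ν * polar q (a y) x) * h1 +
              l * polar q (a y) (a x) * e)
      omega
  have h4 := Submodule.finrank_add_le_finrank_add_finrank (LinearMap.range (a.toLinearMap + μ • 1))
    (LinearMap.range (a.toLinearMap + (-μ) • 1))
  rw [show LinearMap.range (a.toLinearMap + μ • 1) ⊔ LinearMap.range (a.toLinearMap + (-μ) • 1) = ⊤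
    from eq_top_iff.2 fun x _ => Submodule.mem_sup.2 ⟨_, ⟨(2 * μ)⁻¹ • x, rfl⟩, _,
      ⟨-(2 * μ)⁻¹ • x, rfl⟩, by
        have := γ.two
        simp only [LinearMap.add_apply, map_smul, LinearMap.smul_apply, End.one_apply]
        match_scalars <;> field_simp <;> ring⟩, finrank_top] at h4
  have := k μ rfl
  have := k (-μ) (by ring)
  omega

/-- Unipotent similarities commuting with an involution. -/
theorem q3 {l c : F} (p : ℕ) [Fact p.Prime] [CharP F p] (hv : q v ≠ 0) (hs : Sim q a l)
    (h1 : a * (nr q v).1 = (nr q v).1 * a) (h : ∀ x, (a ^ p) x = c • x) : ∃ μ : F, ∀ x, a x = μ • x := by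
  have := γ.nontrivial
  have v0 : v ≠ 0 := by rintro rfl; simp at hv
  obtain ⟨μ, e⟩ := Submodule.mem_span_singleton.1 (mem_of_nr γ.two (v := v) (x := a v) (by
    simpa [nr_self hv] using (LinearEquiv.congr_fun h1 v).symm))
  obtain ⟨b, hb⟩ := hs.exists_O γ.two (μ := μ) (mul_right_cancel₀ (mul_ne_zero γ.two hv) (by
    have := hs v v
    simp only [← e, Q_smul, polar_self'] at this
    linear_combination -this))
  have h0 : μ ≠ 0 := by rintro rfl; exact v0 (a.injective (by simp [← e]))
  have h4 : b.1 v = v := smul_right_injective U h0 (by simp [← hb, e])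
  have h5 : ∀ n x, (a ^ n) x = μ ^ n • (b ^ n).1 x := fun n => by
    induction n with
    | zero => simp
    | succ n ih => intro x; simp [pow_succ, ih, hb, mul_smul, smul_comm μ]
  have h6 : ∀ n, (b ^ n).1 v = v := fun n => by
    induction n with
    | zero => simp
    | succ n ih => simpa [pow_succ, h4] using ih
  obtain rfl : c = μ ^ p := smul_left_injective F v0 (by simpa only [h5, h6] using (h v).symm)
  have h7 : b ^ p = 1 := Subtype.ext (LinearEquiv.ext fun x => smul_right_injective U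
    (pow_ne_zero p h0) (by simpa [h5] using h x))
  by_contra h8
  have : CharP (End F U) p := charP_of_injective_algebraMap (algebraMap F _).injective p
  obtain ⟨x, h9, h10⟩ := exists_of_nilp (N := b.1.toLinearMap - 1) (n := p) (by
    rw [sub_pow_char_of_commute _ (Commute.one_right _), one_pow, sub_eq_zero]
    exact LinearMap.ext fun x => by
      simpa [LinearEquiv.pow_apply, End.pow_apply] using LinearEquiv.congr_fun (congrArg Subtype.val h7) x)
    fun e => h8 ⟨μ, fun x => by rw [hb, show b.1 x = x from sub_eq_zero.1 (LinearMap.congr_fun e x)]⟩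
  have h11 : polar q v (b.1 x - x) = 0 := by
    rw [polar_sub_right, ← O.map_polar b v x, h4, sub_self]
  have h12 := Submodule.finrank_mono (show Submodule.span F {v, b.1 x - x} ≤ O.fix b from
    Submodule.span_le.2 (by
      rintro _ (rfl | rfl)
      exacts [O.mem_fix.2 h4, O.mem_fix.2 (sub_eq_zero.1 h10)]))
  rw [Unitary.finrank_span_pair_of_linearIndependent ((LinearIndependent.pair_iff' v0).2 fun c e => h9 (by
    rw [← e] at h11
    simp only [polar_smul_right', polar_self', mul_eq_zero, γ.two, hv, or_false] at h11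
    simpa [h11] using e.symm))] at h12
  have h13 := O.finrank_comm_add_finrank_fix b
  obtain ⟨n, hn⟩ := odd_char γ p
  rcases Nat.le_one_iff_eq_zero_or_eq_one.1 (show finrank F (O.comm b) ≤ 1 by omega) with e | e
  · exact h9 (by simp [O.comm_eq_bot_iff.1 (Submodule.finrank_eq_zero.1 e)])
  obtain ⟨z, -, rfl⟩ := exists_eq_refl_of_finrank_comm γ.nd e
  rw [hn, pow_succ, pow_mul, pow_two, refl_mul_self, one_pow, one_mul] at h7
  exact h9 (by simp [h7])

end OU

end Cfsg.Lib.TO
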