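import Cfsg.Agent.Lib.ZD.Basic
import Cfsg.Agent.Lib.HH.ModB

/-!
# Subgroups controlling the fusion of a set of involutions
-/

set_option autoImplicit false

namespace Cfsg.Lib.TO

open Subgroup MulAction Cfsg.Lib.ZD Cfsg.Lib.GW
open scoped commutatorElement

variable {G : Type*} [Group G] {M H X : Subgroup G} {D : Set G} {d d' g : G}

theorem eq_one_of_pgroup {p : ℕ} [Fact p.Prime] {P K : Subgroup G} (hP : IsPGroup p P)
    (hK : ¬ p ∣ Nat.card K) (h : g ∈ P) (h' : g ∈ K) : g = 1 := by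
  obtain ⟨n, hn⟩ := IsPGroup.iff_orderOf.1 hP ⟨g, h⟩
  rw [orderOf_mk] at hn
  rcases n with _ | n
  · simpa using hn
  · exact (hK ((dvd_pow_self p n.succ_ne_zero).trans (hn ▸ K.orderOf_dvd_natCard h'))).elim

/-- A cubic unipotent group in characteristic at least five normalising a `p'`-group. -/
theorem exists_cent_of_cube {F V : Type*} [Field F] [AddCommGroup V] [Module F V]
    [FiniteDimensional F V] [Nontrivial V] [Finite (V ≃ₗ[F] V)] {p : ℕ} [Fact p.Prime] [CharP F p]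
    (h5 : 5 ≤ p) {A K : Subgroup (V ≃ₗ[F] V)} (hA : IsPGroup p A) (hn : A ≤ normalizer (K : Set _))
    (hK : ¬ p ∣ Nat.card K) {a} (ha : a ∈ A) (h1 : orderOf a = p)
    (h3 : (a.toLinearMap - 1) ^ 3 = 0) : ∃ y ∈ A, y ≠ 1 ∧ ∀ k ∈ K, k * y = y * k := by
  by_contra! h
  have := HH.ModB.thmB (p := p) (x := ⟨a, mem_sup_left ha⟩) (n := 1)
    (ρ := LinearEquiv.automorphismGroup.toLinearMapMonoidHom.comp (A ⊔ K).subtype)
    (fun _ _ e => Subtype.ext (LinearEquiv.toLinearMap_injective e))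
    (Core.isPSolvable_sup hn (Core.isPSolvable_of_isPGroup hA) (Core.isPSolvable_of_coprime
      ((Nat.Prime.coprime_iff_not_dvd Fact.out).2 hK).symm))
    (Core.pCore_eq_bot_iff.2 fun N hN hp => eq_bot_iff.2 fun y hy => ?_) (by simpa) h3
  · obtain h | ⟨n, _, _, h1, h2, -, -, -, -, h⟩ := this
    · simp at h; omega
    · obtain rfl : n = 1 := by omega
      simp at h; omega
  obtain ⟨b, hb, k, hk, e⟩ := (coe_mul_of_left_le_normalizer_right A K hn).le y.2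
  have hp' := (hp.to_sup_of_normal_left (hA.comap_subtype (K := A ⊔ K))).map (A ⊔ K).subtype
  obtain rfl : k = 1 := eq_one_of_pgroup hp' hK ⟨(⟨b, mem_sup_left hb⟩ : ↥(A ⊔ K))⁻¹ * y,
    mul_mem (inv_mem (mem_sup_right hb)) (mem_sup_left hy), by simp [← e]⟩ hk
  by_contra h0
  obtain ⟨k, hk, h2⟩ := h b hb fun e' => h0 (Subtype.ext (by simp [← e, e']))
  refine h2 (commutatorElement_eq_one_iff_mul_comm.1 (eq_one_of_pgroup hp' hK
    ⟨_, mem_sup_left (mul_mem (hN.conj_mem y hy ⟨k, mem_sup_right hk⟩) (inv_mem hy)), by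
      simp [← e, commutatorElement_def]⟩ ?_))
  simpa [commutatorElement_def, mul_assoc] using mul_mem hk ((hn hb k⁻¹).1 (inv_mem hk))

variable [Finite G]

/-- Glauberman's theorem modulo a central element. -/
theorem cent_le_of_four {u z x : G} (hz : z * z = 1) (hx : x * x = 1) (hc : z * x = x * z)
    (hu : u ∈ X ∧ u ∈ H) (hX : ∀ g ∈ X, g * u = u * g) (h : ∀ y ∈ ({z, x, z * x} : Set G),
      y ∈ X ∧ y ∈ H ∧ y ∉ zpowers u ∧ ∀ g ∈ X, g * y * g⁻¹ ∈ H → g ∈ H)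
    (iso : ∀ g ∈ X, g ∈ H → z⁻¹ * (g * z * g⁻¹) ∈ zpowers u) : X ≤ H := by
  obtain ⟨z1, z2, z3, z4⟩ := h z (by simp)
  obtain ⟨x1, x2, x3, x4⟩ := h x (by simp)
  obtain ⟨y1, y2, y3, y4⟩ := h (z * x) (by simp)
  let N := (zpowers u).subgroupOf X
  have : N.Normal := ⟨fun n ⟨k, hk⟩ g => ⟨k, by
    simp only [coe_subtype, coe_mul, InvMemClass.coe_inv] at hk ⊢
    rw [← hk, ((show Commute g.1 u from hX g g.2).zpow_right k).eq]; simp⟩⟩
  let f := QuotientGroup.mk' N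
  have k1 : ∀ a b : X, f a = f b ↔ a.1⁻¹ * b ∈ zpowers u := fun a b => QuotientGroup.eq
  have k2 : ∀ a : X, f a ∈ (H.subgroupOf X).map f ↔ a.1 ∈ H := fun a =>
    ⟨fun ⟨b, hb, e⟩ => by simpa using H.mul_mem hb (zpowers_le.2 hu.2 ((k1 _ _).1 e)),
      fun h => ⟨a, h, rfl⟩⟩
  have k3 : ∀ y : X, y.1 ∈ H → (∀ g ∈ X, g * y * g⁻¹ ∈ H → g ∈ H) → ∀ a : X,
      f y * f a = f a * f y → a.1 ∈ H := fun y h1 h2 a e => h2 a a.2 (by
    rw [eq_comm, ← mul_inv_eq_iff_eq_mul, ← map_inv, ← map_mul, ← map_mul] at e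
    exact (k2 _).1 (e ▸ (k2 y).2 h1))
  have k4 : ∀ y : X, y.1 ∉ zpowers u → f y ≠ 1 := fun y h e => h ((QuotientGroup.eq_one_iff y).1 e)
  have hV : Small.FourGen (f ⟨z, z1⟩) (f ⟨x, x1⟩) := ⟨k4 _ z3, k4 _ x3,
    fun e => y3 (by simpa [inv_eq_of_mul_eq_one_right hz] using (k1 _ _).1 e),
    by rw [← map_mul]; exact congrArg f (Subtype.ext hz),
    by rw [← map_mul]; exact congrArg f (Subtype.ext hx),
    by rw [← map_mul, ← map_mul]; exact congrArg f (Subtype.ext hc)⟩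
  have k5 : ∀ y : X, y.1 ∈ H → (∀ g ∈ X, g * y * g⁻¹ ∈ H → g ∈ H) →
      Od ⊤ ⊓ centralizer {f y} ≤ (H.subgroupOf X).map f := fun y h1 h2 a ha => by
    obtain ⟨a, rfl⟩ := QuotientGroup.mk'_surjective N a
    exact (k2 a).2 (k3 y h1 h2 a (ha.2 _ rfl))
  have k6 := gen_four hV ((Od_nml ⊤).norm trivial) ((Od_nml ⊤).norm trivial) (odd_Od ⊤)
    (k5 _ z2 z4) (k5 _ x2 x4) (map_mul f _ _ ▸ k5 ⟨z * x, y1⟩ y2 y4)
  intro g hg
  have := k6 (zstar_sub (M := ⊤) (Inv.orderOf_eq_two_iff.2 ⟨hV.ne_one, hV.sq⟩) trivial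
    (fun a _ e => ?_) (g := f ⟨g, hg⟩) trivial)
  · rw [← map_inv, ← map_inv, ← map_mul, ← map_mul, ← map_mul, k2] at this
    exact z4 g hg (by simpa [mul_assoc] using inv_mem (mul_mem (inv_mem z2) this))
  obtain ⟨a, rfl⟩ := QuotientGroup.mk'_surjective N a
  rw [← map_inv, ← map_mul, ← map_mul] at e ⊢
  exact ((k1 _ _).2 (iso a a.2 (z4 a a.2 (k3 _ z2 z4 _ e)))).symm

/-- `H` controls the fusion of the set `D` of involutions of `M`. -/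
structure ZS (M H : Subgroup G) (D : Set G) : Prop where
  ord : ∀ d ∈ D, orderOf d = 2
  mem : ∀ d ∈ D, d ∈ M ∧ d ∈ H
  fus : ∀ d ∈ D, ∀ g ∈ M, g * d * g⁻¹ ∈ H → g ∈ H ∧ g * d * g⁻¹ ∈ D
  wm : ∀ d ∈ D, ∀ d' ∈ D, d ≠ d' → d * d' = d' * d → ∀ g ∈ M, g * (d * d') * g⁻¹ ∈ H → g ∈ H

omit [Finite G] in
theorem smul_mk_iff (z g : M) : z • (g : M ⧸ H.subgroupOf M) = g ↔ g.1⁻¹ * z * g ∈ H := by
  rw [MulAction.Quotient.smul_mk, eq_comm, QuotientGroup.eq, mem_subgroupOf]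
  simp [mul_assoc]

namespace ZS

variable (h : ZS M H D)
include h

omit [Finite G] in
theorem mono (hX : X ≤ M) (hn : ∀ g ∈ X, ∀ x ∈ X, g * x * g⁻¹ ∈ X) : ZS X H (D ∩ X) :=
  ⟨fun d hd => h.ord d hd.1, fun d hd => ⟨hd.2, (h.mem d hd.1).2⟩, fun d hd g hg e =>
    ⟨(h.fus d hd.1 g (hX hg) e).1, (h.fus d hd.1 g (hX hg) e).2, hn g hg d hd.2⟩,
    fun d hd d' hd' h1 h2 g hg => h.wm d hd.1 d' hd'.1 h1 h2 g (hX hg)⟩

omit [Finite G] in
theorem fix_iff (hd : d ∈ D) {z a b : M} (e : z.1 = a * d * a.1⁻¹) :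
    z • (b : M ⧸ H.subgroupOf M) = b ↔ (b : M ⧸ H.subgroupOf M) = a := by
  rw [smul_mk_iff, QuotientGroup.eq, mem_subgroupOf, e]
  exact ⟨fun h1 => (h.fus d hd _ (b⁻¹ * a).2 (by simpa [mul_assoc] using h1)).1, fun h1 => by
    simpa [mul_assoc] using H.mul_mem (H.mul_mem h1 (h.mem d hd).2) (H.inv_mem h1)⟩

omit [Finite G] in
theorem mem_of_fix {z b : M} (hz : ∃ a : M, ∃ d ∈ D, z.1 = a * d * a.1⁻¹)
    (h1 : z • (b : M ⧸ H.subgroupOf M) = b) : b.1⁻¹ * z * b ∈ D := by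
  obtain ⟨a, d, hd, e⟩ := hz
  rw [smul_mk_iff, e] at h1
  simpa [e, mul_assoc] using (h.fus d hd _ (b⁻¹ * a).2 (by simpa [mul_assoc] using h1)).2

omit [Finite G] in
theorem wpd : WPD {z : M | ∃ a : M, ∃ d ∈ D, z.1 = a * d * a.1⁻¹} (M ⧸ H.subgroupOf M) := by
  have one : ∀ z ∈ {z : M | ∃ a : M, ∃ d ∈ D, z.1 = a * d * a.1⁻¹},
      ∃! a : M ⧸ H.subgroupOf M, z • a = a := fun z ⟨a, d, hd, e⟩ =>
    ⟨a, (h.fix_iff hd e).2 rfl, fun b => b.inductionOn fun _ => (h.fix_iff hd e).1⟩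
  refine ⟨fun z ⟨a, d, hd, e⟩ => by rw [← orderOf_coe, e, Inv.orderOf_conj', h.ord d hd],
    fun z ⟨a, d, hd, e⟩ g => ⟨g * a, d, hd, by simp [e, mul_assoc]⟩, one,
    fun z hz z' hz' h1 h2 => ?_⟩
  obtain ⟨c, hc, hc'⟩ := one z hz
  induction c using QuotientGroup.induction_on with | H c => ?_
  have h3 := hc' (z' • (c : M ⧸ H.subgroupOf M)) (by simp only; rw [← mul_smul, h2, mul_smul, hc])
  have k : ∀ a : M ⧸ H.subgroupOf M, (z * z') • a = a → c = a := fun a => a.inductionOn fun a ha =>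
    (QuotientGroup.eq.2 (mem_subgroupOf.2 <| h.wm _ (h.mem_of_fix hz hc) _ (h.mem_of_fix hz' h3)
      (fun e => h1 (Subtype.ext (by simpa using e))) (by
        simpa [mul_assoc] using congrArg (fun z : M => z.1 * c) h2) _ (a⁻¹ * c).2
      (by simpa [mul_assoc] using (smul_mk_iff _ _).1 ha))).symm
  exact fun a b ha hb => (k a ha).symm.trans (k b hb)

omit [Finite G] in
theorem mem_Zs (hd : d ∈ D) : (⟨d, (h.mem d hd).1⟩ : M) ∈
    Zs {z : M | ∃ a : M, ∃ d ∈ D, z.1 = a * d * a.1⁻¹} ((1 : M) : M ⧸ H.subgroupOf M) :=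
  ⟨⟨1, d, hd, by simp⟩, (h.fix_iff hd (by simp)).2 rfl⟩

theorem exists_conj (hn : ¬ M ≤ H) (hd : d ∈ D) (hd' : d' ∈ D) :
    ∃ k ∈ M, k ∈ H ∧ Odd (orderOf k) ∧ k * d * k⁻¹ = d' := by
  obtain ⟨g, hg, h1⟩ := SetLike.not_le_iff_exists.1 hn
  obtain ⟨k, hk, e⟩ := h.wpd.exists_conj_Zs (X := ⊤) (x := ⟨g, hg⟩) trivial rfl (fun e => h1 (by
    simpa using (smul_mk_iff _ _).1 e.symm)) (h.mem_Zs hd) (h.mem_Zs hd') trivial trivial
  exact ⟨k, k.2, by simpa using (smul_mk_iff _ _).1 (Bender.mem_E2.1 (Od_le _ hk).2).1,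
    orderOf_coe k ▸ odd_of_mem_Od hk, congrArg Subtype.val e⟩

theorem mul_mem (hk : ∀ w ∈ M, orderOf w = 2 → ∃ g ∈ M, g * w * g⁻¹ ∉ H) (hd : d ∈ D) (hd' : d' ∈ D)
    (hne : d ≠ d') (hc : d * d' = d' * d) : d * d' ∈ D := by
  have hk' : ∀ w : M, orderOf w = 2 → ∃ a : M ⧸ H.subgroupOf M, w • a ≠ a := fun w hw =>
    let ⟨g, hg, e⟩ := hk w w.2 (by rwa [orderOf_coe])
    ⟨(⟨g, hg⟩⁻¹ : M), fun e' => e (by simpa using (smul_mk_iff _ _).1 e')⟩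
  have : Nontrivial (M ⧸ H.subgroupOf M) :=
    let ⟨_, e⟩ := hk' ⟨d, (h.mem d hd).1⟩ (by simp [h.ord d hd]); ⟨_, _, e⟩
  have := (h.wpd.pd (fun a => a.inductionOn fun a => ⟨a * ⟨d, (h.mem d hd).1⟩ * a⁻¹, ⟨a, d, hd, rfl⟩,
    (h.fix_iff hd rfl).2 rfl⟩) hk').Zs_mul (h.mem_Zs hd) (h.mem_Zs hd')
      (fun e => hne (congrArg Subtype.val e)) (Subtype.ext hc)
  simpa using h.mem_of_fix this.1 this.2

end ZS

end Cfsg.Lib.TO
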