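import Cfsg.Agent.Lib.TO.Geo3
import Cfsg.Agent.Lib.TO.Zd

/-!
# Involutions of a three-dimensional tensor factor
-/

set_option autoImplicit false
set_option linter.unusedSectionVars false

namespace Cfsg.Lib.TO

open Module QuadraticMap Cfsg.Lib.TW Cfsg.Lib.TMax Function
open Cfsg.Lib.Orth
open Cfsg.Lib.Unitary (UG)
open scoped commutatorElement

variable {F U W V : Type*} [Field F] [AddCommGroup U] [Module F U] [AddCommGroup W] [Module F W]
  [AddCommGroup V] [Module F V] {q : QuadraticForm F U} {Q : QuadraticForm F V}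
  {T T' : TF F U W V} {M : Subgroup (V ≃ₗ[F] V)} {g k : V ≃ₗ[F] V} {v x y w s : U}

/-- The involution of a factor attached to a non-singular vector. -/
noncomputable def dv (T : TF F U W V) (q : QuadraticForm F U) (v : U) : V ≃ₗ[F] V :=
  T.kr (nr q v).1 1

theorem dv_t (v x : U) (u : W) : dv T q v (T.t x u) = T.t ((nr q v).1 x) u := by simp [dv]

theorem dv_mul {b : O q} (h : nr q v * nr q x = b) : dv T q v * dv T q x = T.kr b.1 1 := by
  rw [dv, dv, ← kr_mul', ← Subgroup.coe_mul, h]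

theorem dv_mul_self (v : U) : dv T q v * dv T q v = 1 := by simpa using dv_mul (nr_mul_self v)

theorem dv_inv (v : U) : (dv T q v)⁻¹ = dv T q v := inv_eq_of_mul_eq_one_right (dv_mul_self v)

theorem dv_comm (h : polar q v x = 0) : dv T q v * dv T q x = dv T q x * dv T q v := by
  rw [dv_mul rfl, dv_mul rfl, nr_comm h]

theorem kr_conj_dv (b : O q) (v : U) :
    T.kr b.1 1 * dv T q v * (T.kr b.1 1)⁻¹ = dv T q (b.1 v) := by
  rw [dv, dv, ← conj_nr, ← kr_inv', ← kr_mul', ← kr_mul']; rfl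

theorem dv_apply (v : U) (z : V) : dv T q v z = (q v)⁻¹ • T.t v (cw T q v z) - z :=
  T.ext_t (f := (dv T q v).toLinearMap) (g := (q v)⁻¹ • (T.t v ∘ₗ cw T q v) - 1)
    (fun x u => by simp [dv_t, nr_apply, mul_smul]) z

theorem dv_fix (h2 : (2 : F) ≠ 0) (hv : q v ≠ 0) {z : V} : dv T q v z = z ↔ z ∈ T.P (F ∙ v) := by
  refine ⟨fun h => ?_, fun h => ?_⟩
  · rw [dv_apply, sub_eq_iff_eq_add, ← two_smul F] at h
    rw [← Submodule.smul_mem_iff _ h2, ← h]
    exact Submodule.smul_mem _ _ (T.t_mem_P1 _ _)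
  · obtain ⟨u, rfl⟩ := T.mem_P1.1 h
    rw [dv_t, nr_self hv]

theorem map_P_of_comm (h2 : (2 : F) ≠ 0) (hv : q v ≠ 0) (h : g * dv T q v = dv T q v * g) {z : V}
    (hz : z ∈ T.P (F ∙ v)) : g z ∈ T.P (F ∙ v) := (dv_fix h2 hv).1 (by
  rw [← LinearEquiv.mul_apply, ← h, LinearEquiv.mul_apply, (dv_fix h2 hv).2 hz])

/-- The centraliser of a factor. -/
def CG (T : TF F U W V) : Subgroup (V ≃ₗ[F] V) where
  carrier := {g | Cm T g.toLinearMap}
  one_mem' := cm_one
  mul_mem' := Cm.mul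
  inv_mem' := Cm.inv

theorem scalar_of_kr [Nontrivial W] {a b} (h : T.kr a b ∈ CG T) : ∃ c : F, ∀ x, a x = c • x := by
  obtain ⟨u, hu⟩ := exists_ne (0 : W)
  refine exists_smul_of_mem (a := a.toLinearMap) fun x => ?_
  rcases eq_or_ne x 0 with rfl | h0
  · simp
  obtain ⟨ψ, hψ⟩ := exists_dual_one (F := F) h0
  have := LinearMap.congr_fun (h (ψ.smulRight x)) (T.t x u)
  simp only [End.mul_apply, TF.e_t, LinearMap.smulRight_apply, hψ, one_smul, LinearEquiv.coe_coe,
    TF.kr_t] at this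
  exact Submodule.mem_span_singleton.2 ⟨_, (T.t_inj' (by simpa using hu) this).symm⟩

theorem kr_mem_CG {a : U ≃ₗ[F] U} {c : F} (h : ∀ x, a x = c • x) (b) : T.kr a b ∈ CG T := fun _ =>
  T.ext' fun _ _ => by simp [h]

theorem kr_pow (a b) (n : ℕ) : T.kr a b ^ n = T.kr (a ^ n) (b ^ n) := by
  induction n with
  | zero => simp
  | succ n ih => rw [pow_succ, ih, T.kr_mul, pow_succ, pow_succ]

theorem ae_sub (hw : q w = 0) (hs : polar q w s = 0) :
    (ae T q w s).toLinearMap - 1 = T.e (sk q w s - q s • r q w w) := by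
  rw [ae_coe, eich_coe hw hs, add_sub_assoc, map_add, map_one, add_sub_cancel_left]

theorem ae_sq (hw : q w = 0) (hs : polar q w s = 0) :
    ((ae T q w s).toLinearMap - 1) ^ 2 = (-polar q s s) • T.e (r q w w) := by
  rw [ae_sub hw hs, ← map_pow, ← map_smul, ← sk_mul hw hs hs]
  simp [pow_two, mul_sub, sub_mul, r_mul_sk hw hs, sk_mul_r hw hs, r_mul_self hw]

theorem ae_cube (hw : q w = 0) (hs : polar q w s = 0) : ((ae T q w s).toLinearMap - 1) ^ 3 = 0 := by
  rw [pow_succ, ae_sq hw hs, ae_sub hw hs, smul_mul_assoc, ← map_mul]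
  simp [mul_sub, r_mul_sk hw hs, r_mul_self hw]

theorem aw_comm (hw : q w = 0) {a b} (ha : a ∈ Aw T hw) (hb : b ∈ Aw T hw) : a * b = b * a := by
  obtain ⟨s, hs, rfl⟩ := ha
  obtain ⟨s', hs', rfl⟩ := hb
  rw [← ae_add hw hs hs', add_comm, ae_add hw hs' hs]

theorem eich_ind {K : Subgroup (V ≃ₗ[F] V)} (f : O q →* (V ≃ₗ[F] V))
    (h : ∀ w s, q w = 0 → polar q w s = 0 → f (eich q w s) ∈ K) {b} (hb : b ∈ eichGroup q) :
    f b ∈ K := (eichGroup_le (K := K.comap f) h :) hb

/-- An involution interchanging two factors centralises a diagonal subgroup. -/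
theorem mem_of_swap (p : ℕ) [CharP F p] {K : Subgroup (V ≃ₗ[F] V)} (hg : g * g = 1)
    (hc : ∀ a b, Commute (g * T.kr a 1 * g⁻¹) (T.kr b 1))
    (h : ∀ w s, let y := ae T q w s * (g * ae T q w s * g⁻¹); y * g = g * y → y ^ p = 1 → y ∈ K)
    {b : O q} (hb : b ∈ eichGroup q) : T.kr b.1 1 * (g * T.kr b.1 1 * g⁻¹) ∈ K := by
  let f := T.krHom.comp (O q).subtype
  refine eich_ind (f.noncommCoprod ((MulAut.conj g).toMonoidHom.comp f)
    (fun a b => (hc b.1 a.1).symm) |>.comp ((MonoidHom.id _).prod (MonoidHom.id _)))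
    (fun w s hw hs => h w s ?_ ?_) hb
  · have := (hc (eich q w s).1 (eich q w s).1).eq
    rw [← ae, inv_eq_of_mul_eq_one_right hg] at this
    rw [inv_eq_of_mul_eq_one_right hg, ← this]
    simp only [← mul_assoc, hg, one_mul]
    rw [this]
    simp only [mul_assoc, hg, mul_one]
  · rw [ae, (hc _ _).symm.mul_pow, conj_pow, ← ae, ae_pow p hw hs]; simp

variable [Finite F] [FiniteDimensional F U] [Nontrivial W]

namespace OU

variable (γ : OU q)
include γ

theorem dv_notMem (hv : q v ≠ 0) : dv T q v ∉ CG T := fun h =>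
  let ⟨c, hc⟩ := scalar_of_kr h
  γ.nr_ne hv c hc

theorem dv_ne (hv : q v ≠ 0) : dv T q v ≠ 1 := fun e => γ.dv_notMem hv (e ▸ one_mem (CG T))

theorem orderOf_dv (hv : q v ≠ 0) : orderOf (dv T q v) = 2 :=
  Inv.orderOf_eq_two_iff.2 ⟨γ.dv_ne hv, dv_mul_self v⟩

/-- Elements commuting with a non-trivial root element stabilise the singular subspace. -/
theorem map_P_of_ae (h : W1 q) (h0 : w ≠ 0) (hw : q w = 0) {a} (ha : a ∈ Aw T hw) (h1 : a ≠ 1)
    (e : g * a = a * g) (u : W) : g (T.t w u) ∈ T.P (F ∙ w) := by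
  obtain ⟨s, hs, rfl⟩ := ha
  obtain ⟨f, hf⟩ := γ.hyp h0 hw
  have h2 : -polar q s s ≠ 0 := by
    rw [polar_self', neg_ne_zero]
    refine mul_ne_zero γ.two fun e => h1 ?_
    obtain ⟨c, rfl⟩ := Submodule.mem_span_singleton.1 (h w s h0 hw e hs)
    rw [ae, eich_self_smul hw]; simp
  have := LinearMap.congr_fun (((show Commute g.toLinearMap (ae T q w s).toLinearMap from
    congrArg LinearEquiv.toLinearMap e).sub_right (Commute.one_right _)).pow_right 2).eq (T.t f u)
  simp only [ae_sq hw hs, End.mul_apply, LinearMap.smul_apply, map_smul, e_r, cw_t, hf.polar_eq,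
    one_smul, LinearEquiv.coe_coe] at this
  exact smul_right_injective V h2 this ▸ T.t_mem_P1 _ _

theorem not_cyclic (p : ℕ) [Fact p.Prime] [CharP F p] (h5 : p < 5) (h : finrank F U < 5) (h0 : w ≠ 0)
    (hw : q w = 0) : ¬ IsCyclic (Aw T hw) := fun hc => by
  obtain ⟨s, hs, h1⟩ := γ.exists_aniso h0 hw
  obtain ⟨t, h2, h3⟩ := γ.exists_t h
  have := finite_of_finite F (M := U)
  have : Finite (Aw T hw) := Finite.of_surjective (fun s : {s // polar q w s = 0} =>
    (⟨_, s.1, s.2, rfl⟩ : Aw T hw)) fun ⟨_, s, hs, e⟩ => ⟨⟨s, hs⟩, Subtype.ext e.symm⟩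
  have h4 := (Nat.card_le_card_of_injective (fun c : F => (⟨_, c • s, by simp [hs], rfl⟩ : Aw T hw))
    fun c d e => by
      have := ae_sq (T := T) hw (s := c • s + -(d • s)) (by simp [hs])
      rw [ae_add hw (by simp [hs]) (by simp [hs]), ae_neg hw (by simp [hs]),
        mul_inv_eq_one.2 (congrArg Subtype.val e), eq_comm, ← neg_smul, ← add_smul] at this
      simpa [polar_self', γ.two, h1, map_eq_zero_iff _ (e_inj T), γ.r_ne h0 h0, add_neg_eq_zero,
        Q_smul, ← End.one_eq_id] using this).trans (Nat.le_of_dvd (Fact.out : p.Prime).pos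
      (IsCyclic.exponent_eq_card (α := Aw T hw) ▸ Monoid.exponent_dvd_of_forall_pow_eq_one
        fun ⟨_, s, hs, e⟩ => Subtype.ext (e ▸ ae_pow p hw hs)))
  have := Fintype.ofFinite F
  obtain ⟨n, hp, hn⟩ := FiniteField.card F p
  have h6 := FiniteField.pow_card t
  obtain ⟨m, hm⟩ := odd_char γ p
  rw [← Nat.card_eq_fintype_card] at hn h6
  rw [h4.antisymm (hn ▸ Nat.le_self_pow n.ne_zero p),
    show p = 3 by have := hp.two_le; omega] at h6
  exact h3 (mul_left_cancel₀ h2 (by linear_combination h6))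

variable (h3 : finrank F U = 3) [FiniteDimensional F W]
include h3

/-- The dimension of the fixed space characterises the involutions of the factor. -/
theorem eq_one_of_conj (hv : q v ≠ 0) (hx : q x ≠ 0) {β} (hβ : β * β = 1)
    (e : g * dv T' q x * g⁻¹ = T.kr (nr q v).1 β) : β = 1 := by
  by_contra h
  obtain ⟨u₀, hu⟩ : ∃ u, β u ≠ u := by simpa using mt LinearEquiv.ext h
  obtain ⟨y, h1, h2⟩ := γ.exists_perp hv 1
  obtain ⟨z, h4, h5, h6, -⟩ := γ.third h3 hv (by simp [h2]) h1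
  have hb : ∀ u, β (β u) = u := fun u => LinearEquiv.congr_fun hβ u
  have := (g • T').φ.finiteDimensional
  let φ : W × F →ₗ[F] V := (T.t v ∘ₗ (1 + β.toLinearMap) + T.t y ∘ₗ (1 - β.toLinearMap)).coprod
    (LinearMap.toSpanSingleton F V (T.t z (u₀ - β u₀)))
  have k : ∀ a, φ a ∈ (g • T').P (F ∙ x) := fun a => T'.mem_smul_P.2 ((dv_fix γ.two hx).1
    (g.injective (by
      rw [← LinearEquiv.mul_apply, ← LinearEquiv.mul_apply, e]
      simp [φ, nr_self hv, nr_perp h1, nr_perp h5, hb]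
      module)))
  have := LinearMap.finrank_le_finrank_of_injective (f := φ.codRestrict _ k)
    ((injective_iff_map_eq_zero _).2 fun ⟨a, c⟩ e => by
      replace e := congrArg Subtype.val e
      have e1 := congrArg (cw T q v) e
      have e2 := congrArg (cw T q y) e
      have e3 := congrArg (cw T q z) e
      simp only [φ, LinearMap.codRestrict_apply, LinearMap.coprod_apply, LinearMap.add_apply,
        LinearMap.comp_apply, LinearMap.toSpanSingleton_apply, map_add (cw T q _), map_smul, cw_t,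
        h1, h5, h6, polar_comm q y v, polar_comm q z v, polar_comm q z y, zero_smul, smul_zero,
        add_zero, zero_add, Submodule.coe_zero, map_zero, polar_self', smul_eq_zero, mul_eq_zero,
        γ.two, hv, h2, h4, one_ne_zero, or_false, false_or, sub_eq_zero, hu.symm,
        LinearMap.sub_apply, End.one_apply, LinearEquiv.coe_coe] at e1 e2 e3
      rw [← e2, ← two_smul F, smul_eq_zero_iff_right γ.two] at e1
      simp [e1, e3])
  rw [TF.finrank_P1 _ (by rintro rfl; simp at hx)] at this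
  simp at this

end OU

namespace Sl

variable (σ : Sl q Q M T) (h3 : finrank F U = 3) [FiniteDimensional F W]
include σ h3

theorem inv_slot (hg : g ∈ O Q) (h : g * g = 1) (hs : Sub (g • T) T) :
    g ∈ CG T ∨ ∃ v β, q v ≠ 0 ∧ β * β = 1 ∧ g = T.kr (nr q v).1 β := by
  have := σ.γ.nontrivial
  obtain ⟨a, b, rfl⟩ := hs.exists_kr
  obtain ⟨l, -, h1, -⟩ := σ.sim hg
  obtain ⟨c, hc⟩ := scalar_of_kr (T.kr_mul a b a b ▸ h ▸ one_mem (CG T))
  refine (σ.γ.inv3 h3 h1 hc).imp (fun ⟨_, h⟩ => kr_mem_CG h b) fun ⟨v, μ, hv, e⟩ => ?_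
  have h0 : μ ≠ 0 := by
    rintro rfl
    exact hv (by rw [a.injective (show a v = a 0 by simp [e])]; simp)
  have e' : T.kr a b = T.kr (nr q v).1 (b.trans (LinearEquiv.smulOfNeZero F W μ h0)) :=
    T.eq_of_t fun x u => by simp [e]
  refine ⟨v, _, hv, LinearEquiv.ext fun u => T.t_inj (v := v) (by rintro rfl; simp at hv) ?_, e'⟩
  simpa [e', nr_self hv] using LinearEquiv.congr_fun h (T.t v u)

theorem cm_of_pow (p : ℕ) [Fact p.Prime] [CharP F p] (hv : q v ≠ 0) (hg : g ∈ O Q) (h : g ^ p = 1)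
    (hs : Sub (g • T) T) (e : g * dv T q v = dv T q v * g) : g ∈ CG T := by
  have := σ.γ.nontrivial
  obtain ⟨a, b, rfl⟩ := hs.exists_kr
  obtain ⟨l, -, h1, -⟩ := σ.sim hg
  obtain ⟨c, hc⟩ := scalar_of_kr (kr_pow (T := T) a b p ▸ h ▸ one_mem (CG T))
  obtain ⟨μ, h2⟩ := σ.γ.q3 h3 p hv h1 (mul_inv_eq_iff_eq_mul.1 (kr_inj (T := T) (by
    rw [← mul_inv_eq_iff_eq_mul, dv, T.kr_inv, T.kr_mul, T.kr_mul] at e
    simpa using e))) hc
  exact kr_mem_CG h2 b

end Sl

end Cfsg.Lib.TO
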