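import Cfsg.Agent.Lib.TO.Std

/-!
# The tensor product of a three-dimensional and a four-dimensional orthogonal space
-/

set_option autoImplicit false
set_option linter.unusedSectionVars false

namespace Cfsg.Lib.TO

open Module QuadraticMap Cfsg.Lib.TW Cfsg.Lib.TMax Function
open Cfsg.Lib.Orth
open Cfsg.Lib.Unitary (UG)
open scoped commutatorElement

variable {F U W V : Type*} [Field F] [AddCommGroup U] [Module F U] [AddCommGroup W] [Module F W]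
  [AddCommGroup V] [Module F V] {q : QuadraticForm F U} {q' : QuadraticForm F W}
  {Q : QuadraticForm F V} {T : TF F U W V} {M : Subgroup (V ≃ₗ[F] V)} {g k : V ≃ₗ[F] V}
  {v x : U} {w w' : W}

/-- Interchanging the factors. -/
noncomputable def sw (T : TF F U W V) : TF F W U V := ⟨(TensorProduct.comm F W U).trans T.φ⟩

@[simp] theorem sw_t (u : W) (v : U) : (sw T).t u v = T.t v u := rfl

theorem sw_sw (T : TF F U W V) : sw (sw T) = T := by
  cases T; unfold sw; congr; ext; simp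

theorem sw_kr (a b) : (sw T).kr b a = T.kr a b := T.eq_of_t fun v u => by
  rw [← sw_t, TF.kr_t, sw_t, sw_t, TF.kr_t]

theorem sw_e (b) : (sw T).e b = T.km 1 b := T.ext' fun v u => by
  rw [← sw_t, TF.e_t, sw_t, sw_t, TF.km_t]; rfl

theorem cm_sw (b) : Cm T ((sw T).e b) := sw_e (T := T) b ▸ cm_km b

theorem cm_sw' (a) : Cm (sw T) (T.e a) := fun b => (cm_sw b a).symm

theorem exists_sw [Nontrivial U] {Y : End F V} (h : Cm T Y) : ∃ b, Y = (sw T).e b :=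
  let ⟨b, e⟩ := h.exists_km
  ⟨b, e.trans (sw_e b).symm⟩

theorem exists_sw' [Nontrivial W] {Y : End F V} (h : Cm (sw T) Y) : ∃ a, Y = T.e a :=
  sw_sw T ▸ exists_sw h

theorem scalar_of_cm [Nontrivial U] [Nontrivial W] {Y : End F V} (h : Cm T Y) (h' : Cm (sw T) Y) :
    ∃ c : F, Y = c • 1 := by
  obtain ⟨a, rfl⟩ := exists_sw' h'
  obtain ⟨c, hc⟩ := exists_smul_of_mem (a := a) fun x => by
    rcases eq_or_ne x 0 with rfl | h0
    · simp
    obtain ⟨ψ, hψ⟩ := exists_dual_one (F := F) h0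
    have := LinearMap.congr_fun (e_inj T (by simpa using h (ψ.smulRight x) :
      T.e (a * ψ.smulRight x) = T.e (ψ.smulRight x * a))) x
    exact Submodule.mem_span_singleton.2 ⟨_, by simpa [hψ] using this.symm⟩
  exact ⟨c, T.ext' fun _ _ => by simp [hc]⟩

theorem kr_mem_CG' (b) : (sw T).kr b 1 ∈ CG T := sw_kr (T := T) 1 b ▸ kr_mem_CG (c := 1) (by simp) b

theorem kr_mem_CG'' (a) : T.kr a 1 ∈ CG (sw T) := fun b => T.kr_coe a ▸ cm_sw' _ b

variable [FiniteDimensional F U] [FiniteDimensional F W] [Nontrivial U] [Nontrivial W]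

/-- The stabiliser of a decomposition. -/
def HG (T : TF F U W V) : Subgroup (V ≃ₗ[F] V) where
  carrier := {g | Sub (g • T) T}
  one_mem' := by simpa using Sub.refl _
  mul_mem' := fun {g k} h h' => by simpa [mul_smul] using (Sub.smul h' g).trans h
  inv_mem' := fun {g} h => by simpa using (Sub.smul h g⁻¹).symm

theorem mem_HG : g ∈ HG T ↔ ∃ a b, g = T.kr a b :=
  ⟨Sub.exists_kr, fun ⟨a, b, e⟩ => e ▸ sub_kr T a b⟩

theorem mem_HG_sw : g ∈ HG (sw T) ↔ g ∈ HG T := by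
  simp only [mem_HG, sw_kr]; exact exists_comm

variable [Finite F]

theorem OU.ex_cm (γ : OU q) (h4 : finrank F U ≠ 4) {S : AddSubgroup (End F V)}
    (hS : Cl T (Nq q) S) {β} (hβ : β ∈ S) (h : ¬ Cm T β) (h' : Cm (sw T) β) :
    ∃ a, ∃ c : F, (NT q a ∨ PT q a) ∧ c ≠ 0 ∧ T.e a * c • 1 ∈ S := by
  obtain ⟨a, δ, h1, h2, h3, h5, h6⟩ := γ.ex0 h4 hS hβ h
  obtain ⟨c, rfl⟩ := scalar_of_cm h3 fun b => h5 _ (cm_sw b) (h' b)
  exact ⟨a, c, h1, by rintro rfl; simp at h2, h6⟩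

theorem iv_cl (σ : Sl q Q M T) {S} (h : Iv (sw T) M S) : Cl T (Nq q) S := fun b hb β hβ => by
  simpa only [TF.kr_inv, inv_one, TF.kr_coe] using h _ (σ.su b hb) (kr_mem_CG'' b) β hβ

variable [FiniteDimensional F V]

theorem gd_or (σ : Sl q Q M T) (σ' : Sl q' Q M (sw T)) (h4 : finrank F U ≠ 4) :
    Gd q' M (sw T) ∨ (commutator (O Q)).map (O Q).subtype ≤ M := by
  have γ := σ.γ
  have : Nontrivial V := let ⟨a, ha⟩ := exists_ne (0 : U); let ⟨b, hb⟩ := exists_ne (0 : W)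
    nontrivial_of_ne _ _ (T.t_ne_zero ha hb)
  refine or_iff_not_imp_right.2 fun hn => σ'.gd_of (fun S hS β hβ h => ?_)
    (fun S hS h1 h2 β hβ => ?_) fun w h0 hw ζ h1 h2 => by_contra fun h3 => hn ?_
  · obtain ⟨a, δ, k1, k2, k3, -, k4⟩ := γ.ex0 h4 (iv_cl σ hS) hβ fun e => h (exists_sw e)
    obtain ⟨d, rfl⟩ := exists_sw k3
    refine ⟨d, _, fun e => k2 (by simp [e]), cm_sw' a, fun ⟨c, hc⟩ => ?_, k3 a ▸ k4⟩
    obtain ⟨x, e0, e, e'⟩ : ∃ x, x ≠ 0 ∧ r q x x * a = 0 ∧ a ≠ 0 := by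
      rcases k1 with k | k
      exacts [let ⟨x, e0, hx, e⟩ := id k; ⟨x, e0, e ▸ r_mul_self hx, OU.NT.ne γ k⟩,
        let ⟨x, _, e0, hx, hs, _, e⟩ := id k; ⟨x, e0, e ▸ r_mul_sk hx hs, OU.PT.ne γ k⟩]
    exact e' (e_inj T (((hc ▸ cm_one.smul c : Cm T (T.e a)).eq_zero (γ.r_ne e0 e0) (by
      rw [← map_mul, e, map_zero])).trans (map_zero _).symm))
  · refine scalar_of_cm (by_contra fun h => h fun a => ?_) (h1 β hβ)
    obtain ⟨b, c, k1, k2, k3⟩ := γ.ex_cm h4 (iv_cl σ hS) hβ h (h1 β hβ)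
    obtain ⟨τ, k4, k5⟩ : ∃ τ, Submodule.span F τ ^ 4 = ⊤ ∧ ∀ a ∈ τ, T.e a * c • 1 ∈ S := by
      rcases k1 with k | k
      · exact ⟨_, γ.tn_pow, by
          rintro _ ⟨x, hx, rfl⟩; exact γ.spreadN (iv_cl σ hS) k (cm_one.smul c) k3 hx⟩
      · exact ⟨_, γ.tp_pow, by
          rintro _ ⟨x, y, hx, hy, rfl⟩; exact γ.spreadP (iv_cl σ hS) k (cm_one.smul c) k3 hx hy⟩
    exact pow_le_alg ((Subalgebra.centralizer F {β}).comap T.e) 4 ((k4.ge.trans (pow_le_pow_left'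
      (Submodule.span_le.2 fun a ha _ e => by
        simpa [show _ = β from e, k2] using h2 _ hβ _ (k5 a ha)) 4)) trivial) β rfl
  have k : ∀ ζ ∈ coeffs M (sw T) (r_mul_self hw), Ad (polarBilin Q) ζ ζ → ζ = 0 := fun ζ h e =>
    (smul_eq_zero_iff_right γ.two).1 (by
      rw [two_smul]; exact eq_neg_iff_add_eq_zero.1 (e.unique σ.hB (σ'.skew h0 hw h.1 h.2)))
  obtain ⟨a, c, k1, k2, k3⟩ := γ.ex_cm h4 (iv_cl σ (iv_coeffs (r_mul_self hw))) ⟨h1, h2⟩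
    (fun e => by
      obtain ⟨c, rfl⟩ := scalar_of_cm e h1
      exact h3 (k _ ⟨h1, h2⟩ (Ad.one.smul c))) h1
  have k4 := k1.resolve_left fun e => by
    obtain ⟨x, -, -, rfl⟩ := id e
    simpa [k2, map_eq_zero_iff _ (e_inj T), OU.NT.ne γ e] using
      k _ k3 (by simpa using (σ.ad_e (ad_r x x)).smul c)
  have k5 := fun x y => γ.spreadP (iv_cl σ (iv_coeffs (r_mul_self hw))) k4 (cm_one.smul c) k3
    (w := x) (s := y)
  refine σ'.omega_le γ.three fun η hη => ?_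
  obtain ⟨b, rfl⟩ := exists_sw' hη
  refine σ'.RR_le (σ'.e_mem_RR γ (Γ := 1) (fun η h => ?_) ?_ (by rw [one_pow]; exact ⟨1, by simp⟩) b)
  · obtain ⟨d, rfl⟩ := Submodule.mem_one.1 h
    exact fun a => Algebra.commutes d _
  rintro _ ⟨x, y, hx, hy, rfl⟩ η h
  obtain ⟨d, rfl⟩ := Submodule.mem_one.1 h
  rw [← Algebra.commutes, ← Algebra.smul_def]
  refine Submodule.smul_mem _ _ (σ'.mem_ZZ h0 hw (cm_sw' _) fun d => ?_)
  simpa [sk_smul_right, smul_smul, k2] using (k5 x ((c⁻¹ * d) • y) hx (by simp [hy])).2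

/-- Hypotheses on a product of a three-dimensional and a four-dimensional space. -/
structure Mx (q : QuadraticForm F U) (q' : QuadraticForm F W) (Q : QuadraticForm F V)
    (M : Subgroup (V ≃ₗ[F] V)) (T : TF F U W V) : Prop where
  σ : Sl q Q M T
  σ' : Sl q' Q M (sw T)
  h3 : finrank F U = 3
  h4 : finrank F W = 4
  pol : ∀ v u v' u', polar Q (T.t v u) (T.t v' u') = polar q v v' * polar q' u u'
  gd : Gd q' M (sw T)
  dm : ∀ v, q v ≠ 0 → dv T q v ∈ M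

namespace Mx

variable (μ : Mx q q' Q M T)
include μ

theorem comm_kr (h0 : w ≠ 0) (hw : q' w = 0) (hg : g ∈ M) (hk : k ∈ M)
    (h : ∀ a ∈ Aw (sw T) hw, g * a = a * g) (h' : ∀ a ∈ Aw (sw T) hw, k * a = a * k) :
    ⁅g, k⁆ ∈ T.krHom.range := by
  obtain ⟨f, hf⟩ := μ.σ'.γ.hyp h0 hw
  obtain ⟨b, l, τ⟩ := μ.σ'.γ.tor hf
  obtain ⟨e, f', he⟩ := μ.σ.γ.exists_hyp
  let C := M ⊓ Subgroup.centralizer (Aw (sw T) hw) ⊓ Subgroup.centralizer {(sw T).kr b.1 1}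
  have k1 : ∀ g ∈ M, (∀ a ∈ Aw (sw T) hw, g * a = a * g) → ∃ a ∈ Aw (sw T) hw, a * g ∈ C ∧
      ∃ β : O q, ∀ u, (a * g) ((sw T).t w u) = (sw T).t w (β.1 u) := fun g hg h => by
    obtain ⟨a, ha, e⟩ := μ.σ'.exists_tor μ.gd τ hg h
    have h1 : a * g ∈ M := let ⟨_, _, e⟩ := ha; mul_mem (e ▸ μ.σ'.ae_mem _ _) hg
    have h2 : ∀ c ∈ Aw (sw T) hw, a * g * c = c * (a * g) := fun c hc => by
      rw [mul_assoc, h c hc, ← mul_assoc, aw_comm hw ha hc, mul_assoc]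
    obtain ⟨β, hβ⟩ := exists_res h0 (μ.σ'.map_P h0 hw h2)
    exact ⟨a, ha, ⟨⟨h1, fun c hc => (h2 c hc).symm⟩, fun _ h => h ▸ e.symm⟩, ⟨β, mem_O_of_UG μ.σ.γ.two
      fun x y => by simpa [μ.pol, hf.polar_eq] using μ.σ'.polar_res τ h1 h2 e hβ x y⟩, hβ⟩
  obtain ⟨a, ha, h1, β, e1⟩ := k1 g hg h
  obtain ⟨a', ha', h2, β', e2⟩ := k1 k hk h'
  have h3 : ⁅a * g, a' * k⁆ = ⁅g, k⁆ := by
    have e3 : Commute a (a' * k) := (h2.1.2 a ha :)
    have e4 : Commute g a' := h a' ha'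
    rw [← h a ha, commutatorElement_def, mul_assoc g, e3.eq, mul_inv_rev, mul_inv_rev,
      commutatorElement_def]
    calc _ = g * a' * k * (g⁻¹ * k⁻¹ * a'⁻¹) := by group
      _ = a' * (g * k * g⁻¹ * k⁻¹) * a'⁻¹ := by rw [e4.eq]; group
      _ = _ := mul_inv_eq_iff_eq_mul.2 (((e4.mul_left (h' a' ha')).mul_left e4.inv_left).mul_left
        (Commute.inv_left (h' a' ha'))).eq.symm
  have h4 : T.kr ⁅β, β'⁆.1 1 ∈ C := ⟨⟨μ.σ.su' (commutator_le_eichGroup μ.σ.γ.nd he.left he.ne_zero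
    μ.σ.γ.three (Subgroup.commutator_mem_commutator trivial trivial)), fun _ ⟨_, _, e⟩ =>
      e ▸ ((kr_mem_CG'' _).comm_kr _).symm⟩, fun _ e => e ▸ ((kr_mem_CG'' _).comm_kr _).symm⟩
  have h5 := mul_mem (inv_mem h4) (Subgroup.commutator_le_self C
    (Subgroup.commutator_mem_commutator h1 h2))
  refine ⟨⁅β, β'⁆.1, h3 ▸ (inv_mul_eq_one.1 (μ.σ'.eq_one_of_tor μ.gd τ h5.1.1
    (fun c hc => (h5.1.2 c hc).symm) (h5.2 _ rfl).symm fun u => ?_))⟩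
  have k2 : ∀ {g : V ≃ₗ[F] V} {β : O q}, (∀ u, g ((sw T).t w u) = (sw T).t w (β.1 u)) →
      ∀ u, g⁻¹ ((sw T).t w u) = (sw T).t w (β⁻¹.1 u) := fun {g β} e u =>
    g.injective (by rw [e]; simp)
  rw [LinearEquiv.mul_apply, commutatorElement_def (a * g), LinearEquiv.mul_apply,
    LinearEquiv.mul_apply, LinearEquiv.mul_apply, k2 e2, k2 e1, e2, e1]
  exact (LinearEquiv.symm_apply_eq _).2 (T.kr_t ⁅β, β'⁆.1 1 u w).symm

theorem mem_of_cen (h0 : w ≠ 0) (hw : q' w = 0) (hg : g ∈ M) (h : ∀ b ∈ eichGroup q,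
    ∀ a ∈ Aw (sw T) hw, g * T.kr b.1 1 * g⁻¹ * a = a * (g * T.kr b.1 1 * g⁻¹)) : g ∈ HG T :=
  μ.σ.γ.sub_of_kr fun x y _ _ =>
    let ⟨a, e⟩ := μ.σ.γ.perf (L := T.krHom.range.comap ((g • T).krHom.comp (O q).subtype))
      (fun a ha b hb => by
        rw [Subgroup.mem_comap, map_commutatorElement]
        exact μ.comm_kr h0 hw ((μ.σ.smul hg).su' ha) ((μ.σ.smul hg).su' hb)
          (T.smul_kr g a.1 1 ▸ h a ha :) (T.smul_kr g b.1 1 ▸ h b hb :)) (eich_mem_eichGroup x y)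
    ⟨_, (congrArg _ e.symm).trans (T.kr_coe a)⟩

theorem loc (h0 : w ≠ 0) (hw : q' w = 0) (hg : g ∈ M)
    (h : ∀ u, g ((sw T).t w u) ∈ (sw T).P (F ∙ w)) : g ∈ HG T := by
  have e := P1_eq_of_le (T := g • sw T) (T' := sw T) h0 h0 (TF.P_le _ fun x hx u => by
    obtain ⟨c, rfl⟩ := Submodule.mem_span_singleton.1 hx
    simpa using Submodule.smul_mem _ c (h u))
  refine μ.mem_of_cen h0 hw hg fun b hb a ha => ?_
  obtain ⟨s, -, rfl⟩ := (μ.σ'.smul hg).aw_le μ.σ' (μ.gd.smul hg) h0 hw hw e.symm ha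
  rw [smul_ae, conj_mul, conj_mul, ae, (kr_mem_CG'' b.1).comm_kr]

theorem cen_one (h0 : w ≠ 0) (hw : q' w = 0) {a} (ha : a ∈ Aw (sw T) hw) (h1 : a ≠ 1) (hg : g ∈ M)
    (e : g * a = a * g) : g ∈ HG T :=
  μ.loc h0 hw hg (μ.σ'.γ.map_P_of_ae (μ.σ'.γ.w1 (μ.h4 ▸ by decide)) h0 hw ha h1 e)

theorem mem_of_conj (hx : q x ≠ 0) (hg : g ∈ M) (h : ∀ w s, q' w = 0 → polar q' w s = 0 →
    ae (g • sw T) q' w s ∈ HG T ∧ ae (g • sw T) q' w s * dv T q x = dv T q x * ae (g • sw T) q' w s) :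
    g ∈ HG T := by
  obtain ⟨p, hp⟩ := CharP.exists F
  have := Fact.mk (CharP.char_is_prime F p)
  exact mem_HG_sw.1 (μ.σ'.γ.sub_of_kr fun w s hw hs => exists_sw (μ.σ.cm_of_pow μ.h3 p hx
    (μ.σ.le ((μ.σ'.smul hg).ae_mem w s)) (ae_pow p hw hs) (h w s hw hs).1 (h w s hw hs).2))

theorem cd (hv : q v ≠ 0) (hg : g ∈ M) (h : g * dv T q v = dv T q v * g) : g ∈ HG T := by
  obtain ⟨p, hp⟩ := CharP.exists F
  have := Fact.mk (CharP.char_is_prime F p)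
  have : Nontrivial V := let ⟨a, ha⟩ := exists_ne (0 : U); let ⟨b, hb⟩ := exists_ne (0 : W)
    nontrivial_of_ne _ _ (T.t_ne_zero ha hb)
  have := finite_equiv (F := F) (V := V)
  have γ := μ.σ'.γ
  obtain ⟨w, f, hf⟩ := γ.exists_hyp
  have hw := hf.left
  have h0 := hf.ne_zero
  have v0 : v ≠ 0 := by rintro rfl; simp at hv
  set C := M ⊓ Subgroup.centralizer {dv T q v}
  have c1 : ∀ b ∈ eichGroup q', (sw T).kr b.1 1 ∈ C := fun b hb =>
    ⟨μ.σ'.su' hb, fun _ e => e ▸ ((kr_mem_CG' _).comm_kr _).symm⟩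
  have c2 : ∀ g ∈ C, ∀ z ∈ T.P (F ∙ v), g z ∈ T.P (F ∙ v) := fun g hg z =>
    map_P_of_comm γ.two hv (hg.2 _ rfl).symm
  have c3 : ∀ a ∈ Aw (sw T) hw, a ∈ C := fun _ ⟨s, _, e⟩ => e ▸ c1 _ (eich_mem_eichGroup w s)
  have k2 : Aw (sw T) hw ≤ Subgroup.normalizer (C ⊓ Fx (· ∈ T.P (F ∙ v)) : Subgroup _) :=
    fun a ha => Subgroup.mem_normalizer_fintype fun x hx => ⟨C.mul_mem (C.mul_mem (c3 a ha) hx.1)
      (C.inv_mem (c3 a ha)), conj_mem_Fx hx.2 (c2 _ (C.inv_mem (c3 a ha)))⟩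
  have k1 : ¬ p ∣ Nat.card (C ⊓ Fx (· ∈ T.P (F ∙ v)) : Subgroup _) := fun h => by
    obtain ⟨x, hx, h1, h2⟩ := exists_order.1 (dvd_card_cent (aw_pgroup p hw) k2 h)
    have h4 := μ.σ.cm_of_pow μ.h3 p hv (μ.σ.le hx.1.1.1) h2 (μ.loc h0 hw hx.1.1.1
      (μ.σ'.map_P h0 hw fun a ha => (hx.2 a ha).symm)) (hx.1.1.2 _ rfl).symm
    exact h1 (LinearEquiv.ext fun z => fix_of_cm v0 h4 fun a => hx.1.2 _)
  have c5 : C ⊓ Fx (· ∈ T.P (F ∙ v)) ≤ HG T := by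
    by_cases h5 : 5 ≤ p
    · obtain ⟨s, hs, h1⟩ := γ.exists_aniso h0 hw
      obtain ⟨y, hy, h2, h4⟩ := exists_cent_of_cube h5 (aw_pgroup p hw) k2 k1 ⟨s, hs, rfl⟩
        (orderOf_eq_prime (ae_pow p hw hs) fun e => by
          simpa [e, ← End.one_eq_id, polar_self', γ.two, h1, map_eq_zero_iff _ (e_inj _),
            γ.r_ne h0 h0] using ae_sq (T := sw T) hw hs) (ae_cube hw hs)
      exact fun x hx => μ.cen_one h0 hw hy h2 hx.1.1 (h4 x hx)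
    obtain ⟨n, hn⟩ := IsPGroup.iff_card.1 (aw_pgroup (T := sw T) p hw)
    exact BG.coprime_abelian_gen_cent1 ⟨⟨fun a b => Subtype.ext (aw_comm hw a.2 b.2)⟩⟩
      (γ.not_cyclic p (by omega) (μ.h4 ▸ by decide) h0 hw) k2
      (hn ▸ ((Nat.Prime.coprime_iff_not_dvd Fact.out).2 k1).pow_left n) fun a ha h1 x hx =>
        μ.cen_one h0 hw ha h1 hx.1.1.1 (hx.2 _ rfl).symm
  have hg' : g ∈ C := ⟨hg, fun _ e => e ▸ h.symm⟩
  refine μ.mem_of_conj hv hg fun w s hw hs => ?_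
  have h1 : ae (g • sw T) q' w s ∈ C := smul_ae (T := sw T) g w s ▸
    C.mul_mem (C.mul_mem hg' (c1 _ (eich_mem_eichGroup w s))) (C.inv_mem hg')
  have h2 := ae_pow (T := g • sw T) p hw hs
  generalize ae (g • sw T) q' w s = y at *
  obtain ⟨β, hβ⟩ := exists_res v0 fun u => c2 y h1 _ (T.t_mem_P1 v u)
  have h3 : β ∈ O q' := mem_O_of_UG γ.two fun a b => by
    simpa [hβ, μ.pol, polar_self', γ.two, hv] using O.map_polar ⟨y, μ.σ.le h1.1⟩ (T.t v a) (T.t v b)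
  have h4 : ∀ (n : ℕ) u, (y ^ n) (T.t v u) = T.t v ((β ^ n) u) := fun n => by
    induction n with
    | zero => simp
    | succ n ih => simp [pow_succ, hβ, ih]
  have h5 := c1 ⟨β, h3⟩ (γ.mem_of_odd (odd_char γ p) (Subtype.ext (LinearEquiv.ext fun u =>
    T.t_inj v0 (by simpa [h2] using (h4 p u).symm))))
  refine ⟨(mul_mem_cancel_left (inv_mem (mem_HG_sw.1 (sub_kr _ β 1)))).1
    (c5 ⟨C.mul_mem (C.inv_mem h5) h1, fun z hz => ?_⟩), (h1.2 _ rfl).symm⟩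
  obtain ⟨u, rfl⟩ := T.mem_P1.1 hz
  simp [hβ, sw_kr, TF.kr_inv]

theorem loc3 (hv : q v ≠ 0) (hx : q x ≠ 0) (hg : g ∈ M) (h : g * dv T q v * g⁻¹ = dv T q x) :
    g ∈ HG T := μ.mem_of_conj hx hg fun w s _ _ =>
  have : ae (g • sw T) q' w s * dv T q x = dv T q x * ae (g • sw T) q' w s := by
    rw [← h, smul_ae, conj_mul, conj_mul, ae, dv, (kr_mem_CG' _).comm_kr]
  ⟨μ.cd hx ((μ.σ'.smul hg).ae_mem w s) this, this⟩

theorem exists_dv (hv : q v ≠ 0) (hg : g ∈ M) (h : g * dv T q v * g⁻¹ ∈ HG T) :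
    ∃ y, q y ≠ 0 ∧ g * dv T q v * g⁻¹ = dv T q y := by
  rcases μ.σ.inv_slot μ.h3 (μ.σ.le (mul_mem (mul_mem hg (μ.dm v hv)) (inv_mem hg)))
    (smul_dv (T := T) g v ▸ dv_mul_self v) h with e | ⟨y, β, h1, h2, e⟩
  · obtain ⟨b, e⟩ := exists_sw e
    have : (g • T).P (F ∙ v) = (sw T).P (LinearMap.ker (b - 1)) := Submodule.ext fun z => by
      rw [← dv_fix μ.σ.γ.two hv, ← TF.ker_e, map_sub, ← e, smul_dv]; simp [sub_eq_zero]
    have := congrArg (fun X : Submodule F V => finrank F X) this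
    simp only [TF.finrank_P1 _ (show v ≠ 0 by rintro rfl; simp at hv), TF.finrank_P, μ.h3,
      μ.h4] at this
    omega
  · exact ⟨y, h1, by rw [e, μ.σ.γ.eq_one_of_conj μ.h3 h1 hv h2 e, dv]⟩

theorem zs : ZS M (HG T) {d | ∃ v, q v ≠ 0 ∧ d = dv T q v} := by
  have k : ∀ v, q v ≠ 0 → ∀ g ∈ M, g * dv T q v * g⁻¹ ∈ HG T → g ∈ HG T := fun v hv g hg e =>
    let ⟨_, h1, h2⟩ := μ.exists_dv hv hg e
    μ.loc3 hv h1 hg h2
  refine ⟨?_, ?_, ?_, ?_⟩
  · rintro _ ⟨v, hv, rfl⟩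
    exact μ.σ.γ.orderOf_dv hv
  · rintro _ ⟨v, hv, rfl⟩
    exact ⟨μ.dm v hv, sub_kr _ _ _⟩
  · rintro _ ⟨v, hv, rfl⟩ g hg e
    exact ⟨k v hv g hg e, μ.exists_dv hv hg e⟩
  rintro _ ⟨v, hv, rfl⟩ _ ⟨x, hx, rfl⟩ h1 h2 g hg
  rw [dv_mul rfl, dv_mul rfl] at h2
  obtain e | ⟨y, hy, e⟩ := μ.σ.γ.nr_of_comm μ.h3 hv hx (Subtype.ext (kr_inj h2))
  · exact (h1 (by rw [dv, dv, e])).elim
  exact (dv_mul e : _ = dv T q y).symm ▸ k y hy g hg

theorem le_HG : M ≤ HG T := by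
  by_contra hn
  have := finite_equiv (F := F) (V := V)
  have γ := μ.σ.γ
  obtain ⟨ν, hν⟩ := FiniteField.exists_nonsquare (F := F) fun e => γ.two (by
    simpa [e] using ringChar.Nat.cast_ringChar (R := F))
  obtain ⟨v, hv⟩ := exists_Q_eq γ.nd (μ.h3 ▸ by decide) 1
  obtain ⟨x, hx⟩ := exists_Q_eq γ.nd (μ.h3 ▸ by decide) ν
  have h0 : q v ≠ 0 := by simp [hv]
  obtain ⟨k, hk, h1, ⟨n, h2⟩, e⟩ := μ.zs.exists_conj hn ⟨v, h0, rfl⟩
    ⟨x, hx ▸ fun e => hν (e ▸ IsSquare.zero), rfl⟩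
  obtain ⟨a, b, rfl⟩ := mem_HG.1 h1
  obtain ⟨l, -, h3, -⟩ := μ.σ.sim (μ.σ.le hk)
  obtain ⟨c, hc⟩ := scalar_of_kr (kr_pow (T := T) a b _ ▸ pow_orderOf_eq_one (T.kr a b) ▸
    one_mem (CG T))
  have h4 : ∀ m : ℕ, polar q v v = l ^ m * polar q ((a ^ m) v) ((a ^ m) v) := fun m => by
    induction m with
    | zero => simp
    | succ m ih => rw [ih, h3, pow_succ' a, pow_succ, mul_assoc]; rfl
  obtain ⟨u, hu⟩ := exists_ne (0 : W)
  obtain ⟨d, hd⟩ := Submodule.mem_span_singleton.1 (mem_of_nr γ.two (v := x) (x := a v)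
    (T.t_inj' (u := b u) (by simpa) (by
      simpa [dv_t, nr_self h0] using (LinearEquiv.congr_fun (mul_inv_eq_iff_eq_mul.1 e) (T.t v u)).symm)))
  have h5 := h4 (orderOf (T.kr a b))
  have h6 := h3 v v
  rw [hc, h2] at h5
  rw [← hd] at h6
  simp only [Q_smul, polar_self', hv, hx] at h5 h6
  refine hν ⟨ν * d * l ^ (n + 1) * c, mul_left_cancel₀ (pow_ne_zero 2 γ.two) ?_⟩
  linear_combination (2 * ν) * h5 + (ν * l ^ (2 * n + 1) * (c * c * 2)) * h6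

end Mx

/-- The involutions of the first factor lie in `Ω(V)`. -/
theorem Sl.dv_mem_omega (σ : Sl q Q (O Q) T) (h3 : finrank F U = 3) (nd : ND q')
    (h4 : Even (finrank F W))
    (pol : ∀ v u v' u', polar Q (T.t v u) (T.t v' u') = polar q v v' * polar q' u u') (hv : q v ≠ 0) :
    dv T q v ∈ (commutator (O Q)).map (O Q).subtype := by
  have h2 := σ.γ.two
  obtain ⟨b, b0, b1⟩ := exists_orth_basis nd h2
  have k0 : ∀ x u, Q (T.t x u) = 2 * q x * q' u := fun x u => mul_left_cancel₀ h2 (by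
    rw [← polar_self', pol, polar_self', polar_self']; ring)
  have k : ∀ x, q x ≠ 0 → ∃ g : O Q, g.1 = T.kr (refl q x).1 1 ∧ dickson σ.nd g = 1 ∧
      spinor σ.nd g = sqsign (∏ i, q' (b i)) := fun x hx => by
    have k1 : ∀ i, Q (T.t x (b i)) ≠ 0 := fun i => by simp [k0, h2, hx, b0]
    have k2 : ∀ y ∈ Finset.univ.toList.map fun i => T.t x (b i), Q y ≠ 0 := by simpa using k1
    refine ⟨_, T.eq_of_t fun y u => ?_, (dickson_list σ.nd k2).trans (by simpa using h4.neg_one_pow),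
      (spinor_list σ.nd k2).trans ?_⟩
    · have e1 : ∀ z u, polar q x z = 0 → (((Finset.univ.toList.map fun i => T.t x (b i)).map
          (refl Q)).prod).1 (T.t z u) = T.t z u := fun z u hz => Subgroup.list_prod_mem
            ((Fx (· = T.t z u)).comap (O Q).subtype) (by
              simp +contextual [Fx, Subgroup.mem_subgroupOf, refl_apply, pol, hz]) _ rfl
      have e2 := b.ext (f₁ := (((Finset.univ.toList.map fun i => T.t x (b i)).map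
          (refl Q)).prod).1.toLinearMap ∘ₗ T.t x) (f₂ := -T.t x) fun i => by
        simpa using prod_refl_apply k1 (fun i j h => by simp [pol, b1 i j h])
          (Finset.nodup_toList .univ) i
      have e3 := e1 (y - ((2 * q x)⁻¹ * polar q x y) • x) u (by
        simp [polar_sub_right, polar_self', h2, hx]; field_simp; ring)
      replace e2 := LinearMap.congr_fun e2 u
      simp only [map_sub, map_smul, LinearMap.sub_apply, LinearMap.smul_apply, LinearMap.comp_apply,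
        LinearEquiv.coe_coe, LinearMap.neg_apply] at e2 e3
      rw [e2, sub_eq_iff_eq_add] at e3
      rw [e3, TF.kr_t, refl_apply]
      simp only [map_sub, map_smul, LinearMap.sub_apply, LinearMap.smul_apply, LinearEquiv.coe_one, id]
      match_scalars <;> field_simp
      ring
    obtain ⟨n, hn⟩ := h4
    rw [List.map_map, Finset.prod_map_toList, 
      ← sqsign_sq_mul (r := (2 * q x) ^ n) (by simp [h2, hx]) (∏ i, q' (b i))]
    simp [k0, Finset.prod_mul_distrib, hn, ← pow_mul, mul_two, mul_pow]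
  obtain ⟨x, hx, x1⟩ := σ.γ.exists_perp hv 1
  obtain ⟨y, y1, -, -, e⟩ := σ.γ.third h3 hv (by simp [x1]) hx
  obtain ⟨g, e1, g1, g2⟩ := k y y1
  obtain ⟨g', e2, g3, g4⟩ := k x (by simp [x1])
  refine ⟨g * g', (mem_commutator_iff σ.nd (not_exc_of_two_ne_zero h2) _).2
    ⟨by simp [g1, g3], by simp [g2, g4]⟩, ?_⟩
  rw [Subgroup.subtype_apply, Subgroup.coe_mul, e1, e2, ← kr_mul', ← Subgroup.coe_mul, ← nr_mul, ← e,
    mul_assoc, nr_mul_self, mul_one, dv]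

open Cfsg.Geo Cfsg.Lib.Asch in
theorem isMaximalIn_mix {F : Type*} [Field F] [Fintype F] {κ : Type} [Fintype κ] [DecidableEq κ]
    {Q : QuadraticForm F (κ → F)} (hQ : ND Q) (h2 : (2 : F) ≠ 0) (hF : Fintype.card F ≠ 3)
    {f₁ : (Fin 3 → F) → (Fin 3 → F) → F} {f₂ : (Fin 4 → F) → (Fin 4 → F) → F}
    (h₁ : IsSymmetricForm f₁) (h₂ : IsSymmetricForm f₂) (hW : ¬ IsPlusTypeOn (fun v => f₂ v v) ⊤)
    {e : κ ≃ Fin 3 × Fin 4} {P : GL κ F} (hT : IsTensorFormStructure id (polar Q) f₁ f₂ e P) :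
    IsMaximalIn (omegaGL Q) (tensorProductSubgroup 3 4 e P ⊓ omegaGL Q) := by
  have : Nonempty κ := ⟨e.symm 0⟩
  refine Linear.isMaximalIn_inf ((amb_omega hQ (by simp [Fintype.card_congr e])).not_tens
    (by omega) (by omega) e P) fun M hM hM' g hg hg' => ?_
  obtain ⟨c, hc, S, -, h0⟩ := exists_tstr (ef_polar hQ) (fun u v => polar_comm Q u v)
    (sform_of_symmetric h₁) (sform_of_symmetric h₂) (Or.inl rfl)
    (fun c _ s => ⟨c * f₁ s s / 2, by simp only [RingHom.id_apply]; field_simp; ring⟩)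
    (fun s => ⟨f₂ s s / 2, by simp only [RingHom.id_apply]; field_simp; ring⟩) hT
  obtain ⟨q, n1, e1⟩ := exists_quad h2 h₁ hc
  obtain ⟨q', n2, e2⟩ := exists_quad h2 h₂ one_ne_zero
  have γ := ou_of n1 h2 (by simp) hF
  have γ' : OU q' := ⟨n2, h2, by simp, .inr ⟨fun u v hu0 hu hv huv => by_contra fun h => by
    have k : ∀ x y, bil (sform_of_symmetric h₂) 1 x y = polar q' x y := fun x y => by rw [← e2]; rfl
    refine hW ⟨Submodule.span F {u, v}, le_top, fun x hx => ?_, ?_⟩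
    · simpa using S.pair_le_perp (by rw [k, polar_sing hu]) (by rw [k, polar_sing hv])
        (by rwa [k]) hx x hx
    · rw [Unitary.finrank_span_pair_of_linearIndependent ((LinearIndependent.pair_iff' hu0).2
        fun a ha => h (Submodule.mem_span_singleton.2 ⟨a, ha⟩))]
      simp, γ.exists_t (by simp)⟩⟩
  let T : TF F (Fin 3 → F) (Fin 4 → F) (κ → F) := ⟨S.φ⟩
  have pol : ∀ v u v' u', polar Q (T.t v u) (T.t v' u') = polar q v v' * polar q' u u' :=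
    fun v u v' u' => (S.tt' v u v' u').trans (by rw [← e1, ← e2]; rfl)
  have h1 : ∀ g, g ∈ tensorProductSubgroup 3 4 e P ↔ Unitary.glEquiv _ F g ∈ HG T := fun g =>
    (h0 g).trans ((mem_HG (T := T)).trans (exists₂_congr fun _ _ => eq_comm)).symm
  have h5 : ∀ g ∈ HG T, g ∈ (commutator (O Q)).map (O Q).subtype →
      g ∈ M.map (Unitary.glEquiv _ F).toMonoidHom := fun g h h' => by
    obtain ⟨g, rfl⟩ := (Unitary.glEquiv _ F).surjective g
    exact ⟨g, hM ⟨(h1 g).2 h, (glEquiv_mem_omega g).1 h'⟩, rfl⟩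
  have le : M.map (Unitary.glEquiv _ F).toMonoidHom ≤ O Q := by
    rintro _ ⟨g, hg, rfl⟩
    exact Subgroup.map_subtype_le _ ((glEquiv_mem_omega g).2 (hM' hg))
  have σ := γ.sl_top (T := T) hQ ⟨polarBilin q', pol⟩
  have σ' := γ'.sl_top (T := sw T) hQ ⟨polarBilin q, fun _ _ _ _ => (pol ..).trans (mul_comm ..)⟩
  have τ : Sl q Q _ T := ⟨γ, hQ, σ.cp, le, by
    rintro _ ⟨b, hb, rfl⟩; exact h5 _ (sub_kr _ _ _) (σ.kr_mem_omega hb)⟩
  have τ' : Sl q' Q _ (sw T) := ⟨γ', hQ, σ'.cp, le, by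
    rintro _ ⟨b, hb, rfl⟩; exact h5 _ (mem_HG_sw.1 (sub_kr _ _ _)) (σ'.kr_mem_omega hb)⟩
  refine (gd_or τ τ' (by simp)).elim (fun h => (hg' ((h1 g).2 (Mx.le_HG ⟨τ, τ', by simp, by simp, pol,
    h, fun v hv => h5 _ (sub_kr _ _ _) (σ.dv_mem_omega (by simp) n2 (by simp; decide) pol hv)⟩
      ⟨g, hg, rfl⟩))).elim) fun h g hg => ?_
  obtain ⟨g', h6, h7⟩ := h ((glEquiv_mem_omega g).2 hg)
  rwa [← (Unitary.glEquiv _ F).injective h7]

end Cfsg.Lib.TO
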