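import Cfsg.Agent.Lib.TO.Rad

/-!
# Orthogonal tensor powers: if some slot is not good then the group contains `Ω(V)`
-/

set_option autoImplicit false
set_option linter.unusedSectionVars false

namespace Cfsg.Lib.TO

open Module QuadraticMap Cfsg.Lib.TW Cfsg.Lib.TMax Function
open Cfsg.Lib.Orth
open Cfsg.Lib.Unitary (UG)
open scoped commutatorElement

variable {F U W V : Type*} [Field F] [AddCommGroup U] [Module F U] [AddCommGroup W] [Module F W]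
  [AddCommGroup V] [Module F V] {q : QuadraticForm F U} {Q : QuadraticForm F V} {T : TF F U W V}
  {M : Subgroup (V ≃ₗ[F] V)} {ι : Type*} [DecidableEq ι] [Fintype ι] {Φ : Fam ι F U W V}
  {i j : ι} {g : V ≃ₗ[F] V}

/-- `g` permutes the slots. -/
def Pm (Φ : Fam ι F U W V) (s : Equiv.Perm ι) (g : V ≃ₗ[F] V) : Prop :=
  ∀ i a, g.toLinearMap * (Φ.T i).e a * (g⁻¹).toLinearMap = (Φ.T (s i)).e a

theorem pi_ind {p : (ι → End F U) → Prop} (h1 : p 1)
    (h : ∀ a i, p (update a i 1) → p a) (a) : p a := by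
  suffices ∀ K : Finset ι, ∀ a, (∀ i ∉ K, a i = 1) → p a from this Finset.univ a (by simp)
  intro K
  induction K using Finset.induction_on with
  | empty => exact fun a ha => (funext fun i => ha i (by simp) : a = 1) ▸ h1
  | insert i K _ ih =>
    refine fun a ha => h a i (ih _ fun l hl => ?_)
    rcases eq_or_ne l i with rfl | e
    · simp
    · rw [update_of_ne e, ha l (by simp [e, hl])]

theorem pi_ne_zero [Nontrivial V] (a : ι → End F U) : (∀ i, a i ≠ 0) → Φ.π a ≠ 0 := by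
  refine pi_ind (p := fun a => (∀ i, a i ≠ 0) → Φ.π a ≠ 0) (by simp) (fun a i ih h e => ?_) a
  refine ih (fun l => ?_) ((Φ.cm_update a i).eq_zero (h i) (Φ.eq_mul a i ▸ e))
  rcases eq_or_ne l i with rfl | e
  · exact fun e => h l (by rw [← mul_one (a l), show (1 : End F U) = 0 by simpa using e, mul_zero])
  · simpa [e] using h l

theorem pi_ad {B : V →ₗ[F] V →ₗ[F] F} (cp : ∀ i, Cp (polarBilin q) B (Φ.T i)) (a : ι → End F U) :
    (∀ i, Ad (polarBilin q) (a i) (a i)) → Ad B (Φ.π a) (Φ.π a) := by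
  refine pi_ind (p := fun a => (∀ i, Ad _ (a i) (a i)) → Ad B (Φ.π a) (Φ.π a))
    (fun _ => by simpa using Ad.one) (fun a i ih h => ?_) a
  have := (Ad.e (cp i) (h i)).mul (ih fun l => by
    rcases eq_or_ne l i with rfl | e
    · simpa using Ad.one
    · simpa [e] using h l)
  rwa [Φ.cm_update, ← Φ.eq_mul] at this

theorem mem_of_coef [FiniteDimensional F U] (R : Subalgebra F (End F V)) (h : ∀ a, T.e a ∈ R)
    {Y : End F V} (h' : ∀ ψ w, T.coef ψ w Y ∈ R) : Y ∈ R := by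
  simpa using end_ind (p := fun a => T.e a * Y * T.e 1 ∈ R) (by simp) (fun w ψ =>
    end_ind (p := fun b => T.e _ * Y * T.e b ∈ R) (by simp) (fun x χ => by
      rw [T.e_mul_e]; exact mul_mem (h _) (h' _ _))
      (fun _ _ h h' => by simpa [mul_add] using add_mem h h') 1)
    (fun _ _ h h' => by simpa [add_mul] using add_mem h h') 1

theorem mem_of_slots [FiniteDimensional F U] [Nontrivial U] (R : Subalgebra F (End F V))
    (K : Finset ι) : (∀ l ∈ K, ∀ a, (Φ.T l).e a ∈ R) → ∀ Y, (∀ l ∉ K, Cm (Φ.T l) Y) → Y ∈ R := by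
  induction K using Finset.induction_on with
  | empty =>
    intro _ Y hY
    obtain ⟨c, rfl⟩ := Φ.cen Y fun l => hY l (by simp)
    exact R.smul_mem (one_mem _) c
  | insert i K hi ih =>
    refine fun h Y hY => mem_of_coef R (h i (by simp)) fun ψ w =>
      ih (fun l hl => h l (by simp [hl])) _ fun l hl => ?_
    rcases eq_or_ne l i with rfl | e
    · exact TF.cm_coef _ _ _ _
    · exact fun a => (Φ.cm_e e.symm a).coef_comm (hY l (by simp [e, hl]) a) ψ w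

theorem pow_le_alg (R : Subalgebra F (End F V)) (n : ℕ) :
    Subalgebra.toSubmodule R ^ n ≤ Subalgebra.toSubmodule R := fun _ hx =>
  Submodule.pow_induction_on_left' _ (C := fun _ x _ => x ∈ R) (algebraMap_mem R)
    (fun _ _ _ _ _ => add_mem) (fun _ hm _ _ _ => mul_mem hm) hx

/-- Mixed coefficients. -/
def Gam (T T' : TF F U W V) (q : QuadraticForm F U) (M : Subgroup (V ≃ₗ[F] V)) :
    Submodule F (End F V) where
  carrier := {η | Cm T η ∧ Cm T' η ∧ ∀ a ∈ TP q, T'.e a * η ∈ ZZ T q M}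
  zero_mem' := ⟨cm_zero, cm_zero, by simp⟩
  add_mem' := fun h h' => ⟨h.1.add h'.1, h.2.1.add h'.2.1, fun a ha => by
    rw [mul_add]; exact add_mem (h.2.2 a ha) (h'.2.2 a ha)⟩
  smul_mem' := fun c _ h => ⟨h.1.smul c, h.2.1.smul c, fun a ha => by
    rw [mul_smul_comm]; exact Submodule.smul_mem _ c (h.2.2 a ha)⟩

variable [Finite F] [FiniteDimensional F U] [FiniteDimensional F V]

/-- Multiplication by a second factor. -/
theorem Sl.e_mem_RR {U' W' : Type*} [AddCommGroup U'] [Module F U'] [AddCommGroup W'] [Module F W']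
    [FiniteDimensional F U'] {q' : QuadraticForm F U'} {T' : TF F U' W' V} (σ : Sl q Q M T)
    (γ : OU q') {Γ : Submodule F (End F V)} (h1 : ∀ η ∈ Γ, Cm T' η)
    (h2 : ∀ a ∈ TP q', ∀ η ∈ Γ, T'.e a * η ∈ ZZ T q M) (h3 : 1 ∈ Γ ^ 4) (a : End F U') :
    T'.e a ∈ RR T q M := by
  refine pow_le_alg (RR T q M) 4 (e_mem_pow γ.tn_pow (Γ := Γ * Γ) (fun β hβ => Submodule.mul_induction_on hβ
    (fun x hx y hy => (h1 x hx).mul (h1 y hy)) fun _ _ => Cm.add) ?_ (by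
      rw [← pow_two, ← pow_mul, show 2 * 4 = 4 + 4 from rfl, pow_add]
      simpa using Submodule.mul_mem_mul h3 h3) a)
  rintro _ ⟨w, hw, rfl⟩ β hβ
  refine Submodule.mul_induction_on hβ (fun x hx y hy => ?_) fun _ _ h h' => by
    rw [mul_add]; exact add_mem h h'
  rcases eq_or_ne w 0 with rfl | h0
  · simp [rk]
  obtain ⟨s, hs, h4⟩ := γ.exists_aniso h0 hw
  have k : ∀ x ∈ Γ, ∀ y ∈ Γ, T'.e (sk q' w s) * x * (T'.e (sk q' w s) * y) * (T'.e (sk q' w s) * x) = 0 :=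
    fun x hx y hy => by
      rw [(h1 x hx).e_mul, ((h1 x hx).mul (h1 y hy)).e_mul, sk_mul hw hs hs, smul_mul_assoc,
        r_mul_sk hw hs]
      simp
  have := σ.mul_mem_RR (h2 _ ⟨w, s, hw, hs, rfl⟩ x hx) (h2 _ ⟨w, s, hw, hs, rfl⟩ y hy)
    (k x hx y hy) (k y hy x hx)
  rw [(h1 x hx).e_mul, sk_mul hw hs hs, map_smul, smul_mul_assoc] at this
  exact smul_mem_cancel (by simp [polar_self', γ.two, h4]) this

/-- Hypotheses on a tensor power. -/
structure Fm (q : QuadraticForm F U) (Q : QuadraticForm F V) (M : Subgroup (V ≃ₗ[F] V))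
    (Φ : Fam ι F U W V) : Prop where
  γ : OU q
  h4 : finrank F U ≠ 4
  nd : ND Q
  cp : ∀ i, Cp (polarBilin q) (polarBilin Q) (Φ.T i)
  le : M ≤ O Q
  su : ∀ i, ∀ b ∈ Nq q, (Φ.T i).kr b 1 ∈ M
  pm : ∀ s s' : Equiv.Perm ι, ∃ g ∈ M, Pm Φ ⁅s, s'⁆ g

namespace Fm

variable (μ : Fm q Q M Φ)
include μ

theorem sl (i : ι) : Sl q Q M (Φ.T i) := ⟨μ.γ, μ.nd, μ.cp i, μ.le, μ.su i⟩

theorem cl {S} (h : Iv (Φ.T j) M S) (e : i ≠ j) : Cl (Φ.T i) (Nq q) S := fun b hb β hβ => by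
  simpa only [TF.kr_inv, inv_one, TF.kr_coe] using
    h _ (μ.su i b hb) ((Φ.T i).kr_coe b ▸ Φ.cm_e e.symm _) β hβ

theorem inv {S : Submodule F (End F V)} (h : Iv (Φ.T j) M S.toAddSubgroup)
    (h' : ∀ β ∈ S, Cm (Φ.T j) β) : Φ.Inv (Nq q) (Finset.univ.erase j) S :=
  ⟨fun _ hi => μ.cl h (Finset.ne_of_mem_erase hi), fun i hi => by
    obtain rfl : i = j := by simpa using hi
    exact h'⟩

variable [Nontrivial V]

theorem gd_of (hZ : ∀ w, w ≠ 0 → q w = 0 → ∀ ζ, Cm (Φ.T j) ζ →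
    Un M ((Φ.T j).e (r q w w) * ζ) → ζ = 0) : Gd q M (Φ.T j) := by
  have := μ.γ.nontrivial
  refine (μ.sl j).gd_of (fun S hS β hβ h => ?_) (fun S hS h1 h2 β hβ => Φ.cen β fun i a => ?_) hZ
  · obtain ⟨a, δ, h0, h1, h2, -, h3, h4⟩ := μ.γ.exm μ.h4 (Finset.univ.erase j) S
      (fun l hl => μ.cl hS (Finset.ne_of_mem_erase hl)) β hβ fun e => h ⟨0, by simp [e]⟩
    obtain ⟨d, rfl⟩ := exists_e (j := j) fun l hl => h2 l (by simpa)
    have h5 : Cm (Φ.T j) (Φ.π a) := Φ.cm ((h1 j).resolve_right (by simp))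
    refine ⟨d, _, fun e => h0 (by simp [e]), h5, fun ⟨c, hc⟩ => h ⟨d, (h4 fun l => ?_).symm⟩, h5 d ▸ h3⟩
    refine (h1 l).resolve_right fun ⟨_, h6⟩ => pi_ne_zero (Φ := Φ) a (fun l => ?_) ?_
    · rcases h1 l with e | ⟨-, e | e⟩
      exacts [by simp [e], OU.NT.ne μ.γ e, OU.PT.ne μ.γ e]
    obtain ⟨w, e0, hw, e⟩ : ∃ w, w ≠ 0 ∧ q w = 0 ∧ r q w w * a l = 0 := by
      rcases h6 with ⟨w, e0, hw, e⟩ | ⟨w, s, e0, hw, hs, -, e⟩
      exacts [⟨w, e0, hw, e ▸ r_mul_self hw⟩, ⟨w, e0, hw, e ▸ r_mul_sk hw hs⟩]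
    exact (hc ▸ cm_one.smul c : Cm (Φ.T l) (Φ.π a)).eq_zero (μ.γ.r_ne e0 e0) (by
      rw [Φ.eq_mul a l, ← mul_assoc, ← map_mul, e, map_zero, zero_mul])
  by_contra h
  exact h (Submodule.pow_induction_on_right S (C := fun X => β * X = X * β)
    (fun r => (Algebra.commutes r β).symm) (fun x y h h' => by rw [mul_add, add_mul, h, h'])
    (fun x h m hm => by rw [← mul_assoc, h, mul_assoc, mul_assoc, h2 m hm β hβ])
    (μ.γ.e_mem_pow μ.h4 (μ.inv hS h1) hβ (fun e => h (e a)) a))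

theorem exists_gam (h : ¬ Gd q M (Φ.T j)) : ∃ i ≠ j, Gam (Φ.T j) (Φ.T i) q M ≠ ⊥ := by
  have := mt μ.gd_of h
  push Not at this
  obtain ⟨w, h0, hw, ζ, h1, h2, h3⟩ := this
  obtain ⟨a, δ, k0, k1, k2, k3, k4, -⟩ := μ.γ.exm μ.h4 (Finset.univ.erase j)
    (coeffs M (Φ.T j) (r_mul_self hw)) (fun l hl => μ.cl (iv_coeffs _) (Finset.ne_of_mem_erase hl))
    ζ ⟨h1, h2⟩ h3
  obtain ⟨c, rfl⟩ := Φ.cen δ fun l => by
    rcases eq_or_ne l j with rfl | e
    · exact fun x => k3 _ (fun k hk => Φ.cm_e (Finset.ne_of_mem_erase hk) x) (h1 x)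
    · exact k2 l (by simpa)
  have k5 : Φ.π a * c • 1 ≠ 0 := by
    simpa using ⟨fun e => k0 (by simp [e]), pi_ne_zero (Φ := Φ) a fun l => by
      rcases k1 l with e | ⟨-, e | e⟩
      exacts [by have := μ.γ.nontrivial; simp [e], OU.NT.ne μ.γ e, OU.PT.ne μ.γ e]⟩
  obtain ⟨i, hi, k6⟩ : ∃ i ≠ j, PT q (a i) := by
    by_contra! k
    have := ((pi_ad μ.cp a fun l => by
      rcases k1 l with e | ⟨e', ⟨x, -, -, e⟩ | e⟩
      exacts [e ▸ Ad.one, e ▸ ad_r x x, (k l (Finset.ne_of_mem_erase e') e).elim]).mul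
        (Ad.one.smul c)).unique (μ.sl j).hB ((μ.sl j).skew h0 hw k4.1 k4.2)
    exact k5 ((smul_eq_zero_iff_right μ.γ.two).1 (by
      rw [two_smul]; exact eq_neg_iff_add_eq_zero.1 (by simpa using this)))
  rw [Φ.eq_mul a i, mul_assoc] at k4 k5
  have k7 := (Φ.cm_update a i).mul (cm_one.smul c)
  have k8 := fun x y => μ.γ.spreadP (μ.cl (iv_coeffs _) hi) k6 k7 k4 (w := x) (s := y)
  refine ⟨i, hi, fun e => k5 (mul_eq_zero_of_right _ (e.le (show _ ∈ Gam _ _ q M from ⟨(Φ.cm (by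
    rw [update_of_ne hi.symm]; exact (k1 j).resolve_right (by simp))).mul (cm_one.smul c), k7, ?_⟩)))⟩
  rintro _ ⟨x, y, hx, hy, rfl⟩
  exact (μ.sl j).mem_ZZ h0 hw (k8 x y hx hy).1 fun d => by
    simpa [sk_smul_right, smul_comm c d] using (k8 x (d • y) hx (by simp [hy])).2

omit [Nontrivial V] in
theorem e_mem_RR (hi : i ≠ j) (h : Gam (Φ.T j) (Φ.T i) q M ≠ ⊥) (a) :
    (Φ.T i).e a ∈ RR (Φ.T j) q M := by
  refine (μ.sl j).e_mem_RR μ.γ (Γ := Gam (Φ.T j) (Φ.T i) q M) (fun _ h => h.2.1)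
    (fun a ha _ h => h.2.2 a ha)
    (μ.γ.one_mem_pow μ.h4 (Φ := Φ) ((Finset.univ.erase j).erase i) _ ⟨fun l hl b hb η hη => ?_,
      fun l hl η hη => ?_⟩ h) a
  · have e1 := (Finset.ne_of_mem_erase hl).symm
    have e2 := Finset.ne_of_mem_erase (Finset.mem_of_mem_erase hl)
    refine ⟨((Φ.cm_e e2.symm _).mul hη.1).mul (Φ.cm_e e2.symm _),
      ((Φ.cm_e e1 _).mul hη.2.1).mul (Φ.cm_e e1 _), fun a ha => ?_⟩
    have := μ.cl iv_ZZ e2 b hb _ (hη.2.2 a ha)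
    rwa [← mul_assoc, Φ.cm_e e1, mul_assoc, mul_assoc, ← mul_assoc _ η] at this
  · by_cases e : l = i
    · exact e ▸ hη.2.1
    · exact (by simpa [e] using hl : l = j) ▸ hη.1

omit [Nontrivial V] in
theorem symm (hi : i ≠ j) (h : 1 ∈ Gam (Φ.T j) (Φ.T i) q M) : 1 ∈ Gam (Φ.T i) (Φ.T j) q M := by
  have h1 : ∀ w, q w = 0 → (Φ.T j).e (r q w w) ∈ YY (Φ.T i) q M := fun w hw =>
    ⟨Φ.cm_e hi _, fun x y h0 hx hy => by
      obtain ⟨g, hg, e⟩ := (h.2.2 _ ⟨x, y, hx, hy, rfl⟩).2 w hw 1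
      refine ⟨g, hg, fun z hz => (e z).trans ?_⟩
      simp [sk_eq, e_r y x, hz, (Φ.cm_e hi _).apply]⟩
  refine ⟨cm_one, cm_one, ?_⟩
  rintro _ ⟨x, y, -, -, rfl⟩
  refine mul_one ((Φ.T j).e _) ▸ μ.γ.ind₂ ((rL q - (rL q).flip).compr₂ (Φ.T j).e.toLinearMap)
    (ZZ (Φ.T i) q M).toAddSubgroup (fun x y hx hy h0 => ?_) x y
  have := (μ.sl i).comm_mem_ZZ (h1 y hy) (h1 x hx) ((μ.sl j).ad_e (ad_r y y))
    ((μ.sl j).ad_e (ad_r x x))
  rw [← map_mul, ← map_mul, r_mul, r_mul, polar_comm q y x, ← map_sub, ← smul_sub, map_smul] at this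
  exact (Submodule.smul_mem_iff _ h0).1 this

omit [Nontrivial V] in
theorem one_mem_of_RR (h : ∀ a, (Φ.T i).e a ∈ RR (Φ.T j) q M) :
    1 ∈ Gam (Φ.T j) (Φ.T i) q M := ⟨cm_one, cm_one, by
  rintro _ ⟨x, y, -, -, rfl⟩
  simpa [sk_eq] using (μ.sl j).comm_mem_ZZ (μ.sl j).one_mem_YY ((μ.sl j).RR_le (h (r q x y))) Ad.one
    ((μ.sl i).ad_e (ad_r x y))⟩

omit μ [Nontrivial V] in
theorem _root_.Cfsg.Lib.TO.Pm.gam {s} (e : Pm Φ s g) (hg : g ∈ M) (hi : i ≠ j)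
    (h : 1 ∈ Gam (Φ.T j) (Φ.T i) q M) : 1 ∈ Gam (Φ.T (s j)) (Φ.T (s i)) q M :=
  ⟨cm_one, cm_one, fun a ha => ⟨(Φ.cm_e (s.injective.ne hi.symm) _).mul cm_one, fun w hw c => by
    convert ((h.2.2 a ha).2 w hw c).conj hg using 1
    rw [← e, ← e]
    exact LinearMap.ext fun v => by simp⟩⟩

omit [Nontrivial V] in
theorem gam_all (hij : i ≠ j) (h : 1 ∈ Gam (Φ.T j) (Φ.T i) q M) {a b : ι} (hab : a ≠ b) :
    1 ∈ Gam (Φ.T a) (Φ.T b) q M := by
  have h2 : ∀ {a b}, a ≠ b → 1 ∈ Gam (Φ.T a) (Φ.T b) q M → ∀ c, a ≠ c →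
      1 ∈ Gam (Φ.T a) (Φ.T c) q M := fun {a b} hab h c hac => by
    rcases eq_or_ne b c with rfl | hbc
    · exact h
    obtain ⟨g, hg, e⟩ := μ.pm (Equiv.swap a c) (Equiv.swap a b)
    refine μ.symm hac ?_
    simpa [commutatorElement_def, Equiv.swap_apply_def, hab, hac, hbc, hab.symm, hac.symm, hbc.symm]
      using e.gam hg hab.symm h
  rcases eq_or_ne j a with rfl | h3
  · exact h2 hij.symm h b hab
  · exact h2 h3.symm (μ.symm h3.symm (h2 hij.symm h a h3)) b hab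

/-- If some slot is not good then `M` contains `Ω(V)`. -/
theorem omega_le [FiniteDimensional F W] (h3 : 3 ≤ finrank F W) (h : ¬ Gd q M (Φ.T j)) :
    (commutator (O Q)).map (O Q).subtype ≤ M := by
  have := μ.γ.nontrivial
  obtain ⟨i, hi, h1⟩ := μ.exists_gam h
  exact (μ.sl j).omega_le h3 fun η hη => (μ.sl j).RR_le (mem_of_slots _ (Finset.univ.erase j)
    (fun l hl => μ.e_mem_RR (Finset.ne_of_mem_erase hl) fun e => one_ne_zero (e.le (μ.gam_all hi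
      (μ.one_mem_of_RR (μ.e_mem_RR hi h1)) (Finset.ne_of_mem_erase hl).symm))) η fun l hl =>
        (by simpa using hl : l = j) ▸ hη)

end Fm

end Cfsg.Lib.TO
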