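import Cfsg.Agent.Lib.TO.Slot

/-!
# Orthogonal tensor factors: a slot which is not good
-/

set_option autoImplicit false
set_option linter.unusedSectionVars false

namespace Cfsg.Lib.TO

open Module QuadraticMap Cfsg.Lib.TW Cfsg.Lib.TMax Function
open Cfsg.Lib.Orth
open Cfsg.Lib.Unitary (UG)
open scoped commutatorElement

variable {F U W V : Type*} [Field F] [AddCommGroup U] [Module F U] [AddCommGroup W] [Module F W]
  [AddCommGroup V] [Module F V] {q : QuadraticForm F U} {Q : QuadraticForm F V} {T : TF F U W V}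
  {M : Subgroup (V ≃ₗ[F] V)} {w f s s' : U} {g k : V ≃ₗ[F] V} {η θ ζ : End F V}

/-- Pure coefficients of the radical. -/
def YY (T : TF F U W V) (q : QuadraticForm F U) (M : Subgroup (V ≃ₗ[F] V)) :
    Submodule F (End F V) where
  carrier := {η | Cm T η ∧ ∀ w s, w ≠ 0 → q w = 0 → polar q w s = 0 → ∃ g ∈ M, Ty T q w s η g}
  zero_mem' := ⟨cm_zero, fun _ _ _ _ _ => ⟨1, one_mem _, fun _ _ => by simp⟩⟩
  add_mem' := fun h h' => ⟨h.1.add h'.1, fun w s h0 hw hs =>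
    let ⟨_, h1, h2⟩ := h.2 w s h0 hw hs
    let ⟨_, h3, h4⟩ := h'.2 w s h0 hw hs
    ⟨_, mul_mem h1 h3, fun x hx => by simp [h2.mul h4 (h2.rd h.1 hw hs) x hx, add_assoc]⟩⟩
  smul_mem' := fun c _ h => ⟨h.1.smul c, fun w s h0 hw hs =>
    let ⟨g, h1, h2⟩ := h.2 w (c • s) h0 hw (by simp [hs])
    ⟨g, h1, (Ty.smul c).1 h2⟩⟩

theorem nu_mul (hw : q w = 0) (h : Cm T η) (θ : End F V) :
    T.e (r q w w) * η * (T.e (r q w w) * θ) = 0 := by rw [h.e_mul, r_mul_self hw]; simp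

/-- Coefficients of the centre of the radical. -/
def ZZ (T : TF F U W V) (q : QuadraticForm F U) (M : Subgroup (V ≃ₗ[F] V)) :
    Submodule F (End F V) where
  carrier := {ζ | Cm T ζ ∧ ∀ w, q w = 0 → ∀ c : F, Un M (T.e (r q w w) * c • ζ)}
  zero_mem' := ⟨cm_zero, fun _ _ _ => by simpa using Un.zero⟩
  add_mem' := fun h h' => ⟨h.1.add h'.1, fun w hw c => by
    rw [smul_add, mul_add]; exact (h.2 w hw c).add (h'.2 w hw c) (nu_mul hw (h.1.smul c) _)⟩
  smul_mem' := fun c _ h => ⟨h.1.smul c, fun w hw d => by rw [smul_smul]; exact h.2 w hw _⟩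

/-- Multipliers. -/
def RR (T : TF F U W V) (q : QuadraticForm F U) (M : Subgroup (V ≃ₗ[F] V)) :
    Subalgebra F (End F V) where
  carrier := {ρ | Cm T ρ ∧ ∀ η ∈ YY T q M, ρ * η ∈ YY T q M}
  mul_mem' := fun h h' => ⟨h.1.mul h'.1, fun η hη => by rw [mul_assoc]; exact h.2 _ (h'.2 η hη)⟩
  add_mem' := fun h h' => ⟨h.1.add h'.1, fun η hη => by
    rw [add_mul]; exact add_mem (h.2 η hη) (h'.2 η hη)⟩
  algebraMap_mem' := fun c => ⟨cm_one.smul c, fun η hη => (YY T q M).smul_mem c hη⟩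

/-- Invariance under the elements of `M` centralising the factor. -/
def Iv (T : TF F U W V) (M : Subgroup (V ≃ₗ[F] V)) (S : AddSubgroup (End F V)) : Prop :=
  ∀ k ∈ M, Cm T k.toLinearMap → ∀ β ∈ S, k.toLinearMap * β * (k⁻¹).toLinearMap ∈ S

theorem iv_YY : Iv T M (YY T q M).toAddSubgroup := fun _ hk hc _ h =>
  ⟨(hc.mul h.1).mul hc.inv, fun w s h0 hw hs =>
    let ⟨_, h1, h2⟩ := h.2 w s h0 hw hs
    ⟨_, mul_mem (mul_mem hk h1) (inv_mem hk), h2.conj h0 hc⟩⟩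

theorem iv_coeffs {n : End F U} (hn : n * n = 0) : Iv T M (coeffs M T hn) :=
  fun _ hk hc _ h => conj_mem_coeffs h hk hc

theorem iv_ZZ : Iv T M (ZZ T q M).toAddSubgroup := fun k hk hc β h =>
  ⟨(hc.mul h.1).mul hc.inv, fun w hw c => by
    simpa using (iv_coeffs (r_mul_self hw) k hk hc (c • β) ⟨h.1.smul c, h.2 w hw c⟩).2⟩

theorem ty_smul_left {c : F} (hc : c ≠ 0) (h : Ty T q (c • w) s η g) : Ty T q w (c • s) η g :=
  fun x hx => by simpa [e_r, cw_smul] using h x (by simp [cw_smul, hx])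

theorem km_one_mul (a b : End F W) : T.km 1 a * T.km 1 b = T.km 1 (a * b) :=
  T.ext' fun _ _ => by simp

variable [Finite F] [FiniteDimensional F U]

namespace Sl

variable (σ : Sl q Q M T)
include σ

theorem one_mem_YY : 1 ∈ YY T q M :=
  ⟨cm_one, fun w s _ hw hs => ⟨_, σ.ae_mem w s, ty_ae hw hs⟩⟩

theorem RR_le (h : η ∈ RR T q M) : η ∈ YY T q M := by simpa using h.2 1 σ.one_mem_YY

theorem mem_YY (h0 : w ≠ 0) (hw : q w = 0) (hs : polar q w s = 0) (h1 : s ∉ F ∙ w) (hη : Cm T η)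
    (hg : g ∈ M) (h : Ty T q w s η g) : η ∈ YY T q M := by
  have key : ∀ s', polar q w s' = 0 → ∃ g ∈ M, Ty T q w s' η g := fun s' hs' =>
    (σ.γ.irr h0 hw
      { carrier := {s | polar q w s = 0 ∧ ∃ g ∈ M, Ty T q w s η g}
        zero_mem' := ⟨by simp, 1, one_mem _, fun _ _ => by simp [rk]⟩
        add_mem' := fun ⟨h1, _, h2, h3⟩ ⟨h4, _, h5, h6⟩ => ⟨by simp [h1, h4], _, mul_mem h2 h5,
          fun x hx => by simp [h3.mul h6 (h3.rd hη hw h1) x hx, add_assoc, e_r, cw_add]⟩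
        neg_mem' := fun {s} ⟨h1, _, h2, h3⟩ => ⟨by simp [h1], _, inv_mem h2, fun x hx => by
          rw [h3.inv (h3.rd hη hw h1) x hx, ← neg_one_smul F s]
          simp [e_r, cw_smul, sub_eq_add_neg, -neg_smul]
          simp⟩ }
      (fun c => ⟨by simp [polar_sing hw], 1, one_mem _, fun x hx => by
        simp [e_r, cw_smul, show cw T q w (η x) = 0 from hη.cw_eq h0 hx]⟩)
      (fun b hb l e s ⟨h1, _, h2, h3⟩ => by
        have h4 : l ≠ 0 := fun h => O.apply_ne_zero b h0 (by simp [e, h])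
        have h5 : polar q w (b.1 s) = 0 := by simpa [e, h4] using (O.map_polar b w s).trans h1
        exact ⟨by simp [h5], _, mul_mem (mul_mem (σ.su' hb) h2) (inv_mem (σ.su' hb)),
          ty_smul_left h4 (e ▸ h3.conj_kr hη b)⟩) ⟨hs, g, hg, h⟩ hs h1 hs').2
  refine ⟨hη, fun w' s' h0' hw' hs' => ?_⟩
  obtain ⟨b, hb, c, hc, e⟩ := σ.γ.move h0 hw h0' hw'
  obtain ⟨g, h1, h2⟩ := key ((b⁻¹).1 (c⁻¹ • s')) (by rw [← O.polar_left, e]; simp [hs'])
  have h3 := h2.conj_kr hη b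
  rw [e, O.apply_inv_apply] at h3
  exact ⟨_, mul_mem (mul_mem (σ.su' hb) h1) (inv_mem (σ.su' hb)),
    smul_inv_smul₀ hc s' ▸ ty_smul_left hc h3⟩

theorem mem_ZZ (h0 : w ≠ 0) (hw : q w = 0) (hζ : Cm T ζ)
    (h : ∀ c : F, Un M (T.e (r q w w) * c • ζ)) : ζ ∈ ZZ T q M := by
  refine ⟨hζ, fun w' hw' d => ?_⟩
  rcases eq_or_ne w' 0 with rfl | h0'
  · simpa [rk] using Un.zero
  obtain ⟨b, hb, c, hc, e⟩ := σ.γ.move h0 hw h0' hw'
  have := (h (d / (c * c))).conj_e (hζ.smul _) (σ.su' hb)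
  rw [← Subgroup.coe_inv, conj_r, e, r_smul] at this
  simpa [smul_smul, mul_div_cancel₀ _ (mul_ne_zero hc hc), div_mul_cancel₀ _ (mul_ne_zero hc hc)]
    using this

variable [FiniteDimensional F V]

theorem comm_mem_ZZ (h : η ∈ YY T q M) (h' : θ ∈ YY T q M) {η' θ' : End F V}
    (e : Ad (polarBilin Q) η η') (e' : Ad (polarBilin Q) θ θ') : θ * η' - η * θ' ∈ ZZ T q M := by
  obtain ⟨w, f, hw⟩ := σ.γ.exists_hyp
  obtain ⟨s, hs, h1⟩ := σ.γ.exists_aniso hw.ne_zero hw.left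
  refine σ.mem_ZZ hw.ne_zero hw.left ((h'.1.mul (σ.cm_ad h.1 e)).sub (h.1.mul (σ.cm_ad h'.1 e')))
    fun c => ?_
  have hs' : polar q w ((c / (2 * q s)) • s) = 0 := by simp [hs]
  obtain ⟨g, h2, h3⟩ := h.2 w s hw.ne_zero hw.left hs
  obtain ⟨k, h4, h5⟩ := h'.2 w _ hw.ne_zero hw.left hs'
  simpa [polar_self', div_mul_cancel₀ _ (mul_ne_zero σ.γ.two h1)] using
    σ.un_comm h3 h5 h2 h4 hw.left hs hs' e e' h'.1 h.1

theorem skew (h0 : w ≠ 0) (hw : q w = 0) (hζ : Cm T ζ) (h : Un M (T.e (r q w w) * ζ)) :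
    Ad (polarBilin Q) ζ (-ζ) := by
  obtain ⟨ζ', e⟩ := σ.hB.exists_adj ζ
  have h1 := ((σ.ad_e (ad_r w w)).mul e).unique σ.hB
    (un_skew (fun _ => σ.ug) h (nu_mul hw hζ _))
  have h2 := σ.cm_ad hζ e
  rwa [← eq_neg_of_add_eq_zero_left ((h2.add hζ).eq_zero (σ.γ.r_ne h0 h0) (by
    rw [mul_add, ← h2, h1, neg_add_cancel]))]

omit σ in
theorem _root_.Cfsg.Lib.TO.Ty.levi {ρ : End F V} (hw : IsHyp q w f) (h : Ty T q w f ρ g)
    (hρ : Cm T ρ) (h' : Ty T q w s η k) (hs : polar q w s = 0) (hη : Cm T η) :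
    Ty T q w s ((1 + ρ) * η) (g * k * g⁻¹) := fun x hx => by
  have h1 : cw T q w (g⁻¹ x) = 0 := apply_mem_of_stab (X := LinearMap.ker (cw T q w))
    (inv_mem (mem_stab_of_le fun y hy => by
      simp [h y hy, e_r, cw_t, hw.polar_left, LinearMap.mem_ker.1 hy])) hx
  have h2 := h _ h1
  have h3 : T.e (r q w s) (η (g⁻¹ x)) = T.e (r q w s) (η x) := by
    rw [← hη.apply, ← hη.apply]
    conv_rhs => rw [← g.apply_symm_apply x, ← LinearEquiv.coe_inv, h2, map_add, e_r w f,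
      e_r_P (T.t_mem_P1 _ _) ((polar_comm _ _ _).trans hs), add_zero]
  rw [LinearEquiv.mul_apply, LinearEquiv.mul_apply, h' _ h1, map_add, h3,
    h (T.e _ _) (by simp [e_r, cw_t, hw.polar_left]), hρ.apply, ← End.mul_apply (T.e _) (T.e _),
    ← map_mul, r_mul]
  simp [hw.polar_eq', add_mul]

theorem un_levi {ζ' : End F V} (h : ζ ∈ ZZ T q M) (h' : ζ' ∈ ZZ T q M) (h1 : ζ * ζ' * ζ = 0)
    (h2 : ζ' * ζ * ζ' = 0) (hw : IsHyp q w f) :
    Un M (T.e (r q w f) * (ζ * ζ') - T.e (r q f w) * (ζ' * ζ)) := by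
  simpa [h.1.e_mul, h'.1.e_mul, r_mul, hw.polar_eq, hw.polar_eq'] using
    (h.2 w hw.left 1).comm (h'.2 f hw.right 1) (nu_mul hw.left (h.1.smul _) _)
      (nu_mul hw.right (h'.1.smul _) _)
      (by simp only [one_smul, h.1.e_mul, (h.1.mul h'.1).e_mul, h1, mul_zero])
      (by simp only [one_smul, h'.1.e_mul, (h'.1.mul h.1).e_mul, h2, mul_zero])

theorem mul_mem_RR {ζ' : End F V} (h : ζ ∈ ZZ T q M) (h' : ζ' ∈ ZZ T q M) (h1 : ζ * ζ' * ζ = 0)
    (h2 : ζ' * ζ * ζ' = 0) : ζ * ζ' ∈ RR T q M := by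
  have hc := h.1.mul h'.1
  refine (add_mem_cancel_left (one_mem _)).1 ⟨cm_one.add hc, fun η hη =>
    ⟨(cm_one.add hc).mul hη.1, fun w s h0 hw hs => ?_⟩⟩
  obtain ⟨f, hf⟩ := σ.γ.hyp h0 hw
  obtain ⟨g, hg, e⟩ := σ.un_levi h h' h1 h2 hf
  obtain ⟨k, hk, e'⟩ := hη.2 w s h0 hw hs
  exact ⟨_, mul_mem (mul_mem hg hk) (inv_mem hg), Ty.levi hf (fun x hx => by
    simp [e x, e_r f w, show cw T q w (ζ' (ζ x)) = 0 from h'.1.cw_eq h0 (h.1.cw_eq h0 hx)]) hc e' hs
      hη.1⟩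

omit σ [FiniteDimensional F V] in
theorem _root_.Cfsg.Lib.TO.OU.ty_of_eq (γ : OU q) (hw : IsHyp q w f) (hg : g ∈ Rd T q w)
    {d : End F U} (hη : Cm T η) (h0 : η ≠ 0)
    (e : (g.toLinearMap - 1) * T.e (1 - r q f w) = T.e d * η) :
    ∃ s, polar q w s = 0 ∧ Ty T q w s η g ∧ (d ≠ 0 → s ∉ F ∙ w) := by
  have := γ.nontrivial
  obtain ⟨β, rfl⟩ := hη.exists_km
  obtain ⟨u, hu⟩ : ∃ u, β u ≠ 0 := by
    by_contra! h
    exact h0 (T.ext' fun _ _ => by simp [h])
  have k : ∀ y, g (T.t (y - polar q w y • f) u) - T.t (y - polar q w y • f) u = T.t (d y) (β u) :=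
    fun y => by simpa [r_apply] using LinearMap.congr_fun e (T.t y u)
  obtain ⟨s, hs⟩ := γ.ef.exists_eq (polarBilin q f ∘ₗ d)
  have k1 : d = r q w s := LinearMap.ext fun y => by
    obtain ⟨c, hc⟩ := Submodule.mem_span_singleton.1 (T.mem_of_t_mem hu
      (k y ▸ hg.2 _ (by simp [cw_t, hw.polar_eq])))
    have : polar q s y = c := by simpa [← hc, hw.polar_eq'] using LinearMap.congr_fun hs y
    rw [r_apply, this, hc]
  have k2 : polar q s w = 0 := by
    have := k w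
    rw [hw.polar_left, zero_smul, sub_zero, hg.1 _ (T.t_mem_P1 _ _), sub_self, k1] at this
    simpa [r_apply, hw.ne_zero] using T.t_inj' hu (this.symm.trans (by simp : _ = T.t 0 (β u)))
  refine ⟨s, (polar_comm _ _ _).trans k2, fun x hx => ?_, fun h1 h2 => h1 ?_⟩
  · have := LinearMap.congr_fun e x
    simp only [End.mul_apply, map_sub, map_one, LinearMap.sub_apply, End.one_apply, e_r f w, hx,
      map_zero, sub_zero, LinearEquiv.coe_coe, k1] at this
    rw [← this, add_sub_cancel]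
  obtain ⟨c, rfl⟩ := Submodule.mem_span_singleton.1 h2
  have := k f
  rw [hw.polar_eq, one_smul, sub_self, k1] at this
  have : c = 0 := by
    simpa [r_apply, hw.ne_zero, hw.polar_eq] using T.t_inj' hu (this.symm.trans (by simp : _ = T.t 0 (β u)))
  simp [k1, this, rk]

/-- A slot is good if the centre of the radical has no coefficients. -/
theorem gd_of [Nontrivial V]
    (pure : ∀ S, Iv T M S → ∀ β ∈ S, (¬ ∃ x, β = T.e x) →
      ∃ d η, d ≠ 0 ∧ Cm T η ∧ (¬ ∃ c : F, η = c • 1) ∧ T.e d * η ∈ S)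
    (big : ∀ S : Submodule F (End F V), Iv T M S.toAddSubgroup → (∀ β ∈ S, Cm T β) →
      (∀ x ∈ S, ∀ y ∈ S, x * y = y * x) → ∀ β ∈ S, ∃ c : F, β = c • 1)
    (hZ : ∀ w, w ≠ 0 → q w = 0 → ∀ ζ, Cm T ζ → Un M (T.e (r q w w) * ζ) → ζ = 0) : Gd q M T := by
  intro w h0 hw g hg hr
  obtain ⟨f, hf⟩ := σ.γ.hyp h0 hw
  have k : ∀ {g k}, g ∈ Rd T q w → k ∈ Rd T q w → ((g * k).toLinearMap - 1) * T.e (1 - r q f w) =
      (g.toLinearMap - 1) * T.e (1 - r q f w) + (k.toLinearMap - 1) * T.e (1 - r q f w) :=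
    fun {g k} h h' => LinearMap.ext fun x => by
      have := h.1 _ (h'.2 (T.e (1 - r q f w) x) (by simp [e_r, cw_t, hf.polar_eq]))
      simp only [End.mul_apply, LinearMap.sub_apply, LinearMap.add_apply, LinearEquiv.coe_coe,
        LinearEquiv.mul_apply, End.one_apply, map_sub g] at this ⊢
      linear_combination (norm := module) this
  by_cases h : ∃ x, (g.toLinearMap - 1) * T.e (1 - r q f w) = T.e x
  · obtain ⟨x, e⟩ := h
    obtain ⟨s, hs, h1, -⟩ := σ.γ.ty_of_eq hf hr cm_one one_ne_zero (e.trans (mul_one _).symm)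
    have h2 := mul_mem (inv_mem (σ.ae_mem w s)) hg
    obtain ⟨ζ, h3, h4⟩ := σ.exists_cen h0 (σ.ug h2) fun x hx => (ae T q w s).injective (by
      simp [h1 x hx, ty_ae hw hs x hx])
    rw [hZ w h0 hw ζ h3 ⟨_, h2, LinearMap.congr_fun h4⟩, mul_zero, add_zero] at h4
    exact ⟨s, hs, (inv_mul_eq_one.1 (LinearEquiv.toLinearMap_injective h4)).symm⟩
  obtain ⟨d, η, h1, h2, h3, g, hg, hr, e⟩ := pure
    { carrier := {β | ∃ g ∈ M, g ∈ Rd T q w ∧ (g.toLinearMap - 1) * T.e (1 - r q f w) = β}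
      zero_mem' := ⟨1, one_mem _, one_mem _, LinearMap.ext fun _ => by simp⟩
      add_mem' := fun ⟨_, h1, h2, e⟩ ⟨_, h3, h4, e'⟩ =>
        ⟨_, mul_mem h1 h3, mul_mem h2 h4, by rw [k h2 h4, e, e']⟩
      neg_mem' := fun ⟨_, h1, h2, e⟩ => ⟨_, inv_mem h1, inv_mem h2, eq_neg_of_add_eq_zero_left (by
        rw [← e, ← k (inv_mem h2) h2, inv_mul_cancel]; exact LinearMap.ext fun _ => by simp)⟩ }
    (fun a ha hc _ ⟨g, h1, h2, e⟩ => by
      have k1 : ∀ {a : V ≃ₗ[F] V}, Cm T a.toLinearMap → ∀ x ∈ T.P (F ∙ w), a x ∈ T.P (F ∙ w) :=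
        fun hc x hx => T.mem_P1'.2 fun ψ hψ => hc.cw_eq h0 (T.c_of_mem1 hψ hx)
      refine ⟨_, mul_mem (mul_mem ha h1) (inv_mem ha), ⟨fun x hx => by
        simp [h2.1 (a.symm x) (k1 hc.inv x hx)], fun x hx => by
          simpa using k1 hc _ (h2.2 (a⁻¹ x) (hc.inv.cw_eq h0 hx))⟩, ?_⟩
      rw [← e, mul_assoc a.toLinearMap, mul_assoc _ (T.e _), ← hc.inv]
      exact LinearMap.ext fun _ => by simp)
    _ ⟨g, hg, hr, rfl⟩ h
  obtain ⟨s, hs, h4, h5⟩ := σ.γ.ty_of_eq hf hr h2 (fun h => h3 ⟨0, by simp [h]⟩) e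
  have k1 : ∀ ζ ∈ ZZ T q M, ζ = 0 := fun ζ h => hZ w h0 hw ζ h.1 (by simpa using h.2 w hw 1)
  have k2 : ∀ η ∈ YY T q M, Ad (polarBilin Q) η η := fun η h => by
    obtain ⟨η', e⟩ := σ.hB.exists_adj η
    have := k1 _ (σ.comm_mem_ZZ h σ.one_mem_YY e Ad.one)
    rw [one_mul, mul_one, sub_eq_zero] at this
    exact this ▸ e
  exact (h3 (big _ iv_YY (fun _ h => h.1) (fun x hx y hy => sub_eq_zero.1
    (k1 _ (σ.comm_mem_ZZ hy hx (k2 y hy) (k2 x hx)))) _ (σ.mem_YY h0 hw hs (h5 h1) h2 hg h4))).elim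

omit [FiniteDimensional F V] in
theorem exists_Q : ∃ Q' : QuadraticForm F W, ND Q' ∧
    ∀ v u v' u', polar Q (T.t v u) (T.t v' u') = polar q v v' * polar Q' u u' := by
  have := σ.γ.nontrivial
  obtain ⟨C, hC⟩ := σ.cp
  obtain ⟨w, f, h⟩ := σ.γ.exists_hyp
  have h1 : ∀ u u', C u u' = C u' u := fun u u' => by
    simpa [hC, h.polar_eq, h.polar_eq'] using
      show polarBilin Q (T.t w u) (T.t f u') = polarBilin Q (T.t f u') (T.t w u) from polar_comm _ _ _
  have h2 : ∀ u u', polar (LinearMap.BilinMap.toQuadraticMap ((2 : F)⁻¹ • C)) u u' = C u u' :=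
    fun u u' => by
      have := σ.γ.two
      rw [LinearMap.BilinMap.polar_toQuadraticMap]
      simp only [LinearMap.smul_apply, h1 u' u, smul_eq_mul]
      field_simp; ring
  exact ⟨_, (nd_iff _).2 fun x hx => T.right_nondeg σ.hB hC fun u => (h1 _ _).trans
    ((h2 _ _).symm.trans (hx u)), fun v u v' u' => (hC v u v' u').trans (by rw [h2]; rfl)⟩

theorem mem_of_ty (hY : ∀ η, Cm T η → η ∈ YY T q M) (h0 : w ≠ 0) (hw : q w = 0)
    (hs : polar q w s = 0) (hη : Cm T η) (hg : g ∈ O Q) (h : Ty T q w s η g) : g ∈ M := by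
  obtain ⟨k, hk, h'⟩ := (hY η hη).2 w s h0 hw hs
  have h2 := mul_mem (inv_mem (σ.le hk)) hg
  obtain ⟨ζ, h3, h4⟩ := σ.exists_cen h0 (O_le_UG h2) fun x hx => k.injective (by
    simp [h x hx, h' x hx])
  have h5 := (σ.mono σ.le le_rfl).skew h0 hw h3 ⟨_, h2, LinearMap.congr_fun h4⟩
  obtain ⟨a, ha, e⟩ := (σ.comm_mem_ZZ σ.one_mem_YY (hY ζ h3) Ad.one h5).2 w hw 2⁻¹
  have : a = k⁻¹ * g := LinearEquiv.ext fun x => (e x).trans (by
    rw [mul_one, one_mul, sub_neg_eq_add, ← two_smul F, inv_smul_smul₀ σ.γ.two]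
    exact (LinearMap.congr_fun h4 x).symm)
  exact mul_inv_cancel_left k g ▸ mul_mem hk (this ▸ ha)

/-- If all coefficients are multipliers then `M` contains `Ω(V)`. -/
theorem omega_le [FiniteDimensional F W] (h3 : 3 ≤ finrank F W) (hY : ∀ η, Cm T η → η ∈ YY T q M) :
    (commutator (O Q)).map (O Q).subtype ≤ M := by
  obtain ⟨Q', hQ', e⟩ := σ.exists_Q
  have e1 : ∀ v u x, polar Q (T.t v u) x = polar Q' u (cw T q v x) :=
    T.B_t (A := polarBilin q) (B := polarBilin Q) (C := polarBilin Q') e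
  have e2 : ∀ {v}, q v = 0 → ∀ u, Q (T.t v u) = 0 := fun {v} hv u => by
    simpa [polar_self', σ.γ.two, hv] using e v u v u
  have e3 : ∀ x y u u', T.e (r q x y) * T.km 1 (r Q' u u') = r Q (T.t x u) (T.t y u') :=
    fun x y u u' => T.ext' fun v z => by simp [r_apply, e, smul_smul, mul_comm]
  have e4 : ∀ u u', T.km 1 (sk Q' u u') ∈ ZZ T q M := fun u u' => by
    have : ∀ a b, Ad (polarBilin Q) (T.km 1 (r Q' a b)) (T.km 1 (r Q' b a)) := fun a b x y =>
      T.ext_t (f := (polarBilin Q).flip y ∘ₗ T.km 1 (r Q' a b))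
        (g := (polarBilin Q).flip (T.km 1 (r Q' b a) y)) (fun v z => by
          simp [e1, r_apply, TF.c_km, End.one_eq_id, polar_comm Q' z, mul_comm]) x
    convert σ.comm_mem_ZZ σ.one_mem_YY (hY _ (cm_km (r Q' u u'))) Ad.one (this u u') using 1
    exact T.ext' fun _ _ => by simp [sk_apply, r_apply]
  have key : ∀ {w f u}, IsHyp q w f → Q' u = 0 → OMax.FullAt (M.comap (O Q).subtype) ⊤ (T.t w u) :=
    fun {w f u} h hu => OMax.fullAt_iff.2 fun z _ he hz => by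
      have k1 : ∀ x ∈ T.P (LinearMap.ker (polarBilin q w)),
          x ∈ OMax.AE (M.comap (O Q).subtype) (T.t w u) := fun x hx => by
        have k2 : ∀ c : F, c • x ∈ OMax.AE (M.comap (O Q).subtype) (T.t w u) := T.P_le (X :=
          { carrier := {x | ∀ c : F, c • x ∈ OMax.AE (M.comap (O Q).subtype) (T.t w u)}
            zero_mem' := by simp
            add_mem' := fun h h' c => by rw [smul_add]; exact add_mem (h c) (h' c)
            smul_mem' := fun d _ h c => by rw [smul_smul]; exact h _ }) (fun s hs u' c => by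
          have k3 : polar Q (T.t w u) (T.t s (c • u')) = 0 := by
            rw [e, show polar q w s = 0 from hs, zero_mul]
          rw [← map_smul]
          exact ⟨k3, σ.mem_of_ty hY h.ne_zero h.left hs (cm_km (r Q' u (c • u'))) (eich Q _ _).2
            fun y hy => by
              rw [← End.mul_apply, e3, r_apply]
              exact eich_apply_of_perp he k3 (by simp [e1, hy])⟩) hx
        simpa using k2 1
      have k2 := k1 (z - T.t f (cw T q w z)) (T.mem_P_ker.2 (by simp [h.polar_eq]))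
      rw [e1] at hz
      generalize cw T q w z = u' at hz k2
      suffices T.t f u' ∈ OMax.AE (M.comap (O Q).subtype) (T.t w u) by
        simpa using (add_mem k2 this).2
      obtain ⟨a, k3, k4⟩ := exists_ker_notMem (polarBilin Q' u') (N := F ∙ u)
        (by have := finrank_span_le (F := F) u; omega)
      obtain ⟨b, k5, k6⟩ := (ef_polar hQ').exists_perp_one k4 1
      simp only [polarBilin_apply_apply] at k3 k5 k6
      have k7 : sk Q' u a * sk Q' b u' = r Q' u u' := by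
        simp [sk_eq, mul_sub, sub_mul, r_mul, polar_comm Q' a, *]
      have k8 : sk Q' b u' * sk Q' u a = r Q' u' u := by
        simp [sk_eq, mul_sub, sub_mul, r_mul, polar_comm Q' _ u, *]
      obtain ⟨g, hg, k9⟩ := σ.un_levi (e4 u a) (e4 b u') (by
        rw [km_one_mul, km_one_mul, k7]
        exact T.ext' fun _ _ => by simp [sk_apply, r_apply, polar_comm Q' _ u, *]) (by
        rw [km_one_mul, km_one_mul, k8]
        exact T.ext' fun _ _ => by simp [sk_apply, r_apply, *]) h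
      have k10 : polar Q (T.t w u) (T.t f u') = 0 := by simp [e, hz]
      refine ⟨k10, Subgroup.mem_comap.2 ?_⟩
      rw [Subgroup.subtype_apply, ← (LinearEquiv.ext fun x => ?_ : g = (eich Q _ _).1)]
      · exact hg
      rw [k9, eich_apply he k10, km_one_mul, km_one_mul, k7, k8, e3, e3, e2 h.right]
      simp [r_apply, sub_eq_add_neg, add_assoc]
  obtain ⟨w, f, h⟩ := σ.γ.exists_hyp
  obtain ⟨u, u', h'⟩ := exists_isHyp_of_three_le hQ' h3
  have := σ.γ.three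
  exact Subgroup.map_le_iff_le_comap.2 (OMax.commutator_le_of_pair σ.nd (by
    rw [T.finrank_eq]; nlinarith) (e2 h.left u) (e2 h.right u')
    (by simp [e, h.polar_eq, h'.polar_eq]) (key h h'.left) (key h.symm h'.right))

end Sl

end Cfsg.Lib.TO
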