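import Cfsg.Agent.Lib.TO.Ext

/-!
# Orthogonal tensor factors: the radical at a singular point of one factor
-/

set_option autoImplicit false
set_option linter.unusedSectionVars false

namespace Cfsg.Lib.TO

open Module QuadraticMap Cfsg.Lib.TW Cfsg.Lib.TMax Function
open Cfsg.Lib.Orth
open Cfsg.Lib.Unitary (UG)
open scoped commutatorElement

variable {F U W V : Type*} [Field F] [AddCommGroup U] [Module F U] [AddCommGroup W] [Module F W]
  [AddCommGroup V] [Module F V] {q : QuadraticForm F U} {Q : QuadraticForm F V} {T : TF F U W V}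
  {M : Subgroup (V ≃ₗ[F] V)} {w f s s' : U} {g k : V ≃ₗ[F] V} {η θ : End F V}

/-- Contraction with `w`. -/
noncomputable abbrev cw (T : TF F U W V) (q : QuadraticForm F U) (w : U) : V →ₗ[F] W :=
  T.c (polarBilin q w)

theorem cw_t (w v : U) (u : W) : cw T q w (T.t v u) = polar q w v • u := T.c_t _ _ _

theorem e_r (x y : U) (z : V) : T.e (r q x y) z = T.t x (cw T q y z) := T.e_r _ _ _

theorem cw_add (x y : U) : cw T q (x + y) = cw T q x + cw T q y := by rw [cw, map_add, TF.c_add]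

theorem cw_smul (c : F) (x : U) : cw T q (c • x) = c • cw T q x := by rw [cw, map_smul, TF.c_smul]

/-- The Eichler maps of the factor. -/
noncomputable def ae (T : TF F U W V) (q : QuadraticForm F U) (w s : U) : V ≃ₗ[F] V :=
  T.kr (eich q w s).1 1

theorem ae_coe (w s : U) : (ae T q w s).toLinearMap = T.e (eich q w s).1.toLinearMap := T.kr_coe _

theorem ae_t (w s v : U) (u : W) : ae T q w s (T.t v u) = T.t ((eich q w s).1 v) u := T.kr_t _ _ _ _

theorem ae_add (hw : q w = 0) (hs : polar q w s = 0) (hs' : polar q w s' = 0) :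
    ae T q w (s + s') = ae T q w s * ae T q w s' := by
  rw [ae, ae, ae, T.kr_mul, eich_add hw hs hs', mul_one]; rfl

theorem ae_zero (w : U) : ae T q w 0 = 1 := by simp [ae]

theorem ae_neg (hw : q w = 0) (hs : polar q w s = 0) : ae T q w (-s) = (ae T q w s)⁻¹ := by
  rw [ae, ae, T.kr_inv, eich_neg hw hs, inv_one]; rfl

theorem kr_conj_ae (b : O q) (w s : U) :
    T.kr b.1 1 * ae T q w s * (T.kr b.1 1)⁻¹ = ae T q (b.1 w) (b.1 s) := by
  rw [ae, ae, T.kr_inv, T.kr_mul, T.kr_mul, ← conj_eich]; simp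

theorem ae_smul_left (hw : q w = 0) (hs : polar q w s = 0) (c : F) :
    ae T q (c • w) s = ae T q w (c • s) := by rw [ae, ae, eich_smul_left hw hs]

theorem ae_pow (p : ℕ) [CharP F p] (hw : q w = 0) (hs : polar q w s = 0) : ae T q w s ^ p = 1 := by
  have : ∀ n : ℕ, ae T q w s ^ n = ae T q w ((n : F) • s) := fun n => by
    induction n with
    | zero => simp [ae_zero]
    | succ n ih => rw [pow_succ, ih, ← ae_add hw (by simp [hs]) hs, Nat.cast_succ, add_smul, one_smul]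
  simp [this, ae_zero]

/-- The root group at `w`. -/
def Aw (T : TF F U W V) (hw : q w = 0) : Subgroup (V ≃ₗ[F] V) where
  carrier := {g | ∃ s, polar q w s = 0 ∧ g = ae T q w s}
  one_mem' := ⟨0, by simp, (ae_zero w).symm⟩
  mul_mem' := fun ⟨s, h, e⟩ ⟨s', h', e'⟩ => ⟨s + s', by simp [h, h'], by rw [ae_add hw h h', e, e']⟩
  inv_mem' := fun ⟨s, h, e⟩ => ⟨-s, by simp [h], by rw [ae_neg hw h, e]⟩

theorem aw_pgroup (p : ℕ) [CharP F p] (hw : q w = 0) : IsPGroup p (Aw T hw) :=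
  fun ⟨_, _, h, e⟩ => ⟨1, Subtype.ext (by simpa [e] using ae_pow p hw h)⟩

/-- The unipotent radical at `w`. -/
def Rd (T : TF F U W V) (q : QuadraticForm F U) (w : U) : Subgroup (V ≃ₗ[F] V) where
  carrier := {g | (∀ x ∈ T.P (F ∙ w), g x = x) ∧ ∀ x, cw T q w x = 0 → g x - x ∈ T.P (F ∙ w)}
  one_mem' := ⟨fun _ _ => rfl, by simp⟩
  mul_mem' := fun {g k} h h' => ⟨fun x hx => by simp [h.1 x hx, h'.1 x hx], fun x hx => by
    convert add_mem (h.2 x hx) (h'.2 x hx) using 1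
    rw [← h.1 _ (h'.2 x hx), map_sub, LinearEquiv.mul_apply]
    simp only [← map_sub, h.1 _ (h'.2 x hx)]
    rw [← sub_add_cancel (k x) x, map_add, h.1 _ (h'.2 x hx)]
    abel⟩
  inv_mem' := fun {g} h =>
    have k : ∀ x ∈ T.P (F ∙ w), g⁻¹ x = x := fun x hx => g.injective (by simp [h.1 x hx])
    ⟨k, fun x hx => by simpa using neg_mem ((k _ (h.2 x hx)).symm ▸ h.2 x hx : g⁻¹ (g x - x) ∈ _)⟩

/-- The radical at each singular point is the root group. -/
def Gd (q : QuadraticForm F U) (M : Subgroup (V ≃ₗ[F] V)) (T : TF F U W V) : Prop :=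
  ∀ w, w ≠ 0 → ∀ hw : q w = 0, ∀ g ∈ M, g ∈ Rd T q w → g ∈ Aw T hw

/-- On `w^⊥ ⊗ W` the map `g` is `1 + (w ⊗ s^*) η`. -/
def Ty (T : TF F U W V) (q : QuadraticForm F U) (w s : U) (η : End F V) (g : V ≃ₗ[F] V) : Prop :=
  ∀ x, cw T q w x = 0 → g x = x + T.e (r q w s) (η x)

theorem _root_.Cfsg.Lib.TW.Cm.apply (h : Cm T η) (a : End F U) (x : V) :
    η (T.e a x) = T.e a (η x) := LinearMap.congr_fun (h a) x

theorem e_r_P {x : V} (hx : x ∈ T.P (F ∙ w)) (hs : polar q s w = 0) (y : U) :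
    T.e (r q y s) x = 0 := by rw [e_r, T.c_of_mem1 hs hx, map_zero]

theorem Ty.fix (h : Ty T q w s η g) (hη : Cm T η) (hw : q w = 0) (hs : polar q w s = 0) {x : V}
    (hx : x ∈ T.P (F ∙ w)) : g x = x := by
  rw [h x (T.c_of_mem1 (polar_sing hw) hx), ← hη.apply, e_r_P hx ((polar_comm _ _ _).trans hs),
    map_zero, add_zero]

theorem Ty.rd (h : Ty T q w s η g) (hη : Cm T η) (hw : q w = 0) (hs : polar q w s = 0) :
    g ∈ Rd T q w :=
  ⟨fun _ => h.fix hη hw hs, fun x hx => by rw [h x hx, add_sub_cancel_left, e_r]; exact T.t_mem_P1 _ _⟩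

theorem Ty.mul (h : Ty T q w s η g) (h' : Ty T q w s' θ k) (hg : g ∈ Rd T q w) (x : V)
    (hx : cw T q w x = 0) : (g * k) x = x + T.e (r q w s) (η x) + T.e (r q w s') (θ x) := by
  rw [LinearEquiv.mul_apply, h' x hx, map_add, h x hx, e_r w s', hg.1 _ (T.t_mem_P1 _ _)]

theorem Ty.inv (h : Ty T q w s η g) (hg : g ∈ Rd T q w) (x : V) (hx : cw T q w x = 0) :
    g⁻¹ x = x - T.e (r q w s) (η x) := g.injective (by
  rw [map_sub, e_r, hg.1 _ (T.t_mem_P1 _ _), ← e_r, h x hx]; simp)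

theorem Ty.smul (c : F) : Ty T q w (c • s) η g ↔ Ty T q w s (c • η) g := by
  simp [Ty, e_r, cw_smul]

theorem ty_ae (hw : q w = 0) (hs : polar q w s = 0) : Ty T q w s 1 (ae T q w s) := fun x hx => by
  rw [← LinearEquiv.coe_coe, ae_coe, eich_coe hw hs, sk_eq]
  simp [e_r, hx]

theorem ae_mem_Rd (hw : q w = 0) (hs : polar q w s = 0) : ae T q w s ∈ Rd T q w :=
  (ty_ae hw hs).rd cm_one hw hs

theorem _root_.Cfsg.Lib.TW.Cm.inv (h : Cm T g.toLinearMap) : Cm T (g⁻¹).toLinearMap := fun a =>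
  LinearMap.ext fun x => g.injective (by simpa using (LinearMap.congr_fun (h a) (g⁻¹ x)).symm)

theorem _root_.Cfsg.Lib.TW.Cm.cw_eq (h : Cm T η) (h0 : w ≠ 0) {ψ : Dual F U} {x : V}
    (hx : T.c ψ x = 0) : T.c ψ (η x) = 0 :=
  T.t_inj h0 (by rw [← T.e_r, ← h.apply, T.e_r, hx]; simp)

theorem Ty.conj (h : Ty T q w s η g) (h0 : w ≠ 0) (hk : Cm T k.toLinearMap) :
    Ty T q w s (k.toLinearMap * η * (k⁻¹).toLinearMap) (k * g * k⁻¹) := fun x hx => by
  rw [LinearEquiv.mul_apply, LinearEquiv.mul_apply, h (k⁻¹ x) (hk.inv.cw_eq h0 hx), map_add]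
  exact congrArg₂ _ (k.apply_symm_apply x) (hk.apply _ _)

theorem Ty.conj_kr (h : Ty T q w s η g) (hη : Cm T η) (b : O q) :
    Ty T q (b.1 w) (b.1 s) η (T.kr b.1 1 * g * (T.kr b.1 1)⁻¹) := fun x hx => by
  have h1 : cw T q w (T.e (b⁻¹).1.toLinearMap x) = 0 := by
    rw [cw, T.c_e, ← hx]; congr 2; ext v; simp [O.polar_left]
  rw [T.kr_inv, inv_one, LinearEquiv.mul_apply, LinearEquiv.mul_apply, T.kr_one_apply,
    T.kr_one_apply, ← Subgroup.coe_inv, h _ h1, ← conj_r, map_add, hη.apply, ← End.mul_apply,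
    ← map_mul, show b.1.toLinearMap * (b⁻¹).1.toLinearMap = 1 from LinearMap.ext b.1.apply_symm_apply]
  simp

theorem ad_r (x y : U) : Ad (polarBilin q) (r q x y) (r q y x) := fun a b => by
  simp [r_apply, polar_comm q y a, mul_comm]

theorem ad_sk (x y : U) : Ad (polarBilin q) (sk q x y) (-sk q x y) := by
  simpa [sk_eq] using (ad_r x y).sub (ad_r y x)

theorem comm_sk (h2 : (2 : F) ≠ 0) (hw : q w = 0) {X : End F V}
    (h : ∀ s, polar q w s = 0 → X * (ae T q w s).toLinearMap = (ae T q w s).toLinearMap * X)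
    (hs : polar q w s = 0) : X * T.e (sk q w s) = T.e (sk q w s) * X := by
  have h1 := h s hs
  have h3 := h (-s) (by simp [hs])
  rw [ae_coe, eich_coe hw hs] at h1
  rw [ae_coe, eich_coe hw (by simp [hs]), sk_neg, q.map_neg] at h3
  simp only [map_add, map_sub, map_neg, mul_add, add_mul, mul_sub, sub_mul, mul_neg, neg_mul] at h1 h3
  exact smul_right_injective _ h2 (by linear_combination (norm := module) h1 - h3)

/-- Hypotheses on one slot. -/
structure Sl (q : QuadraticForm F U) (Q : QuadraticForm F V) (M : Subgroup (V ≃ₗ[F] V))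
    (T : TF F U W V) : Prop where
  γ : OU q
  nd : ND Q
  cp : Cp (polarBilin q) (polarBilin Q) T
  le : M ≤ O Q
  su : ∀ b ∈ Nq q, T.kr b 1 ∈ M

variable [Finite F] [FiniteDimensional F U]

theorem OU.comm_r (γ : OU q) (h0 : w ≠ 0) (hw : q w = 0) {X : End F V}
    (h : ∀ s, polar q w s = 0 → X * T.e (sk q w s) = T.e (sk q w s) * X) :
    X * T.e (r q w w) = T.e (r q w w) * X := by
  obtain ⟨s, hs, h1⟩ := γ.exists_aniso h0 hw
  have : X * T.e (sk q w s * sk q w s) = T.e (sk q w s * sk q w s) * X := by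
    rw [map_mul, ← mul_assoc, h s hs, mul_assoc, h s hs, mul_assoc]
  rw [sk_mul hw hs hs, map_smul, mul_smul_comm, smul_mul_assoc] at this
  exact smul_right_injective _ (by simp [polar_self', γ.two, h1]) this

theorem OU.mem_P (γ : OU q) {x : V} (h : ∀ s, polar q w s = 0 → cw T q s x = 0) :
    x ∈ T.P (F ∙ w) := T.mem_P1'.2 fun ψ hψ => by
  obtain ⟨s, rfl⟩ := γ.ef.exists_eq ψ
  exact h s ((polar_comm _ _ _).trans hψ)

theorem OU.ae_eq_one (γ : OU q) (h0 : w ≠ 0) (hw : q w = 0) (hs : polar q w s = 0)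
    (h : ∀ y, polar q w y = 0 → ∃ u, u ≠ 0 ∧ ae T q w s (T.t y u) = T.t y u) : ae T q w s = 1 := by
  obtain ⟨c, rfl⟩ := Submodule.mem_span_singleton.1 (γ.mem_of_perp (y := s) fun y hy => by
    obtain ⟨u, hu, e⟩ := h y hy
    rw [ae_t, eich_apply_of_perp hw hs hy] at e
    simpa [h0, polar_comm q y s] using T.t_inj' hu e)
  simp [ae, eich_self_smul hw]

/-- Commuting with a Borel-like subgroup of the factor. -/
theorem OU.eq_of_comm (γ : OU q) {b : O q} {l : F} (τ : Ts q w f b l) {X : End F V}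
    (h1 : ∀ s, polar q w s = 0 → X * (ae T q w s).toLinearMap = (ae T q w s).toLinearMap * X)
    (h2 : X * T.e b.1.toLinearMap = T.e b.1.toLinearMap * X) :
    X = cf T q X f w + T.e (r q w w) * cf T q X f f := by
  have h3 := fun s => comm_sk γ.two τ.hyp.left h1 (s := s)
  have h4 := γ.comm_r τ.hyp.ne_zero τ.hyp.left h3
  refine T.ext' fun v u => sub_eq_zero.1 (T.eq_zero_of_d fun χ => ?_)
  have k : ∀ a, X * T.e a = T.e a * X → (T.d χ ∘ₗ X ∘ₗ T.t.flip u) * a = a * (T.d χ ∘ₗ X ∘ₗ T.t.flip u) :=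
    fun a h => LinearMap.ext fun v => by simpa [TF.d_e] using congrArg (T.d χ) (LinearMap.congr_fun h (T.t v u))
  have := LinearMap.congr_fun (τ.eq_of_comm γ (fun s hs => k _ (h3 s hs)) (k _ h4) (k _ h2)) v
  have e : ∀ x, polar q f (T.d χ x) = χ (T.c (polarBilin q f) x) := T.apply_d (polarBilin q f) χ
  simp only [LinearMap.comp_apply, LinearMap.flip_apply, e] at this
  simp [this, cf_t, r_apply, smul_smul, mul_comm]

namespace Sl

variable (σ : Sl q Q M T)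
include σ

theorem hB : EF (RingHom.id F) 1 (polarBilin Q) := ef_polar σ.nd

theorem ug (hg : g ∈ M) : g ∈ UG (polarBilin Q) := O_le_UG (σ.le hg)

theorem ad_e {a a' : End F U} (h : Ad (polarBilin q) a a') : Ad (polarBilin Q) (T.e a) (T.e a') :=
  Ad.e σ.cp h

theorem ae_mem (w s : U) : ae T q w s ∈ M := σ.su _ (eich_mem_Nq w s)

theorem su' {b : O q} (h : b ∈ eichGroup q) : T.kr b.1 1 ∈ M := σ.su _ (mem_Nq h)

theorem mono {M' : Subgroup (V ≃ₗ[F] V)} (h : M ≤ M') (h' : M' ≤ O Q) : Sl q Q M' T :=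
  ⟨σ.γ, σ.nd, σ.cp, h', fun b hb => h (σ.su b hb)⟩

theorem smul (hg : g ∈ M) : Sl q Q M (g • T) :=
  ⟨σ.γ, σ.nd, σ.cp.smul (σ.ug hg), σ.le, fun b hb => by
    simpa [TF.smul_kr] using mul_mem (mul_mem hg (σ.su b hb)) (inv_mem hg)⟩

theorem cw_fix (hg : g ∈ UG (polarBilin Q)) (h : ∀ x ∈ T.P (F ∙ w), g x = x) (x : V) :
    cw T q w (g x) = cw T q w x := by
  have := σ.γ.nontrivial
  rw [← sub_eq_zero, ← map_sub]
  refine σ.cp.c_eq_zero σ.hB fun u => ?_
  rw [map_sub, ← hg (T.t w u) x, h _ (T.t_mem_P1 w u), sub_self]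

variable [FiniteDimensional F V]

theorem cm_ad {η' : End F V} (h : Cm T η) (h' : Ad (polarBilin Q) η η') : Cm T η' :=
  Ad.cm h' σ.γ.ef σ.hB σ.cp h

theorem exists_cen (h0 : w ≠ 0) (hg : g ∈ UG (polarBilin Q)) (h : ∀ x, cw T q w x = 0 → g x = x) :
    ∃ β, Cm T β ∧ g.toLinearMap = 1 + T.e (r q w w) * β := by
  have := σ.γ.nontrivial
  obtain ⟨f, hf⟩ := σ.γ.ef.exists_eq_one h0
  obtain ⟨χ, hχ⟩ := exists_dual_one (F := F) h0
  refine ⟨_, T.cm_coef χ f (g.toLinearMap - 1), LinearMap.ext fun x => ?_⟩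
  have h1 := h (x - T.t f (T.c (polarBilin q w) x)) (by rw [map_sub, T.c_t, hf]; simp)
  obtain ⟨u, hu⟩ := T.mem_P1.1 (σ.hB.sub_mem_of_fix (W := T.P (F ∙ w)) hg
    (fun x hx => h x ((σ.cp.mem_perp σ.hB).1 hx)) (T.t f (T.c (polarBilin q w) x)))
  simp only [rk, TF.coef, LinearMap.add_apply, End.mul_apply, TF.e_r, TF.c_km, End.one_eq_id,
    LinearMap.comp_id, LinearMap.comp_apply, LinearMap.sub_apply, LinearMap.id_apply,
    LinearEquiv.coe_coe, ← hu, TF.c_t, hχ, one_smul]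
  rw [map_sub] at h1
  linear_combination (norm := module) h1 - hu

omit [FiniteDimensional F V] in
theorem e_mul_ty (h : Ty T q w s' θ k) (hk : k ∈ M) (hs : polar q w s = 0) {θ' : End F V}
    (hθ : Ad (polarBilin Q) θ θ') (hc : Cm T θ) (hk' : k ∈ Rd T q w) (z : U) :
    T.e (r q z s) * k.toLinearMap = T.e (r q z s) - polar q s' s • (θ' * T.e (r q z w)) := by
  have h1 : (k⁻¹).toLinearMap * T.e (r q s z) = T.e (r q s z) - polar q s' s • (T.e (r q w z) * θ) :=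
    LinearMap.ext fun x => by
      rw [End.mul_apply, LinearEquiv.coe_coe, h.inv hk' _ (by rw [e_r, cw_t, hs, zero_smul]),
        hc.apply, ← End.mul_apply (T.e _) (T.e _), ← map_mul, r_mul]
      simp
  simpa using ((Ad.of_UG (inv_mem (σ.ug hk))).mul (σ.ad_e (ad_r s z))).unique σ.hB
    (h1 ▸ (σ.ad_e (ad_r s z)).sub (((σ.ad_e (ad_r w z)).mul hθ).smul _))

omit [FiniteDimensional F V] in
theorem ty_mul (h : Ty T q w s η g) (h' : Ty T q w s' θ k) (hk : k ∈ M) (hw : q w = 0)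
    (hs : polar q w s = 0) (hs' : polar q w s' = 0) {θ' : End F V} (hθ : Ad (polarBilin Q) θ θ')
    (hc : Cm T θ) (hη : Cm T η) :
    (g * k).toLinearMap = g.toLinearMap + k.toLinearMap - 1 - polar q s' s • (η * θ' * T.e (r q w w)) := by
  have hk' := h'.rd hc hw hs'
  refine LinearMap.ext fun x => ?_
  have h1 := h (k x - x) (by rw [map_sub, σ.cw_fix (σ.ug hk) hk'.1, sub_self])
  have h2 := LinearMap.congr_fun (σ.e_mul_ty h' hk hs hθ hc hk' w) x
  rw [← hη.apply, map_sub, map_sub (T.e _)] at h1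
  simp only [End.mul_apply, LinearEquiv.coe_coe, LinearMap.sub_apply, LinearMap.smul_apply] at h2
  simp only [End.mul_apply, LinearEquiv.coe_coe, LinearMap.sub_apply, LinearMap.smul_apply,
    LinearMap.add_apply, LinearEquiv.mul_apply, End.one_apply]
  rw [h2, sub_sub_cancel_left, map_neg, map_smul] at h1
  linear_combination (norm := module) h1

theorem un_comm (h : Ty T q w s η g) (h' : Ty T q w s' θ k) (hg : g ∈ M) (hk : k ∈ M)
    (hw : q w = 0) (hs : polar q w s = 0) (hs' : polar q w s' = 0) {η' θ' : End F V}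
    (hη' : Ad (polarBilin Q) η η') (hθ : Ad (polarBilin Q) θ θ') (hc : Cm T θ) (hη : Cm T η) :
    Un M (T.e (r q w w) * polar q s s' • (θ * η' - η * θ')) := by
  refine ⟨g * k * (k * g)⁻¹, mul_mem (mul_mem hg hk) (inv_mem (mul_mem hk hg)), fun x => ?_⟩
  have h1 := LinearMap.congr_fun (σ.ty_mul h h' hk hw hs hs' hθ hc hη) ((k * g)⁻¹ x)
  have h2 := LinearMap.congr_fun (σ.ty_mul h' h hg hw hs' hs hη' hη hc) ((k * g)⁻¹ x)
  have h3 := σ.cw_fix (σ.ug (inv_mem (mul_mem hk hg)))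
    (inv_mem (mul_mem (h'.rd hc hw hs') (h.rd hη hw hs))).1 x
  rw [← ((hc.mul (σ.cm_ad hη hη')).sub (hη.mul (σ.cm_ad hc hθ))).smul _ _]
  simp only [End.mul_apply, LinearEquiv.coe_coe, LinearMap.sub_apply, LinearMap.smul_apply,
    LinearMap.add_apply, e_r, h3, ← LinearEquiv.mul_apply, mul_inv_cancel, polar_comm q s' s,
    LinearEquiv.coe_one, id] at h1 h2 ⊢
  linear_combination (norm := module) h1 - h2

omit [FiniteDimensional F V] in
theorem rd_of_comm (h0 : w ≠ 0) (hw : q w = 0) (hg : g ∈ M) (h : ∀ a ∈ Aw T hw, g * a = a * g)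
    (h1 : ∀ x ∈ T.P (F ∙ w), g x = x) : g ∈ Rd T q w := by
  refine ⟨h1, fun x hx => σ.γ.mem_P fun s hs => ?_⟩
  have h2 := LinearMap.congr_fun (comm_sk σ.γ.two hw (X := g.toLinearMap)
    (fun s hs => congrArg LinearEquiv.toLinearMap (h _ ⟨s, hs, rfl⟩)) hs) x
  simp only [End.mul_apply, sk_eq, map_sub, LinearMap.sub_apply, e_r, LinearEquiv.coe_coe,
    σ.cw_fix (σ.ug hg) h1, hx, map_zero, sub_zero, h1 _ (T.t_mem_P1 _ _)] at h2
  rw [map_sub, T.t_inj h0 h2, sub_self]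

omit [FiniteDimensional F V] in
theorem map_P (h0 : w ≠ 0) (hw : q w = 0) (h : ∀ a ∈ Aw T hw, g * a = a * g) (u : W) :
    g (T.t w u) ∈ T.P (F ∙ w) := by
  obtain ⟨f, hf⟩ := σ.γ.hyp h0 hw
  have := LinearMap.congr_fun (σ.γ.comm_r h0 hw (X := g.toLinearMap) fun s => comm_sk σ.γ.two hw
    fun s hs => congrArg LinearEquiv.toLinearMap (h _ ⟨s, hs, rfl⟩)) (T.t f u)
  simp only [End.mul_apply, e_r, cw_t, hf.polar_eq, one_smul, LinearEquiv.coe_coe] at this
  exact this ▸ T.t_mem_P1 _ _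

omit σ [FiniteDimensional F V] in
theorem _root_.Cfsg.Lib.TO.Ts.conj_mem {b : O q} {l : F} (τ : Ts q w f b l) {a}
    (ha : a ∈ Aw T τ.hyp.left) : T.kr b.1 1 * a * (T.kr b.1 1)⁻¹ ∈ Aw T τ.hyp.left ∧
      (T.kr b.1 1)⁻¹ * a * T.kr b.1 1 ∈ Aw T τ.hyp.left := by
  obtain ⟨s, hs, rfl⟩ := ha
  have k : ∀ (b : O q) (l : F), b.1 w = l • w → l ≠ 0 →
      T.kr b.1 1 * ae T q w s * (T.kr b.1 1)⁻¹ ∈ Aw T τ.hyp.left := fun b l e h0 => by
    have : polar q w (b.1 s) = 0 := by simpa [e, h0] using (O.map_polar b w s).trans hs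
    exact ⟨l • b.1 s, by simp [this], by rw [kr_conj_ae, e, ae_smul_left τ.hyp.left this]⟩
  refine ⟨k b l τ.left τ.ne, ?_⟩
  simpa [TF.kr_inv] using k b⁻¹ l⁻¹ ((O.inv_apply_eq _).2 (by simp [τ.left, τ.ne])) (inv_ne_zero τ.ne)

omit [FiniteDimensional F V] in
/-- The commutator of a torus element with an element centralising the root group. -/
theorem comm_mem (G : Gd q M T) {b : O q} {l : F} (τ : Ts q w f b l) (hg : g ∈ M)
    (h : ∀ a ∈ Aw T τ.hyp.left, g * a = a * g) : ⁅T.kr b.1 1, g⁆ ∈ Aw T τ.hyp.left := by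
  have h0 := τ.hyp.ne_zero
  have hb := σ.su' τ.mem
  have h' : ∀ a ∈ Aw T τ.hyp.left, g⁻¹ * a = a * g⁻¹ := fun a ha => (Commute.inv_left (h a ha)).eq
  have hc : ⁅T.kr b.1 1, g⁆ ∈ M := mul_mem (mul_mem (mul_mem hb hg) (inv_mem hb)) (inv_mem hg)
  refine G w h0 _ _ hc (σ.rd_of_comm h0 τ.hyp.left hc (fun a ha => ?_) fun x hx => ?_)
  · have := h _ (τ.conj_mem ha).2
    rw [commutatorElement_def, mul_assoc _ _ a, h' a ha]
    calc _ = T.kr b.1 1 * (g * ((T.kr b.1 1)⁻¹ * a * T.kr b.1 1)) * (T.kr b.1 1)⁻¹ * g⁻¹ := by group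
      _ = _ := by rw [this]; group
  obtain ⟨u, rfl⟩ := T.mem_P1.1 hx
  obtain ⟨u', e⟩ := T.mem_P1.1 (σ.map_P h0 _ h' u)
  have e' : g (T.t w u') = T.t w u := by rw [e]; simp
  have : (b.1⁻¹) w = l⁻¹ • w := (O.inv_apply_eq _).2 (by simp [τ.left, τ.ne])
  simp only [commutatorElement_def, LinearEquiv.mul_apply, ← e, TF.kr_inv, TF.kr_t, this]
  simp [e', τ.left, τ.ne]

omit [FiniteDimensional F V] in
theorem exists_tor (G : Gd q M T) {b : O q} {l : F} (τ : Ts q w f b l) (hg : g ∈ M)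
    (h : ∀ a ∈ Aw T τ.hyp.left, g * a = a * g) :
    ∃ a ∈ Aw T τ.hyp.left, a * g * T.kr b.1 1 = T.kr b.1 1 * (a * g) := by
  have hw := τ.hyp.left
  obtain ⟨s, hs, e⟩ := σ.comm_mem G τ hg h
  obtain ⟨s', hs', e'⟩ := τ.exists_comm (s := -s) (by simp [hs])
  refine ⟨_, ⟨s', hs', rfl⟩, ?_⟩
  have e1 : ⁅T.kr b.1 1, ae T q w s'⁆ = (ae T q w s)⁻¹ := by
    rw [← ae_neg hw hs, ae, ae, ← e']; simp [commutatorElement_def, TF.kr_inv, TF.kr_mul]
  have e2 : ae T q w s' * ae T q w s = ae T q w s * ae T q w s' := by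
    rw [← ae_add hw hs' hs, add_comm, ae_add hw hs hs']
  symm
  calc _ = ⁅T.kr b.1 1, ae T q w s'⁆ * (ae T q w s' * ⁅T.kr b.1 1, g⁆) * g * T.kr b.1 1 := by group
    _ = _ := by rw [e1, e, e2]; group

variable [Nontrivial W]

omit [FiniteDimensional F V] in
theorem eq_one_of_fix (G : Gd q M T) (h0 : w ≠ 0) (hw : q w = 0) (hg : g ∈ M)
    (h : ∀ x, cw T q w x = 0 → g x = x) : g = 1 := by
  obtain ⟨s, hs, rfl⟩ := G w h0 hw g hg ⟨fun x hx => h x (T.c_of_mem1 (polar_sing hw) hx),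
    fun x hx => by simp [h x hx]⟩
  obtain ⟨u, hu⟩ := exists_ne (0 : W)
  exact σ.γ.ae_eq_one h0 hw hs fun y hy => ⟨u, hu, h _ (by simp [hy])⟩

omit [FiniteDimensional F V] in
theorem eq_one_of_tor (G : Gd q M T) {b : O q} {l : F} (τ : Ts q w f b l) (hg : g ∈ M)
    (h : ∀ a ∈ Aw T τ.hyp.left, g * a = a * g) (h1 : g * T.kr b.1 1 = T.kr b.1 1 * g)
    (h2 : ∀ u, g (T.t w u) = T.t w u) : g = 1 := by
  have e := σ.γ.eq_of_comm τ (X := g.toLinearMap)
    (fun s hs => congrArg LinearEquiv.toLinearMap (h _ ⟨s, hs, rfl⟩))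
    (T.kr_coe _ ▸ congrArg LinearEquiv.toLinearMap h1)
  have e1 : cf T q g.toLinearMap f w = 1 := T.ext' fun v u => by simp [cf_t, h2, τ.hyp.polar_eq']
  refine σ.eq_one_of_fix G τ.hyp.ne_zero τ.hyp.left hg fun x hx => ?_
  rw [← LinearEquiv.coe_coe, e, e1, ← cm_cf]
  simp [e_r, hx]

omit σ [Nontrivial W] [FiniteDimensional F V] in
theorem _root_.Cfsg.Lib.TO.smul_ae (g : V ≃ₗ[F] V) (w s : U) :
    ae (g • T) q w s = g * ae T q w s * g⁻¹ := T.smul_kr _ _ _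

omit σ [Nontrivial W] [FiniteDimensional F V] in
theorem _root_.Cfsg.Lib.TO.Gd.smul (G : Gd q M T) (hg : g ∈ M) : Gd q M (g • T) := by
  intro w h0 hw k hk h
  obtain ⟨s, hs, e⟩ := G w h0 hw (g⁻¹ * k * g) (mul_mem (mul_mem (inv_mem hg) hk) hg) ⟨fun x hx => by
    simp [h.1 (g x) (T.mem_smul_P.2 (by simpa))], fun x hx => by
      simpa using T.mem_smul_P.1 (h.2 (g x) (by simpa))⟩
  exact ⟨s, hs, by rw [smul_ae, ← e]; group⟩

/-- Two good slots with the same point have the same root group. -/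
theorem aw_le [FiniteDimensional F W] {T' : TF F U W V} (σ' : Sl q Q M T') (G : Gd q M T)
    {w' : U} (h0 : w ≠ 0) (hw : q w = 0) (hw' : q w' = 0) (e : T'.P (F ∙ w') = T.P (F ∙ w)) :
    Aw T' hw' ≤ Aw T hw := by
  rintro _ ⟨s, hs, rfl⟩
  have := σ.γ.nontrivial
  have h := ae_mem_Rd (T := T') hw' hs
  exact G w h0 hw _ (σ'.ae_mem _ _) ⟨e ▸ h.1, fun x hx => e ▸ h.2 x ((σ'.cp.mem_perp σ.hB).1
    (e ▸ (σ.cp.mem_perp σ.hB).2 hx))⟩

end Sl

end Cfsg.Lib.TO
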