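import Cfsg.Agent.Lib.TO.Three

/-!
# Orthogonal tensor powers: the matrix statements
-/

set_option autoImplicit false
set_option linter.unusedSectionVars false

namespace Cfsg.Lib.TO

open Module QuadraticMap Cfsg.Lib.TW Cfsg.Lib.TMax Function
open Cfsg.Lib.Orth
open Cfsg.Lib.Unitary (UG)
open scoped commutatorElement
open Matrix Cfsg.Geo Cfsg.Lib.Asch
open scoped MatrixGroups

theorem Sl.kr_mem_omega {F U W V : Type*} [Field F] [AddCommGroup U] [Module F U] [AddCommGroup W]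
    [Module F W] [AddCommGroup V] [Module F V] {q : QuadraticForm F U} {Q : QuadraticForm F V}
    {T : TF F U W V} [Finite F] [FiniteDimensional F U] (σ : Sl q Q (O Q) T) {b}
    (hb : b ∈ eichGroup q) : T.kr b.1 1 ∈ (commutator (O Q)).map (O Q).subtype :=
  σ.γ.perf (L := ((commutator (O Q)).map (O Q).subtype).comap (T.krHom.comp (O q).subtype))
    (fun _ ha _ hb => ⟨_, Subgroup.commutator_mem_commutator (Subgroup.mem_top ⟨_, σ.su' ha⟩)
      (Subgroup.mem_top ⟨_, σ.su' hb⟩), (map_commutatorElement (T.krHom.comp (O q).subtype) _ _).symm⟩)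
    hb

variable {F : Type*} [Field F] [Fintype F] {κ : Type} [Fintype κ] [DecidableEq κ] {k t : ℕ}
  {f₁ : (Fin k → F) → (Fin k → F) → F}

theorem exists_quad (h2 : (2 : F) ≠ 0) (h₁ : IsSymmetricForm f₁) {c : F} (hc : c ≠ 0) :
    ∃ q : QuadraticForm F (Fin k → F), ND q ∧ polarBilin q = bil (sform_of_symmetric h₁) c := by
  have h := ef_bil (sform_of_symmetric h₁) hc rfl (.inl rfl) fun s =>
    ⟨c * f₁ s s / 2, by simp only [RingHom.id_apply]; field_simp; ring⟩
  have e : polarBilin ((2⁻¹ : F) • LinearMap.BilinMap.toQuadraticMap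
      (bil (sform_of_symmetric h₁) c)) = bil (sform_of_symmetric h₁) c := by
    refine LinearMap.ext₂ fun x y => ?_
    simp only [polarBilin_apply_apply, polar_smul, coeFn_smul,
      LinearMap.BilinMap.polar_toQuadraticMap, h.comm y x, smul_eq_mul]
    field_simp; ring
  exact ⟨_, by rw [ND, e]; exact ⟨h.nondeg, h.nondeg'⟩, e⟩

theorem ou_of {U : Type*} [AddCommGroup U] [Module F U] [FiniteDimensional F U]
    {q : QuadraticForm F U} (hq : ND q) (h2 : (2 : F) ≠ 0) (h3 : finrank F U = 3)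
    (h : Fintype.card F ≠ 3) : OU q := by
  refine ⟨hq, h2, h3.ge, .inr ⟨fun u v h0 hu hv huv => by_contra fun h1 => ?_, by_contra fun h1 => ?_⟩⟩
  · have h4 := finrank_add_finrank_perp hq (Submodule.span F {u, v})
    have := Submodule.finrank_mono (show Submodule.span F {u, v} ≤ perp q (Submodule.span F {u, v})
      from Submodule.span_le.2 (by
        rintro _ (rfl | rfl)
        exacts [Orth.mem_perp_pair.2 ⟨polar_sing hu, (polar_comm _ _ _).trans huv⟩,
          Orth.mem_perp_pair.2 ⟨huv, polar_sing hv⟩]))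
    rw [Unitary.finrank_span_pair_of_linearIndependent ((LinearIndependent.pair_iff' h0).2
      fun a ha => h1 (Submodule.mem_span_singleton.2 ⟨a, ha⟩))] at h4 this
    omega
  classical
  have h4 := Finset.card_le_card (show Finset.univ ⊆ ({0, 1, -1} : Finset F) from fun t _ => by
    by_contra h; simp at h; exact h1 ⟨t, h.1, by simp [sq_eq_one_iff, h.2]⟩)
  have h5 : ({0, 1, -1} : Finset F).card = 3 := Finset.card_eq_three.2 ⟨_, _, _, zero_ne_one,
    by simp, fun e => h2 (by linear_combination e), rfl⟩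
  exact h (le_antisymm (h5 ▸ h4) (h5 ▸ Finset.card_le_univ _))

theorem isMaximalIn_pow {Q : QuadraticForm F (κ → F)} (hQ : ND Q) (hn : 6 ≤ Fintype.card κ)
    (ht : 2 ≤ t) (h₁ : IsSymmetricForm f₁) {q : QuadraticForm F (Fin k → F)}
    (hq : polarBilin q = bil (sform_of_symmetric h₁) 1) (γ : OU q) (hk : k ≠ 4) (H : Dich q t)
    {e : κ ≃ (Fin t → Fin k)} {P : GL κ F} (hT : IsTensorPowerFormStructure id (polar Q) f₁ e P) :
    IsMaximalIn (omegaGL Q) (tensorWreathSubgroup k t e P ⊓ omegaGL Q) := by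
  have h3 : 3 ≤ k := by simpa using γ.three
  refine Linear.isMaximalIn_inf ((amb_omega hQ hn).not_pow (by omega) ht (by omega) e P)
    fun M hM hM' g hg hg' => ?_
  obtain ⟨Φ, p, -, h2, h4⟩ := exists_pv (sform_of_symmetric h₁) (B := polarBilin Q)
    (fun u v => polar_comm Q u v) (by omega) (by omega) hT
  have : Nontrivial (Fin (k ^ (t - 1)) → F) := Module.nontrivial_of_finrank_pos (R := F) (by
    simpa using pow_pos (by omega) _)
  have h5 : ∀ g, Φ.Wr g → g ∈ (commutator (O Q)).map (O Q).subtype →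
      g ∈ M.map (Unitary.glEquiv _ F).toMonoidHom := fun g h h' => by
    obtain ⟨g, rfl⟩ := (Unitary.glEquiv _ F).surjective g
    exact ⟨g, hM ⟨h2 g h, (glEquiv_mem_omega g).1 h'⟩, rfl⟩
  have cp : ∀ i, Cp (polarBilin q) (polarBilin Q) (Φ.T i) := fun i => γ.cp_of_adj fun a a' h x y => by
    rw [← Φ.single, ← Φ.single]
    exact p.π_adj (fun j => by
      by_cases e : j = i
      · simpa [e, ← hq, Ad] using h
      · simp [e]) x y
  refine (H (Fin t) _ _ Q (M.map (Unitary.glEquiv _ F).toMonoidHom) Φ (by simp) ⟨γ, by simpa, hQ, cp, by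
      rintro _ ⟨g, hg, rfl⟩
      exact Subgroup.map_subtype_le _ ((glEquiv_mem_omega g).2 (hM' hg)), ?_, fun s s' => ?_⟩
    (by simp [Fintype.card_congr e])).elim (fun h => (hg' (h2 g (mem_WG.1 (h ⟨g, hg, rfl⟩)))).elim)
    fun h g hg => ?_
  · rintro i _ ⟨b, hb, rfl⟩
    exact h5 _ (Φ.wr_kr i _) ((γ.sl_top hQ (cp i)).kr_mem_omega hb)
  · obtain ⟨a, e1, e2⟩ := h4 s
    obtain ⟨b, e3, e4⟩ := h4 s'
    exact ⟨_, h5 _ (e1.comm e3).wr ⟨_, Subgroup.commutator_mem_commutator (Subgroup.mem_top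
      ⟨_, mem_O_of_UG γ.two (p.perm_mem e2)⟩) (Subgroup.mem_top
      ⟨_, mem_O_of_UG γ.two (p.perm_mem e4)⟩), rfl⟩, (e1.comm e3).conj_e⟩
  · obtain ⟨g', h6, h7⟩ := h ((glEquiv_mem_omega g).2 hg)
    rwa [← (Unitary.glEquiv _ F).injective h7]

theorem isMaximalIn_pow_three {Q : QuadraticForm F (κ → F)} (hQ : ND Q) (h2 : (2 : F) ≠ 0)
    (hF : Fintype.card F ≠ 3) (ht : 2 ≤ t) {f₁ : (Fin 3 → F) → (Fin 3 → F) → F}
    (h₁ : IsSymmetricForm f₁) {e : κ ≃ (Fin t → Fin 3)} {P : GL κ F}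
    (hT : IsTensorPowerFormStructure id (polar Q) f₁ e P) :
    IsMaximalIn (omegaGL Q) (tensorWreathSubgroup 3 t e P ⊓ omegaGL Q) := by
  obtain ⟨q, h3, h4⟩ := exists_quad h2 h₁ one_ne_zero
  refine isMaximalIn_pow hQ ?_ ht h₁ h4 (ou_of h3 h2 (by simp) hF) (by decide)
    (dich_three (by simp) t) hT
  rw [Fintype.card_congr e, Fintype.card_pi_const, Fintype.card_fin]
  exact le_trans (by decide) (Nat.pow_le_pow_right (by decide) ht)

end Cfsg.Lib.TO
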