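import Cfsg.Agent.Lib.TO.Inv3

/-!
# Tensor powers of a three-dimensional orthogonal space
-/

set_option autoImplicit false
set_option linter.unusedSectionVars false

namespace Cfsg.Lib.TO

open Module QuadraticMap Cfsg.Lib.TW Cfsg.Lib.TMax Function
open Cfsg.Lib.Orth
open Cfsg.Lib.Unitary (UG)
open scoped commutatorElement

universe u

section

variable {F U W V : Type*} [Field F] [AddCommGroup U] [Module F U] [AddCommGroup W] [Module F W]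
  [AddCommGroup V] [Module F V] {q : QuadraticForm F U} {Q : QuadraticForm F V}
  {T T' : TF F U W V} {M : Subgroup (V ≃ₗ[F] V)} {g k : V ≃ₗ[F] V} {v x y w s : U}
  {ι : Type*} [DecidableEq ι] [Fintype ι] {Φ : Fam ι F U W V} {i j l m : ι}

theorem smul_dv (g : V ≃ₗ[F] V) (v : U) : dv (g • T) q v = g * dv T q v * g⁻¹ := T.smul_kr g _ _

theorem dv_mem_CG (h : i ≠ j) (v : U) : dv (Φ.T j) q v ∈ CG (Φ.T i) := cm_kr h _

theorem dv_comm' (h : i ≠ j) (v x : U) :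
    dv (Φ.T i) q v * dv (Φ.T j) q x = dv (Φ.T j) q x * dv (Φ.T i) q v :=
  ((dv_mem_CG h x).comm_kr _).symm

theorem pair_sq (h : i ≠ j) (v x : U) :
    dv (Φ.T i) q v * dv (Φ.T j) q x * (dv (Φ.T i) q v * dv (Φ.T j) q x) = 1 := by
  rw [mul_assoc, ← mul_assoc (dv (Φ.T j) q x), ← dv_comm' h, mul_assoc, dv_mul_self, mul_one,
    dv_mul_self]

theorem conj_mem_CG (h : k ∈ CG T) (g : V ≃ₗ[F] V) : g * k * g⁻¹ ∈ CG (g • T) := h.smul_tf g

theorem fix_of_cm [FiniteDimensional F U] (hv : v ≠ 0) (hg : g ∈ CG T) {z : V}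
    (h : ∀ a, T.e a z ∈ T.P (F ∙ v) → g (T.e a z) = T.e a z) : g z = z := by
  obtain ⟨φ, hφ⟩ := exists_dual_one (F := F) hv
  simpa using end_ind (p := fun a => g (T.e a z) = T.e a z) (by simp) (fun y ψ => by
    have := congrArg (T.e (φ.smulRight y)) (h (ψ.smulRight v) (T.e_r v ψ z ▸ T.t_mem_P1 _ _))
    rw [← LinearEquiv.coe_coe, ← Cm.apply hg] at this
    simpa [TF.e_r, hφ] using this) (fun a b ha hb => by simp [ha, hb]) 1

variable [Finite F] [FiniteDimensional F U] [Nontrivial W]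

theorem OU.w1 (γ : OU q) (h : finrank F U < 5) : W1 q := (γ.cs.resolve_left h.not_ge).1

theorem Sub.comm (h : Sub (g • Φ.T j) (Φ.T l)) (e : m ≠ l) (a b) :
    Commute (g * (Φ.T j).kr a 1 * g⁻¹) ((Φ.T m).kr b 1) :=
  let ⟨_, h1⟩ := h.conj_kr a
  h1 ▸ (cm_kr e _).comm_kr b

theorem OU.eq_of_sub (γ : OU q) (hv : q v ≠ 0) (h : Sub (g • Φ.T j) (Φ.T l))
    (h' : g * dv (Φ.T j) q v * g⁻¹ ∉ CG (Φ.T m)) : m = l :=
  let ⟨_, h1⟩ := h.conj_kr (nr q v).1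
  by_contra fun e => h' (h1 ▸ cm_kr e _)

theorem OU.conj_notMem (γ : OU q) (hv : q v ≠ 0) (h : Sub (g • T) T') :
    g * dv T q v * g⁻¹ ∉ CG T' := fun e => γ.dv_notMem hv (T := g • T) (smul_dv (T := T) g v ▸ h.cm e)

theorem OU.mul_notMem (γ : OU q) (hv : q v ≠ 0) (hk : k ∈ CG T) : dv T q v * k ∉ CG T :=
  fun e => γ.dv_notMem hv ((mul_mem_cancel_right hk).1 e)

/-- A product of involutions of two factors determines them. -/
theorem OU.pair_unique (γ : OU q) (h3 : finrank F U = 3) (hv : q v ≠ 0) (hx : q x ≠ 0) (hij : i ≠ j)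
    (hlm : l ≠ m) (e : dv (Φ.T i) q v * dv (Φ.T j) q x = dv (Φ.T l) q y * dv (Φ.T m) q w) :
    dv (Φ.T i) q v = dv (Φ.T l) q y ∨ dv (Φ.T i) q v = dv (Φ.T m) q w := by
  have k : ∀ {l m y w}, l ≠ m → i ≠ m → dv (Φ.T i) q v * dv (Φ.T j) q x =
      dv (Φ.T l) q y * dv (Φ.T m) q w → dv (Φ.T i) q v = dv (Φ.T l) q y := fun {l m y w} hlm h e => by
    obtain rfl : i = l := by_contra fun h' =>
      γ.mul_notMem hv (dv_mem_CG hij x) (e ▸ mul_mem (dv_mem_CG h' _) (dv_mem_CG h _))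
    obtain ⟨c, hc⟩ := scalar_of_kr (T := Φ.T i) (a := (nr q y * nr q v).1) (b := 1) (by
      rw [← dv_mul rfl, ← mul_mem_cancel_right (dv_mem_CG hij x), mul_assoc, e, ← mul_assoc,
        dv_mul_self, one_mul]
      exact dv_mem_CG h _)
    rw [dv, dv, γ.nr_eq h3 (c := c) (x := y) fun z => by
      rw [← map_smul, ← hc, ← LinearEquiv.mul_apply, ← Subgroup.coe_mul, ← mul_assoc, nr_mul_self,
        one_mul]]
  by_cases h : i = m
  · exact .inr (k hlm.symm (h ▸ hlm.symm) (e.trans ((dv_mem_CG hlm w).comm_kr _).symm))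
  · exact .inl (k hlm h e)

/-- An involution of a factor cannot interchange two factors of another decomposition. -/
theorem OU.not_swap [FiniteDimensional F W] (γ : OU q) (h3 : finrank F U = 3) (hv : q v ≠ 0)
    (hc : ∀ a b, Commute (dv T' q v * T.kr a 1 * (dv T' q v)⁻¹) (T.kr b 1))
    (h : ∀ b ∈ eichGroup q, T.kr b.1 1 * (dv T' q v * T.kr b.1 1 * (dv T' q v)⁻¹) ∈ CG T') :
    False := by
  have := T.φ.finiteDimensional
  obtain ⟨a, b, ha, hb, hab, h1, h2⟩ := γ.exists_four h3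
  obtain ⟨c, hc0, hac, hbc, -⟩ := γ.third h3 ha hb hab
  obtain ⟨x, hx, x1⟩ := γ.exists_perp hv 1
  obtain ⟨y, y1, hy, hxy, -⟩ := γ.third h3 hv (by simp [x1]) hx
  replace h1 := h _ h1
  replace h2 := h _ h2
  have e1 := LinearEquiv.congr_fun (hc (nr q a).1 (nr q b).1).eq
  have e2 := LinearEquiv.congr_fun (hc (nr q b).1 (nr q b).1).eq
  have e3 : ∀ z a r, (dv T' q v * dv T q z * (dv T' q v)⁻¹) (T.e a r) =
      T.e a ((dv T' q v * dv T q z * (dv T' q v)⁻¹) r) := fun z a r => Cm.apply (γ.cm_of_comm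
        fun b _ => T.kr_coe _ ▸ congrArg LinearEquiv.toLinearMap (hc (nr q z).1 b.1).eq) a r
  have e4 := LinearEquiv.congr_fun (dv_comm (T := T) hab)
  have e5 := LinearEquiv.congr_fun (dv_mul_self (T := T) (q := q) b)
  have e6 := LinearEquiv.congr_fun (dv_mul_self (T := T') (q := q) v)
  simp only [← dv.eq_1, dv_inv, LinearEquiv.mul_apply, LinearEquiv.coe_one, id] at e1 e2 e3 e4 e5 e6
  rw [← dv, dv_inv] at h1 h2
  generalize hX : dv T' q v = X at *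
  let Y := LinearMap.ker ((dv T q a * (X * dv T q a * X)).toLinearMap - 1) ⊓
    LinearMap.ker ((dv T q b * (X * dv T q b * X)).toLinearMap + 1) ⊓ LinearMap.ker (X.toLinearMap - 1)
  have hY : ∀ z, z ∈ Y ↔ (dv T q a (X (dv T q a (X z))) = z ∧ dv T q b (X (dv T q b (X z))) = -z) ∧
      X z = z := fun z => by simp [Y, sub_eq_zero, add_eq_zero_iff_eq_neg]
  have k : ∀ z, dv T q a (X (dv T q a (X z))) = z → dv T q b (X (dv T q b (X z))) = -z → X z = -z →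
      dv T q b z ∈ Y := fun z z1 z2 z3 => (hY _).2 ⟨⟨by rw [e1, e4, z1], by rw [e2, z2, map_neg]⟩,
        (dv T q b).injective (by simpa [z3, e5] using z2)⟩
  let φ : Y × Y →ₗ[F] V := (T'.e (r q x v) ∘ₗ Y.subtype).coprod (T'.e (r q y v) ∘ₗ Y.subtype)
  have k1 : ∀ z, dv T q b (φ z) ∈ Y := fun ⟨⟨z, hz⟩, ⟨z', hz'⟩⟩ => by
    rw [hY] at hz hz'
    have f1 := h1.apply
    have f2 := h2.apply
    simp only [LinearEquiv.coe_coe, LinearEquiv.mul_apply] at f1 f2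
    refine k _ (by simp [φ, f1, hz.1.1, hz'.1.1]) (by simp [φ, f2, hz.1.2, hz'.1.2, add_comm]) ?_
    simp [φ, e_r, ← hX, dv_t, nr_perp hx, nr_perp hy, add_comm]
  have k2 := LinearMap.finrank_le_finrank_of_injective
    (f := ((dv T q b).toLinearMap ∘ₗ φ).codRestrict Y k1) ((injective_iff_map_eq_zero _).2
      fun ⟨⟨z, hz⟩, ⟨z', hz'⟩⟩ e => by
        obtain ⟨u, rfl⟩ := T'.mem_P1.1 ((dv_fix γ.two hv).1 (hX ▸ ((hY _).1 hz).2))
        obtain ⟨u', rfl⟩ := T'.mem_P1.1 ((dv_fix γ.two hv).1 (hX ▸ ((hY _).1 hz').2))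
        replace e := (dv T q b).map_eq_zero_iff.1 (congrArg Subtype.val e)
        have f1 := congrArg (cw T' q x) e
        have f2 := congrArg (cw T' q y) e
        simp [φ, r_apply, hxy, polar_comm q y x, polar_self', γ.two, hv, x1, y1] at f1 f2
        simp [f1, f2])
  have k3 : ∀ z ∈ Y, z = 0 := (Submodule.eq_bot_iff _).1 (Submodule.finrank_eq_zero.1 (by
    rw [finrank_prod] at k2; omega))
  obtain ⟨u, hu⟩ := exists_ne (0 : W)
  obtain ⟨s, hs⟩ : ∃ s, cw T q s (X (T.t c u)) ≠ 0 := by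
    by_contra! h
    obtain ⟨u', e⟩ := T.mem_P1.1 (γ.mem_P (w := 0) fun s _ => h s)
    exact T.t_ne_zero (v := c) (by rintro rfl; simp at hc0) hu (X.map_eq_zero_iff.1 (by simp [← e]))
  have z1 : dv T q a (X (dv T q a (X (T.e (r q b s) (X (T.t c u)))))) = T.e (r q b s) (X (T.t c u)) := by
    rw [e3, e6]; simp [dv_t, nr_perp hac, nr_perp hab, e_r]
  have z2 : dv T q b (X (dv T q b (X (T.e (r q b s) (X (T.t c u)))))) =
      -T.e (r q b s) (X (T.t c u)) := by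
    rw [e3, e6]; simp [dv_t, nr_perp hbc, nr_self hb, e_r]
  refine T.t_ne_zero (v := b) (by rintro rfl; simp at hb) hs ((e_r b s _).symm.trans ?_)
  generalize T.e (r q b s) (X (T.t c u)) = z at z1 z2
  have f1 := h1.comm_kr (nr q v).1
  have f2 := h2.comm_kr (nr q v).1
  rw [← dv, hX] at f1 f2
  replace f1 := LinearEquiv.congr_fun f1 z
  replace f2 := LinearEquiv.congr_fun f2 z
  simp only [LinearEquiv.mul_apply, z1, z2] at f1 f2
  exact (dv T q b).map_eq_zero_iff.1 (k3 _ (k z z1 z2 (eq_neg_of_add_eq_zero_right (k3 _ ((hY _).2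
    ⟨⟨by simp [z1, f1], by simp [z2, f2, add_comm]⟩, by simp [e6, add_comm]⟩)))))

end

variable {F W V : Type u} {U : Type*} [Field F] [AddCommGroup U] [Module F U] [AddCommGroup W]
  [Module F W] [AddCommGroup V] [Module F V] {q : QuadraticForm F U} {Q : QuadraticForm F V}
  {M : Subgroup (V ≃ₗ[F] V)} {ι : Type} [DecidableEq ι] [Fintype ι] {Φ : Fam ι F U W V}
  [Finite F] [FiniteDimensional F U] [FiniteDimensional F W] [FiniteDimensional F V] [Nontrivial W]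
  {g k : V ≃ₗ[F] V} {i j l m : ι} {v x y w : U}

namespace St

variable (μ : St q Q M Φ) (h3 : finrank F U = 3)
include μ h3

theorem cen_one (h0 : w ≠ 0) (hw : q w = 0) {a} (ha : a ∈ Aw (Φ.T j) hw) (h1 : a ≠ 1) (hg : g ∈ M)
    (e : g * a = a * g) : g ∈ WG Φ :=
  μ.loc h0 hw h0 hw hg (μ.γ.map_P_of_ae (μ.γ.w1 (by omega)) h0 hw ha h1 e)

theorem cm_of_pow (p : ℕ) [Fact p.Prime] [CharP F p] (hv : q v ≠ 0) (hg : g ∈ M) (hg' : g ∈ WG Φ)
    (h : g ^ p = 1) (e : g * dv (Φ.T j) q v = dv (Φ.T j) q v * g) : g ∈ CG (Φ.T j) := by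
  obtain ⟨s, hs⟩ := hg'
  have := hs j
  rw [← μ.γ.eq_of_sub hv this (m := j) (by simpa [e] using μ.γ.dv_notMem hv)] at this
  exact (μ.sl j).cm_of_pow h3 p hv (μ.le hg) h this e

/-- The centraliser of an involution of a factor stabilises the decomposition. -/
theorem cd (hv : q v ≠ 0) (hg : g ∈ M) (h : g * dv (Φ.T j) q v = dv (Φ.T j) q v * g) :
    g ∈ WG Φ := by
  obtain ⟨p, hp⟩ := CharP.exists F
  have := Fact.mk (CharP.char_is_prime F p)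
  have := μ.nontrivial
  have := finite_equiv (F := F) (V := V)
  obtain ⟨w, f, hf⟩ := μ.γ.exists_hyp
  have hw := hf.left
  have h0 := hf.ne_zero
  have v0 : v ≠ 0 := by rintro rfl; simp at hv
  set C := M ⊓ Subgroup.centralizer {dv (Φ.T j) q v}
  have c1 : ∀ g ∈ M, Cm (Φ.T j) g.toLinearMap → g ∈ C := fun g hg h =>
    ⟨hg, fun _ e => e ▸ (h.comm_kr _).symm⟩
  have c2 : ∀ g ∈ C, ∀ z ∈ (Φ.T j).P (F ∙ v), g z ∈ (Φ.T j).P (F ∙ v) := fun g hg z =>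
    map_P_of_comm μ.γ.two hv (hg.2 _ rfl).symm
  have c3 : ∀ l ≠ j, ∀ a ∈ Aw (Φ.T l) hw, a ∈ C := fun l hl _ ⟨s, _, e⟩ =>
    e ▸ c1 _ ((μ.sl l).ae_mem w s) (cm_kr hl.symm _)
  have c4 : ∀ l ≠ j, ¬ p ∣ Nat.card (C ⊓ Fx fun z => z ∈ (Φ.T j).P (F ∙ v) ∧ cw (Φ.T l) q w z = 0 :
      Subgroup _) := fun l hl h => by
    obtain ⟨x, hx, h1, h2⟩ := exists_order.1 (dvd_card_cent (aw_pgroup (T := Φ.T l) p hw) (fun a ha =>
      Subgroup.mem_normalizer_fintype fun x hx => Subgroup.mem_inf.2 ⟨C.mul_mem (C.mul_mem (c3 l hl a ha) hx.1)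
        (C.inv_mem (c3 l hl a ha)), conj_mem_Fx hx.2 fun y hy =>
          ⟨c2 _ (C.inv_mem (c3 l hl a ha)) y hy.1, by
            obtain ⟨s, hs, e⟩ := inv_mem ha
            rw [e, ae, cw_kr, show ((eich q w s)⁻¹).1 w = w from
              (LinearEquiv.symm_apply_eq _).2 (eich_apply_self hw hs).symm, hy.2]⟩⟩) h)
    have h4 := μ.cm_of_pow h3 p hv hx.1.1.1 (μ.cen_le h0 hw hx.1.1.1 fun a ha => (hx.2 a ha).symm) h2
      (hx.1.1.2 _ rfl).symm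
    exact h1 ((μ.sl l).eq_one_of_fix (μ.gd l) h0 hw hx.1.1.1 fun z hz => fix_of_cm v0 h4 fun a ha =>
      hx.1.2 _ ⟨ha, (Φ.cm_e hl a).cw_eq h0 hz⟩)
  have c5 : ∀ m ≠ j, C ⊓ Fx (· ∈ (Φ.T j).P (F ∙ v)) ≤ WG Φ := fun m hm => by
    have k1 : ¬ p ∣ Nat.card (C ⊓ Fx (· ∈ (Φ.T j).P (F ∙ v)) : Subgroup _) := fun h => c4 m hm
      (h.trans (Subgroup.card_dvd_of_le fun x hx => ⟨hx.1, fun y hy => hx.2 y hy.1⟩))
    have k2 : Aw (Φ.T m) hw ≤ Subgroup.normalizer (C ⊓ Fx (· ∈ (Φ.T j).P (F ∙ v)) : Subgroup _) :=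
      fun a ha => Subgroup.mem_normalizer_fintype fun x hx => ⟨C.mul_mem (C.mul_mem (c3 m hm a ha) hx.1)
        (C.inv_mem (c3 m hm a ha)), conj_mem_Fx hx.2 (c2 _ (C.inv_mem (c3 m hm a ha)))⟩
    by_cases h5 : 5 ≤ p
    · obtain ⟨s, hs, h1⟩ := μ.γ.exists_aniso h0 hw
      obtain ⟨y, hy, h2, h4⟩ := exists_cent_of_cube h5 (aw_pgroup p hw) k2 k1 ⟨s, hs, rfl⟩
        (orderOf_eq_prime (ae_pow p hw hs) fun e => by
          simpa [e, ← End.one_eq_id, polar_self', μ.γ.two, h1, map_eq_zero_iff _ (e_inj _),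
            μ.γ.r_ne h0 h0] using ae_sq (T := Φ.T m) hw hs) (ae_cube hw hs)
      exact fun x hx => μ.cen_one h3 h0 hw hy h2 hx.1.1 (h4 x hx)
    obtain ⟨n, hn⟩ := IsPGroup.iff_card.1 (aw_pgroup (T := Φ.T m) p hw)
    exact BG.coprime_abelian_gen_cent1 ⟨⟨fun a b => Subtype.ext (aw_comm hw a.2 b.2)⟩⟩
      (μ.γ.not_cyclic p (by omega) (by omega) h0 hw) k2
      (hn ▸ ((Nat.Prime.coprime_iff_not_dvd Fact.out).2 k1).pow_left n) fun a ha h1 x hx =>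
        μ.cen_one h3 h0 hw ha h1 hx.1.1.1 (hx.2 _ rfl).symm
  rcases μ.dich p v0 c1 (fun g hg u => c2 g hg _ (TF.t_mem_P1 _ _ _))
    (fun β ⟨g, hg, e⟩ => ⟨v, by simp [polar_self', μ.γ.two, hv], fun u u' => by
      rw [← e, ← e]; exact O.map_polar ⟨g, μ.le hg.1⟩ _ _⟩) with h1 | ⟨l, hl, h1⟩
  · have k : ∀ g ∈ C, ∀ m ≠ j, ∀ b ∈ eichGroup q, g * (Φ.T m).kr b.1 1 * g⁻¹ ∈ WG Φ :=
      fun g hg m hm b => eich_ind ((MulAut.conj g).toMonoidHom.comp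
        ((Φ.T m).krHom.comp (O q).subtype)) fun x y hx hy => by
          obtain ⟨l, hl, h2⟩ := h1 g hg m hm
          obtain ⟨b, hb, h4⟩ := h2 x y hx hy
          exact (mul_mem_cancel_left (inv_mem (kr_mem_WG l b.1))).1 (c5 m hm ⟨C.mul_mem (C.inv_mem
            (c1 _ ((μ.sl l).su' hb) (cm_kr hl.symm _))) (C.mul_mem (C.mul_mem hg
              (c1 _ ((μ.sl m).ae_mem x y) (cm_kr hm.symm _))) (C.inv_mem hg)), fun z hz =>
                (LinearEquiv.symm_apply_eq _).2 (h4 z hz)⟩)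
    have hg' : g ∈ C := ⟨hg, fun _ e => e ▸ h.symm⟩
    exact μ.γ.mem_WG_of_rel (μ.sl j).hB μ.cp ((μ.sl j).ug hg) j j (k g hg')
      (by simpa using k _ (C.inv_mem hg'))
  obtain ⟨x, hx, h2, h4, y, hy, h5⟩ := h1 w h0 hw
  refine (h5 (Subgroup.zpowers_le.2 (show x ^ p ∈ Fx (· ∈ (Φ.T j).P (F ∙ v)) from h4)
    (mem_zpowers_pow_iff.2 ?_) y hy)).elim
  exact (Nat.Prime.coprime_iff_not_dvd Fact.out).2 fun h => c4 l hl
    (h.trans (Subgroup.orderOf_dvd_natCard _ ⟨hx, fun y hy => h2 y hy.1 hy.2⟩))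

theorem loc3 (hv : q v ≠ 0) (hx : q x ≠ 0) (hg : g ∈ M)
    (h : g * dv (Φ.T j) q v * g⁻¹ = dv (Φ.T l) q x) : g ∈ WG Φ := by
  refine μ.γ.mem_WG_of_rel (μ.sl j).hB μ.cp ((μ.sl j).ug hg) j l (fun m hm b hb => μ.cd h3 (j := l) hx
    (mul_mem (mul_mem hg ((μ.sl m).su' hb)) (inv_mem hg)) ?_) fun m hm b hb => μ.cd h3 (j := j) hv
      (mul_mem (mul_mem (inv_mem hg) ((μ.sl m).su' hb)) hg) ?_
  · rw [← h, conj_mul, conj_mul, (dv_mem_CG hm v).comm_kr]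
  have := (dv_mem_CG (Φ := Φ) (q := q) hm x).comm_kr b.1
  rw [← h] at this
  calc _ = g⁻¹ * ((Φ.T m).kr b.1 1 * (g * dv (Φ.T j) q v * g⁻¹)) * g := by group
    _ = _ := by rw [← this]; group

theorem exists_dv (hv : q v ≠ 0) (hd : dv (Φ.T j) q v ∈ M) (hg : g ∈ M)
    (h : g * dv (Φ.T j) q v * g⁻¹ ∈ WG Φ) :
    ∃ l y, q y ≠ 0 ∧ g * dv (Φ.T j) q v * g⁻¹ = dv (Φ.T l) q y := by
  obtain ⟨p, hp⟩ := CharP.exists F
  have := Fact.mk (CharP.char_is_prime F p)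
  obtain ⟨s, hs⟩ := h
  have h1 := mul_mem (mul_mem hg hd) (inv_mem hg)
  rw [← smul_dv] at *
  have k : ∀ m, Sub (dv (g • Φ.T j) q v • Φ.T m) (Φ.T m) := fun m => by
    by_contra h
    have hc := (hs m).comm fun e => h (by simpa [← e] using hs m)
    refine μ.γ.not_swap h3 hv hc fun b => mem_of_swap p (dv_mul_self v) hc fun w s e1 e2 => ?_
    have h2 := mul_mem ((μ.sl m).ae_mem w s) (mul_mem (mul_mem h1 ((μ.sl m).ae_mem w s)) (inv_mem h1))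
    generalize ae (Φ.T m) q w s * _ = y at *
    have h4 := mul_mem (mul_mem (inv_mem hg) h2) hg
    have h5 : g⁻¹ * y * g * dv (Φ.T j) q v = dv (Φ.T j) q v * (g⁻¹ * y * g) := by
      rw [smul_dv] at e1
      calc _ = g⁻¹ * (y * (g * dv (Φ.T j) q v * g⁻¹)) * g := by group
        _ = _ := by rw [e1]; group
    simpa [mul_assoc] using conj_mem_CG (μ.cm_of_pow h3 p hv h4 (μ.cd h3 hv h4 h5)
      (by simpa [e2] using conj_pow (a := g⁻¹) (b := y) (i := p)) h5) g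
  by_contra h
  obtain ⟨c, hc⟩ := Φ.cen _ fun m => ((μ.sl m).inv_slot h3 (μ.le h1) (dv_mul_self v)
    (k m)).resolve_right fun ⟨y, β, h2, h4, e⟩ => h ⟨m, y, h2, by
      rw [e, μ.γ.eq_one_of_conj h3 h2 hv h4 ((smul_dv g v).symm.trans e), dv]⟩
  exact μ.γ.dv_notMem hv (show Cm (g • Φ.T j) _ from hc ▸ cm_one.smul c)

theorem fus (hv : q v ≠ 0) (hd : dv (Φ.T j) q v ∈ M) (hg : g ∈ M)
    (h : g * dv (Φ.T j) q v * g⁻¹ ∈ WG Φ) : g ∈ WG Φ :=
  let ⟨_, _, h1, h2⟩ := μ.exists_dv h3 hv hd hg h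
  μ.loc3 h3 hv h1 hg h2

theorem conj_dv (hv : q v ≠ 0) (hd : dv (Φ.T j) q v ∈ M) (hg : g ∈ M) (hg' : g ∈ WG Φ)
    (h : Sub (g • Φ.T j) (Φ.T l)) : ∃ y, q y ≠ 0 ∧ g * dv (Φ.T j) q v * g⁻¹ = dv (Φ.T l) q y :=
  let ⟨_, y, h1, h2⟩ := μ.exists_dv h3 hv hd hg (mul_mem (mul_mem hg' (kr_mem_WG j _)) (inv_mem hg'))
  ⟨y, h1, μ.γ.eq_of_sub hv h (h2 ▸ μ.γ.dv_notMem h1) ▸ h2⟩

variable (hv : q v ≠ 0) (hx : q x ≠ 0) (hd : dv (Φ.T i) q v ∈ M) (hd' : dv (Φ.T j) q x ∈ M)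
  (hij : i ≠ j)
include hv hx hd hd' hij

theorem conj_pair (hg : g ∈ M) (hg' : g ∈ WG Φ) (h : g * (dv (Φ.T i) q v * dv (Φ.T j) q x) =
    dv (Φ.T i) q v * dv (Φ.T j) q x * g) :
    g * dv (Φ.T i) q v * g⁻¹ = dv (Φ.T i) q v ∨ g * dv (Φ.T i) q v * g⁻¹ = dv (Φ.T j) q x := by
  obtain ⟨s, hs⟩ := id hg'
  obtain ⟨y, h1, e1⟩ := μ.conj_dv h3 hv hd hg hg' (hs i)
  obtain ⟨z, h2, e2⟩ := μ.conj_dv h3 hx hd' hg hg' (hs j)
  exact e1 ▸ μ.γ.pair_unique h3 h1 h2 (s.injective.ne hij) hij (by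
    rw [← e1, ← e2, conj_mul, h, mul_inv_cancel_right])

theorem cen_pair (hg : g ∈ M) (h : g * (dv (Φ.T i) q v * dv (Φ.T j) q x) =
    dv (Φ.T i) q v * dv (Φ.T j) q x * g) : g ∈ WG Φ := by
  have := finite_equiv (F := F) (V := V)
  obtain ⟨y, h1, h2, h4⟩ := μ.γ.exists_nr h3 hv
  obtain ⟨z, h5, h6, -, e⟩ := μ.γ.third h3 hv h1 h2
  have k : ∀ y, q y ≠ 0 → dv (Φ.T i) q y ∈ M → dv (Φ.T i) q v * dv (Φ.T i) q y =
      dv (Φ.T i) q y * dv (Φ.T i) q v → dv (Φ.T i) q y ∈ M ⊓ Subgroup.centralizer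
        {dv (Φ.T i) q v * dv (Φ.T j) q x} ∧ dv (Φ.T i) q y ∈ WG Φ ∧ dv (Φ.T i) q y ∉
          Subgroup.zpowers (dv (Φ.T i) q v * dv (Φ.T j) q x) ∧ ∀ g ∈ M ⊓ Subgroup.centralizer
            {dv (Φ.T i) q v * dv (Φ.T j) q x}, g * dv (Φ.T i) q y * g⁻¹ ∈ WG Φ → g ∈ WG Φ :=
    fun y hy hm e => ⟨⟨hm, fun _ e' => by rw [e', mul_assoc, ← dv_comm' hij, ← mul_assoc, e, mul_assoc]⟩,
      kr_mem_WG i _, fun ⟨n, hn⟩ => by
        obtain ⟨n, rfl | rfl⟩ := Int.even_or_odd' n <;> simp only [zpow_add, zpow_mul, zpow_two,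
          pair_sq hij, one_zpow, one_mul, zpow_one] at hn
        · exact μ.γ.dv_ne hy hn.symm
        · exact μ.γ.dv_notMem hx ((mul_mem_cancel_left (dv_mem_CG hij.symm v)).1
            (hn ▸ dv_mem_CG hij.symm y)), fun g hg => μ.fus h3 hy hm hg.1⟩
  refine cent_le_of_four (X := M ⊓ Subgroup.centralizer {dv (Φ.T i) q v * dv (Φ.T j) q x})
    (z := dv (Φ.T i) q v) (x := dv (Φ.T i) q y) (dv_mul_self v) (dv_mul_self y) (dv_comm h2) ⟨⟨mul_mem hd hd', fun _ e => e ▸ rfl⟩,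
      mul_mem (kr_mem_WG i _) (kr_mem_WG j _)⟩ (fun g hg => (hg.2 _ rfl).symm) ?_
        (fun g hg hg' => ?_) ⟨hg, fun _ e => e ▸ h.symm⟩
  · rintro _ (rfl | rfl | rfl)
    exacts [k v hv hd rfl, k y h1 ((μ.sl i).su' h4) (dv_comm h2),
      by
        have e' : _ = dv (Φ.T i) q z := dv_mul e
        exact e'.symm ▸ k z h5 (e' ▸ mul_mem hd ((μ.sl i).su' h4)) (dv_comm h6)]
  rcases μ.conj_pair h3 hv hx hd hd' hij hg.1 hg' (hg.2 _ rfl).symm with e | e <;>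
    simp [e, dv_inv, dv_mul_self]

theorem wm_pair (hg : g ∈ M) (h : g * (dv (Φ.T i) q v * dv (Φ.T j) q x) * g⁻¹ ∈ WG Φ) :
    g ∈ WG Φ := by
  obtain ⟨p, hp⟩ := CharP.exists F
  have := Fact.mk (CharP.char_is_prime F p)
  have h1 := mul_mem (mul_mem hg (mul_mem hd hd')) (inv_mem hg)
  have k : ∀ y ∈ M, y * (g * (dv (Φ.T i) q v * dv (Φ.T j) q x) * g⁻¹) =
      g * (dv (Φ.T i) q v * dv (Φ.T j) q x) * g⁻¹ * y → g⁻¹ * y * g * (dv (Φ.T i) q v *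
        dv (Φ.T j) q x) = dv (Φ.T i) q v * dv (Φ.T j) q x * (g⁻¹ * y * g) := fun y hy e =>
    calc _ = g⁻¹ * (y * (g * (dv (Φ.T i) q v * dv (Φ.T j) q x) * g⁻¹)) * g := by group
      _ = _ := by rw [e]; group
  have h2 := (conj_mul ..).trans ((congrArg (g * · * g⁻¹) (pair_sq (Φ := Φ) (q := q) hij v x)).trans
    ((congrArg (· * g⁻¹) (mul_one g)).trans (mul_inv_cancel g)))
  generalize g * (dv (Φ.T i) q v * dv (Φ.T j) q x) * g⁻¹ = u at *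
  obtain ⟨s, hs⟩ := id h
  obtain ⟨a, -, ha, -, -, h4, -⟩ := μ.γ.exists_four h3
  by_cases e : i = s i
  · obtain ⟨y, h5, h6, h7⟩ : ∃ y, q y ≠ 0 ∧ nr q y ∈ eichGroup q ∧
        dv (Φ.T i) q y * u = u * dv (Φ.T i) q y := by
      rcases (μ.sl i).inv_slot h3 (μ.le h1) h2 (by simpa [← e] using hs i) with h | ⟨z, β, hz, -, rfl⟩
      · exact ⟨a, ha, h4, (h.comm_kr _).symm⟩
      obtain ⟨y, h5, h6, h7⟩ := μ.γ.exists_nr h3 hz
      exact ⟨y, h5, h7, by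
        rw [dv, TF.kr_mul, TF.kr_mul, ← Subgroup.coe_mul, ← nr_comm h6]; simp⟩
    have h8 := (μ.sl i).su' h6
    exact inv_mem_iff.1 (μ.fus h3 h5 h8 (inv_mem hg) (by simpa [dv] using (μ.cen_pair h3 hv hx hd hd'
      hij (mul_mem (mul_mem (inv_mem hg) h8) hg) (k _ h8 h7))))
  have h5 := (μ.sl i).su' h4
  obtain ⟨y, h6, h7⟩ := μ.conj_dv h3 ha h5 h1 h (hs i)
  refine μ.fus h3 hv hd hg (μ.cen_pair h3 ha h6 h5 (h7 ▸ mul_mem (mul_mem h1 h5) (inv_mem h1)) e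
    (mul_mem (mul_mem hg hd) (inv_mem hg)) (h7 ▸ mem_of_swap p (K := Subgroup.centralizer {_}) h2
      ((hs i).comm e) (fun w t e1 e2 => ?_) h4 _ rfl))
  have h8 := mul_mem ((μ.sl i).ae_mem w t) (mul_mem (mul_mem h1 ((μ.sl i).ae_mem w t)) (inv_mem h1))
  generalize ae (Φ.T i) q w t * _ = y at *
  have h9 := mul_mem (mul_mem (inv_mem hg) h8) hg
  have h10 := k y h8 e1
  have h11 : (g⁻¹ * y * g) ^ p = 1 := by simpa [e2] using conj_pow (a := g⁻¹) (b := y) (i := p)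
  rw [Subgroup.mem_centralizer_singleton_iff]
  suffices Commute (g⁻¹ * y * g) (dv (Φ.T i) q v) from
    calc _ = g * (g⁻¹ * y * g * dv (Φ.T i) q v) * g⁻¹ := by group
      _ = _ := by rw [this.eq]; group
  generalize g⁻¹ * y * g = z at *
  rcases μ.conj_pair h3 hv hx hd hd' hij h9 (μ.cen_pair h3 hv hx hd hd' hij h9 h10) h10 with e3 | e3
  · exact mul_inv_eq_iff_eq_mul.1 e3
  have e4 : z * dv (Φ.T j) q x * z⁻¹ = dv (Φ.T i) q v := by
    rw [← mul_inv_eq_iff_eq_mul, ← conj_mul, e3, dv_comm' hij] at h10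
    exact mul_left_cancel h10
  obtain ⟨n, hn⟩ := odd_char μ.γ p
  have : Commute (z ^ 2) (dv (Φ.T i) q v) := mul_inv_eq_iff_eq_mul.1 (by
    rw [pow_two, mul_inv_rev, ← mul_assoc, mul_assoc z z, mul_assoc z, e3, e4])
  have := this.pow_left (n + 1)
  rwa [← pow_mul, show 2 * (n + 1) = p + 1 by omega, pow_succ, h11, one_mul] at this

omit hv hx hd hd' hij

theorem zs : ZS M (WG Φ) {d | d ∈ M ∧ ∃ j v, q v ≠ 0 ∧ d = dv (Φ.T j) q v} := by
  refine ⟨?_, ?_, ?_, ?_⟩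
  · rintro _ ⟨-, j, v, hv, rfl⟩
    exact μ.γ.orderOf_dv hv
  · rintro _ ⟨h, j, v, hv, rfl⟩
    exact ⟨h, kr_mem_WG j _⟩
  · rintro _ ⟨h, j, v, hv, rfl⟩ g hg e
    exact ⟨μ.fus h3 hv h hg e, mul_mem (mul_mem hg h) (inv_mem hg), μ.exists_dv h3 hv h hg e⟩
  rintro _ ⟨h, i, v, hv, rfl⟩ _ ⟨h', j, x, hx, rfl⟩ h1 h2 g hg
  rcases eq_or_ne i j with rfl | e
  · rw [dv_mul rfl, dv_mul rfl] at h2
    obtain e | ⟨y, hy, e⟩ := μ.γ.nr_of_comm h3 hv hx (Subtype.ext (kr_inj h2))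
    · exact (h1 (by rw [dv, dv, e])).elim
    have e' : _ = dv (Φ.T i) q y := dv_mul e
    exact e'.symm ▸ μ.fus h3 hy (e' ▸ mul_mem h h') hg
  exact μ.wm_pair h3 hv hx h h' e hg

theorem le_WG : M ≤ WG Φ := by
  have := μ.γ.nontrivial
  have := finite_equiv (F := F) (V := V)
  by_cases h1 : Fintype.card ι ≤ 1
  · exact fun g _ => le_WG_of_card h1 g
  obtain ⟨i, j, hij⟩ := Fintype.exists_pair_of_one_lt_card (not_le.1 h1)
  have c1 : ⁅M, M⁆ ≤ M := Subgroup.commutator_le_self M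
  have c2 : ∀ g ∈ M, ∀ x ∈ ⁅M, M⁆, g * x * g⁻¹ ∈ ⁅M, M⁆ := fun g hg x hx =>
    (Subgroup.normalizer_commutator_ge_left M M hg x).1 hx
  have c3 : ∀ m, ∀ b ∈ eichGroup q, (Φ.T m).kr b.1 1 ∈ ⁅M, M⁆ := fun m b hb =>
    μ.γ.perf (L := ⁅M, M⁆.comap ((Φ.T m).krHom.comp (O q).subtype)) (fun a ha b hb => by
      rw [Subgroup.mem_comap, map_commutatorElement]
      exact Subgroup.commutator_mem_commutator ((μ.sl m).su' ha) ((μ.sl m).su' hb)) hb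
  suffices ⁅M, M⁆ ≤ WG Φ from fun g hg => μ.γ.mem_WG_of_rel (μ.sl i).hB μ.cp ((μ.sl i).ug hg) i i
    (fun m _ b hb => this (c2 g hg _ (c3 m b hb))) fun m _ b hb =>
      this (by simpa using c2 _ (inv_mem hg) _ (c3 m b hb))
  by_contra hn
  have Z := (μ.zs h3).mono c1 fun g hg => c2 g (c1 hg)
  obtain ⟨a, -, ha, -, -, h4, -⟩ := μ.γ.exists_four h3
  have c4 : ∀ m, dv (Φ.T m) q a ∈ {d | d ∈ M ∧ ∃ j v, q v ≠ 0 ∧ d = dv (Φ.T j) q v} ∩
      (⁅M, M⁆ : Subgroup _) := fun m => ⟨⟨(μ.sl m).su' h4, m, a, ha, rfl⟩, c3 m _ h4⟩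
  refine (Z.mul_mem (fun w hw h2 => ?_) (c4 i) (c4 j)
    (fun e => μ.γ.dv_notMem ha (e ▸ dv_mem_CG hij a)) (dv_comm' hij a a)).1.2.elim fun l ⟨y, _, e⟩ => ?_
  swap
  · by_cases h : i = l
    · exact μ.γ.mul_notMem ha (dv_mem_CG hij.symm a)
        (dv_comm' (Φ := Φ) hij a a ▸ e ▸ dv_mem_CG (h ▸ hij.symm) y)
    · exact μ.γ.mul_notMem ha (dv_mem_CG hij a) (e ▸ dv_mem_CG h y)
  by_contra! h
  have h5 := Inv.mul_self_of_orderOf h2
  have k : ∀ n ∈ ⁅M, M⁆, ∀ g ∈ ⁅M, M⁆, g * (n * w * n⁻¹ * w) * g⁻¹ ∈ WG Φ := fun n hn g hg => by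
    simpa [mul_assoc] using mul_mem (h _ (mul_mem hg hn)) (h g hg)
  have h6 : w ∈ WG Φ := by simpa using h 1 (one_mem _)
  obtain ⟨s, hs⟩ := id h6
  obtain ⟨c, hc⟩ := Φ.cen w.toLinearMap fun m => by
    by_cases e : m = s m
    · refine ((μ.sl m).inv_slot h3 (μ.le (c1 hw)) h5 (by simpa [← e] using hs m)).resolve_right ?_
      rintro ⟨v, β, hv, hβ, rfl⟩
      obtain ⟨n, h7, h8⟩ := μ.γ.move3 hv
      have h9 : q (n.1 v) ≠ 0 := by rwa [n.2]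
      obtain ⟨y, hy, -, -, e⟩ := μ.γ.third h3 h9 hv (by rwa [polar_comm])
      have e' : (Φ.T m).kr n.1 1 * (Φ.T m).kr (nr q v).1 β * ((Φ.T m).kr n.1 1)⁻¹ *
          (Φ.T m).kr (nr q v).1 β = dv (Φ.T m) q y := by
        simp only [dv, ← e, ← conj_nr, TF.kr_inv, TF.kr_mul]; simp [hβ]
      have h10 := c1 (e' ▸ mul_mem (c2 _ ((μ.sl m).su' h7) _ hw) hw)
      exact hn fun g hg => μ.fus h3 hy h10 (c1 hg) (e' ▸ k _ (c3 m n h7) g hg)
    obtain ⟨y, hy, e'⟩ := μ.conj_dv h3 ha (c4 m).1.1 (c1 hw) h6 (hs m)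
    refine (hn fun g hg => μ.wm_pair h3 ha hy (c4 m).1.1 (c1 (e' ▸ c2 _ (c1 hw) _ (c4 m).2)) e
      (c1 hg) ?_).elim
    simpa [← e', dv_inv, Inv.inv_eq_of_mul_self h5, mul_assoc] using k _ (c4 m).2 g hg
  have h7 : LinearEquiv.det w = 1 := Subgroup.commutator_le.2
    (fun a _ b _ => (by simp [commutatorElement_eq_one_iff_mul_comm, mul_comm] :
      ⁅a, b⁆ ∈ (LinearEquiv.det (R := F) (M := V)).ker)) hw
  have := μ.nontrivial
  obtain ⟨z, hz⟩ := exists_ne (0 : V)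
  have h8 : ∀ z, w z = c • z := LinearMap.congr_fun hc
  have h9 : (c - 1) * (c + 1) = 0 := (smul_eq_zero_iff_left hz).1 (by
    have := LinearEquiv.congr_fun h5 z
    simp only [LinearEquiv.mul_apply, h8, map_smul, LinearEquiv.coe_one, id] at this
    linear_combination (norm := module) this)
  rcases mul_eq_zero.1 h9 with e | e
  · exact Inv.ne_one_of_orderOf h2 (LinearEquiv.ext fun z => by simp [h8, sub_eq_zero.1 e])
  replace h7 := congrArg Units.val h7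
  rw [LinearEquiv.coe_det, hc, LinearMap.det_smul, eq_neg_of_add_eq_zero_left e, μ.rk, h3,
    Odd.neg_one_pow (Odd.pow (by decide))] at h7
  exact μ.γ.two (by simp at h7; linear_combination -h7)

end St

/-- The induction on the number of factors. -/
theorem dich_of (H : ∀ (ι : Type) [DecidableEq ι] [Fintype ι] (W V : Type u) [AddCommGroup W]
    [Module F W] [AddCommGroup V] [Module F V] [FiniteDimensional F W] [FiniteDimensional F V]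
    [Nontrivial W] (Q : QuadraticForm F V) (M : Subgroup (V ≃ₗ[F] V)) (Φ : Fam ι F U W V),
    St q Q M Φ → M ≤ WG Φ) (n : ℕ) : Dich q n := by
  induction n with
  | zero =>
    intro ι _ _ W V _ _ _ _ _ _ _ Q M Φ h μ _
    have := μ.γ.nontrivial
    exact .inl fun g _ => le_WG_of_card (by omega) g
  | succ n ih =>
    intro ι _ _ W V _ _ _ _ _ _ _ Q M Φ h μ hr
    have := μ.γ.nontrivial
    by_cases h1 : ∀ i, Gd q M (Φ.T i)
    · exact .inl (H ι W V Q M Φ ⟨μ, by simpa [h] using ih, h ▸ hr, h1⟩)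
    obtain ⟨j, hj⟩ := not_forall.1 h1
    have h2 := μ.γ.three
    rcases n with _ | n
    · exact .inl fun g _ => le_WG_of_card (by omega) g
    have : Nontrivial V := nontrivial_of_finrank_pos (R := F) (hr ▸ pow_pos (by omega) _)
    rw [(Φ.T j).finrank_eq, pow_succ', mul_right_inj' (by omega)] at hr
    exact .inr (μ.omega_le (hr ▸ h2.trans (Nat.le_self_pow n.succ_ne_zero _)) hj)

theorem dich_three (h3 : finrank F U = 3) (n : ℕ) : Dich q n :=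
  dich_of (fun _ _ _ _ _ _ _ _ _ _ _ _ _ _ _ μ => μ.le_WG h3) n

end Cfsg.Lib.TO
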