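import Cfsg.Agent.Lib.TO.PartB

/-!
# Orthogonal tensor powers: the stabiliser of the decomposition
-/

set_option autoImplicit false
set_option linter.unusedSectionVars false

namespace Cfsg.Lib.TO

open Module QuadraticMap Cfsg.Lib.TW Cfsg.Lib.TMax Function
open Cfsg.Lib.Orth
open Cfsg.Lib.Unitary (UG)
open scoped commutatorElement

variable {F U W V : Type*} [Field F] [AddCommGroup U] [Module F U] [AddCommGroup W] [Module F W]
  [AddCommGroup V] [Module F V] {q : QuadraticForm F U} {Q : QuadraticForm F V}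
  {T T' T'' : TF F U W V} {M : Subgroup (V ≃ₗ[F] V)} {ι : Type*} [DecidableEq ι] [Fintype ι]
  {Φ Φ' : Fam ι F U W V} {i j l m : ι} {g k : V ≃ₗ[F] V}

/-- Containment of the factor algebras. -/
def Sub (T T' : TF F U W V) : Prop := ∀ a, ∃ b, T.e a = T'.e b

theorem smul_e' (g : V ≃ₗ[F] V) (a : End F U) :
    (g • T).e a = g.toLinearMap * T.e a * (g⁻¹).toLinearMap := LinearMap.ext (T.smul_e g a)

theorem Sub.refl (T : TF F U W V) : Sub T T := fun a => ⟨a, rfl⟩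

theorem Sub.trans (h : Sub T T') (h' : Sub T' T'') : Sub T T'' := fun a =>
  let ⟨b, e⟩ := h a
  let ⟨c, e'⟩ := h' b
  ⟨c, e.trans e'⟩

theorem Sub.smul (h : Sub T T') (g : V ≃ₗ[F] V) : Sub (g • T) (g • T') := fun a =>
  let ⟨b, e⟩ := h a
  ⟨b, by rw [smul_e', smul_e', e]⟩

theorem Sub.cm (h : Sub T T') {Y : End F V} (hY : Cm T' Y) : Cm T Y := fun a =>
  let ⟨b, e⟩ := h a
  e ▸ hY b

theorem sub_of_cm (h : Cm T g.toLinearMap) : Sub (g • T) T := fun a =>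
  ⟨a, by rw [smul_e', h]; exact LinearMap.ext fun _ => by simp⟩

theorem sub_kr (T : TF F U W V) (a b) : Sub (T.kr a b • T) T := fun x =>
  ⟨a.toLinearMap * x * (a⁻¹).toLinearMap, T.ext' fun v u => by rw [TF.smul_e, TF.kr_inv]; simp⟩

theorem _root_.Cfsg.Lib.TW.Cm.smul_tf {Y : End F V} (h : Cm T Y) (g : V ≃ₗ[F] V) :
    Cm (g • T) (g.toLinearMap * Y * (g⁻¹).toLinearMap) := fun a => LinearMap.ext fun x => by
  simp [smul_e', h.apply]

/-- Conjugating a family. -/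
noncomputable def fsmul (g : V ≃ₗ[F] V) (Φ : Fam ι F U W V) : Fam ι F U W V where
  T i := g • Φ.T i
  π := (g.conjAlgEquiv F).toAlgHom.toMonoidHom.comp Φ.π
  single i a := by simp [Φ.single, smul_e', LinearEquiv.conjAlgEquiv_apply]; rfl
  cen Y h := by
    obtain ⟨c, hc⟩ := Φ.cen _ fun i => inv_smul_smul g (Φ.T i) ▸ (h i).smul_tf g⁻¹
    exact ⟨c, LinearMap.ext fun x => g⁻¹.injective (by simpa using LinearMap.congr_fun hc (g⁻¹ x))⟩

theorem e_inj [Nontrivial W] (T : TF F U W V) : Injective T.e := fun a b e => by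
  obtain ⟨u, hu⟩ := exists_ne (0 : W)
  exact LinearMap.ext fun v => T.t_inj' hu (by simpa using LinearMap.congr_fun e (T.t v u))

theorem kr_inj [Nontrivial W] {a b : U ≃ₗ[F] U} (h : T.kr a 1 = T.kr b 1) : a = b :=
  LinearEquiv.toLinearMap_injective (e_inj T (by rw [← T.kr_coe, h, T.kr_coe]))

theorem kr_inv' (T : TF F U W V) (b) : T.kr b⁻¹ 1 = (T.kr b 1)⁻¹ := by rw [T.kr_inv, inv_one]

theorem kr_mul' (T : TF F U W V) (a b) : T.kr (a * b) 1 = T.kr a 1 * T.kr b 1 := by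
  rw [T.kr_mul, mul_one]

variable [FiniteDimensional F U] [Nontrivial W]

theorem exists_kr_of_e {a : End F U} (h : g.toLinearMap = T.e a) : ∃ b, g = T.kr b 1 := by
  obtain ⟨u, hu⟩ := exists_ne (0 : W)
  have k : ∀ v, g (T.t v u) = T.t (a v) u := fun v => by simpa using LinearMap.congr_fun h (T.t v u)
  exact ⟨LinearEquiv.ofInjectiveEndo a fun v v' e => T.t_inj' hu (g.injective (by rw [k, k, e])),
    LinearEquiv.toLinearMap_injective (h.trans (by rw [T.kr_coe]; rfl))⟩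

theorem Sub.exists_equiv (h : Sub T T') : ∃ φ : End F U ≃ₐ[F] End F U, ∀ a, T.e a = T'.e (φ a) := by
  choose φ hφ using h
  let ψ : End F U →ₐ[F] End F U := AlgHom.ofLinearMap
    { toFun := φ, map_add' := fun a b => e_inj T' (by simp [← hφ])
      map_smul' := fun a b => e_inj T' (by simp [← hφ]) } (e_inj T' (by simp [← hφ]))
    fun a b => e_inj T' (by simp [← hφ])
  have : Injective ψ := fun a b e => e_inj T (by rw [hφ, hφ]; exact congrArg _ e)
  exact ⟨AlgEquiv.ofBijective ψ ⟨this, LinearMap.surjective_of_injective (f := ψ.toLinearMap) this⟩, hφ⟩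

theorem Sub.symm (h : Sub T T') : Sub T' T := fun a =>
  let ⟨φ, e⟩ := h.exists_equiv
  ⟨φ.symm a, by simp [e]⟩

theorem Sub.same [FiniteDimensional F W] [Nontrivial U] (h : Sub T' T) : Same T T' := by
  obtain ⟨φ, e⟩ := h.symm.exists_equiv
  obtain ⟨a, rfl⟩ := φ.eq_linearEquivConjAlgEquiv
  let Z : End F V := (T.φ.symm.trans T'.φ).toLinearMap ∘ₗ T.e a.toLinearMap
  have hZ : ∀ v u, Z (T.t v u) = T'.t (a v) u := fun v u => by
    rw [LinearMap.comp_apply, T.e_t]; simp [TF.t_def]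
  obtain ⟨β, hβ⟩ := Cm.exists_km (T := T) (Y := Z) fun x => T.ext' fun v u => by
    rw [End.mul_apply, End.mul_apply, T.e_t, hZ, hZ, e]; simp [LinearEquiv.conjAlgEquiv_apply]
  exact same_of_t (α := β) fun v => ⟨a.symm v, fun u => by simpa [hβ] using (hZ (a.symm v) u).symm⟩

theorem Sub.exists_kr [FiniteDimensional F W] [Nontrivial U] (h : Sub (g • T) T) :
    ∃ a b, g = T.kr a b := same_smul_iff.1 h.same

theorem Sub.conj_kr (h : Sub (g • T) T') (b : U ≃ₗ[F] U) : ∃ b', g * T.kr b 1 * g⁻¹ = T'.kr b' 1 :=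
  let ⟨_, e⟩ := h b.toLinearMap
  exists_kr_of_e (by rw [← e, smul_e', ← TF.kr_coe]; rfl)

theorem sub_unique (h2 : 2 ≤ finrank F U) (h : Sub T (Φ.T i)) (h' : Sub T (Φ.T j)) : i = j :=
  by_contra fun e => not_comm_self h2 fun a b x => by
    obtain ⟨c, e'⟩ := h' a
    exact e' ▸ ((h.cm (Φ.cm_e e c)).apply b x)

/-- The stabiliser of the decomposition. -/
def WG (Φ : Fam ι F U W V) : Subgroup (V ≃ₗ[F] V) where
  carrier := {g | ∃ s : Equiv.Perm ι, ∀ i, Sub (g • Φ.T i) (Φ.T (s i))}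
  one_mem' := ⟨1, fun i => by simpa using Sub.refl _⟩
  mul_mem' := fun {g k} ⟨s, h⟩ ⟨s', h'⟩ => ⟨s * s', fun i => by
    simpa [mul_smul] using ((h' i).smul g).trans (h _)⟩
  inv_mem' := fun {g} ⟨s, h⟩ => ⟨s⁻¹, fun i => by simpa using ((h (s⁻¹ i)).smul g⁻¹).symm⟩

theorem mem_WG : g ∈ WG Φ ↔ Φ.Wr g := Iff.rfl

theorem kr_mem_WG (i : ι) (b) : (Φ.T i).kr b 1 ∈ WG Φ := Φ.wr_kr i b

theorem sub_kr' (i l : ι) (b) : Sub ((Φ.T i).kr b 1 • Φ.T l) (Φ.T l) := by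
  rcases eq_or_ne l i with rfl | e
  exacts [sub_kr _ _ _, sub_of_cm ((Φ.T i).kr_coe b ▸ Φ.cm_e e _)]

theorem mem_WG_fsmul : k ∈ WG (fsmul g Φ) ↔ g⁻¹ * k * g ∈ WG Φ :=
  exists_congr fun s => forall_congr' fun i => ⟨fun h => by
    simpa [fsmul, mul_smul] using h.smul g⁻¹, fun h => by simpa [fsmul, mul_smul] using h.smul g⟩

theorem Pm.mem {s} (h : Pm Φ s g) : g ∈ WG Φ := ⟨s, fun i a => ⟨a, (smul_e' _ _).trans (h i a)⟩⟩

theorem mem_WG_of (h2 : 2 ≤ finrank F U) (j : ι) (h : ∀ i ≠ j, ∃ l, Sub (g • Φ.T i) (Φ.T l)) :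
    g ∈ WG Φ := by
  have : Nontrivial U := nontrivial_of_finrank_pos (R := F) (by omega)
  have k : ∀ {i i' l}, Sub (g • Φ.T i) (Φ.T l) → Sub (g • Φ.T i') (Φ.T l) → i = i' :=
    fun h h' => sub_unique (Φ := fsmul g Φ) h2 h.symm h'.symm
  suffices ∀ i, ∃ l, Sub (g • Φ.T i) (Φ.T l) by
    choose s hs using this
    exact ⟨Equiv.ofBijective s (Finite.injective_iff_bijective.1 fun i i' e => k (hs i) (e ▸ hs i')), hs⟩
  choose! s hs using h
  obtain ⟨l, hl⟩ := Finset.card_eq_one.1 (show ((Finset.univ.erase j).image s)ᶜ.card = 1 by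
    rw [Finset.card_compl, Finset.card_image_of_injOn (f := s) fun i hi i' hi' e =>
      k (hs i (by simpa using hi)) (e ▸ hs i' (by simpa using hi')), Finset.card_erase_of_mem (by simp)]
    have := Fintype.card_pos_iff.2 ⟨j⟩
    simp; omega)
  intro i
  rcases eq_or_ne i j with rfl | e
  swap
  · exact ⟨_, hs i e⟩
  refine ⟨l, fun a => exists_e fun l' hl' => ?_⟩
  obtain ⟨i', h1, rfl⟩ : ∃ i' ≠ i, s i' = l' := by
    simpa using mt (fun h => hl.le (Finset.mem_compl.2 h)) (by simpa using hl')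
  exact (hs i' h1).symm.cm ((fsmul g Φ).cm_e h1 a)

/-- The base group. -/
def BG (Φ : Fam ι F U W V) : Subgroup (V ≃ₗ[F] V) where
  carrier := {g | ∀ i, Sub (g • Φ.T i) (Φ.T i)}
  one_mem' := fun i => by simpa using Sub.refl _
  mul_mem' := fun {g k} h h' i => by simpa [mul_smul] using ((h' i).smul g).trans (h _)
  inv_mem' := fun {g} h i => by simpa using ((h i).smul g⁻¹).symm

theorem conj_mem_BG (hg : g ∈ WG Φ) (hk : k ∈ BG Φ) : g * k * g⁻¹ ∈ BG Φ := fun i => by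
  obtain ⟨s, h⟩ := inv_mem hg
  simpa [mul_smul] using ((((h i).smul k).trans (hk _)).trans (h i).symm).smul g

variable [Finite F]

namespace OU

variable (γ : OU q)
include γ

omit [Nontrivial W] in
theorem cm_of_comm {Y : End F V}
    (h : ∀ b ∈ eichGroup q, Y * T.e b.1.toLinearMap = T.e b.1.toLinearMap * Y) : Cm T Y := fun a =>
  (γ.gen ((Subalgebra.centralizer F {Y}).comap T.e) (fun w s _ _ => by
    simpa [Subalgebra.mem_centralizer_iff] using h _ (eich_mem_eichGroup w s)) a) Y rfl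

omit [Nontrivial W] in
theorem sub_of_kr (h : ∀ w s, q w = 0 → polar q w s = 0 → ∃ a, (ae T q w s).toLinearMap = T'.e a) :
    Sub T T' := fun a =>
  let ⟨b, e⟩ := γ.gen (T'.e.range.comap T.e) (fun w s hw hs =>
    let ⟨a, e⟩ := h w s hw hs
    ⟨a, (e.symm.trans (ae_coe w s) :)⟩) a
  ⟨b, e.symm⟩

omit [Nontrivial W] in
theorem le_of_move {K : Subgroup (V ≃ₗ[F] V)} (hg : g ∈ K)
    (h1 : ∀ b ∈ eichGroup q, ∀ x ∈ K, T.kr b.1 1 * x * (T.kr b.1 1)⁻¹ ∈ K)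
    (h2 : ∀ a b, Commute (g * T.kr a 1 * g⁻¹) (T.kr b 1)) {b : O q} (hb : b ∈ eichGroup q) :
    T.kr b.1 1 ∈ K := by
  refine γ.perf (L := K.comap (T.krHom.comp (O q).subtype)) (fun a ha b hb => ?_) hb
  have k1 := mul_mem hg (h1 _ (inv_mem ha) _ (inv_mem hg))
  have k2 := mul_mem k1 (h1 b hb _ (inv_mem k1))
  have k3 := h2 a.1⁻¹
  rw [Subgroup.mem_comap, map_commutatorElement]
  change ⁅T.kr a.1 1, T.kr b.1 1⁆ ∈ K
  rw [Subgroup.coe_inv, kr_inv'] at k1 k2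
  rw [kr_inv'] at k3
  have k4 := (k3 a.1).eq
  have k5 := (k3 b.1).eq
  generalize T.kr a.1 1 = x, T.kr b.1 1 = y at *
  convert k2 using 1
  generalize e : g * x⁻¹ * g⁻¹ = z at k4 k5
  calc _ = z * (x * y * x⁻¹) * z⁻¹ * y⁻¹ := by
        rw [(((show Commute z x from k4).mul_right k5).mul_right (Commute.inv_right k4)).eq]; group
    _ = _ := by rw [← e]; group

theorem sub_of_rel (h' : ∀ b ∈ eichGroup q, (Φ.T l).kr b.1 1 ∈ WG Φ') {b}
    (h : (Φ'.T m).kr b 1 ∈ WG Φ) : Sub ((Φ'.T m).kr b 1 • Φ.T l) (Φ.T l) := by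
  obtain ⟨s, hs⟩ := h
  by_cases e : s l = l
  · simpa [e] using hs l
  have k : ∀ a c, Commute ((Φ'.T m).kr b 1 * (Φ.T l).kr a 1 * ((Φ'.T m).kr b 1)⁻¹)
      ((Φ.T l).kr c 1) := fun a c => by
    obtain ⟨x, hx⟩ := (hs l).conj_kr a
    exact hx ▸ LinearEquiv.toLinearMap_injective (by
      simpa [TF.kr_coe] using Φ.cm_e (Ne.symm e) x.toLinearMap c.toLinearMap)
  have k1 : ∀ c ∈ eichGroup q, (Φ.T l).kr c.1 1 ∈ BG Φ' := fun c =>
    γ.le_of_move (K := BG Φ') (fun i => sub_kr' m i b) (fun a ha x => conj_mem_BG (h' a ha)) k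
  have k2 : Sub (Φ.T l) (Φ'.T m) := γ.sub_of_kr fun w s _ _ =>
    let ⟨a, e⟩ := γ.le_of_move (K := (Φ'.T m).krHom.range) ⟨b, rfl⟩ (fun a ha _ ⟨x, hx⟩ =>
      let ⟨y, hy⟩ := (k1 a ha m).conj_kr x
      ⟨y, hx ▸ hy.symm⟩) k (eich_mem_eichGroup w s)
    ⟨_, (congrArg _ e.symm).trans (TF.kr_coe _ a)⟩
  exact ((k2.smul _).trans (sub_kr _ _ _)).trans k2.symm

theorem sub_or_cm {B : V →ₗ[F] V →ₗ[F] F} (hB : EF (RingHom.id F) 1 B) (cp : Cp (polarBilin q) B T)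
    (cp' : Cp (polarBilin q) B T') (h : ∀ b ∈ eichGroup q, Sub (T.kr b.1 1 • T') T')
    (h' : ∀ b ∈ eichGroup q, Sub (T'.kr b.1 1 • T) T) : Sub T T' ∨ ∀ a, Cm T (T'.e a) := by
  refine (γ.ns (T'.e.range.comap T.e) (fun a ⟨x, e⟩ a' ha => ?_) fun b ⟨c, hc, e⟩ a ⟨x, e'⟩ => ?_).symm.imp
    (fun h a => let ⟨b, e⟩ := h a; ⟨b, e.symm⟩) fun hs => ?_
  · obtain ⟨x', hx⟩ := γ.ef.exists_adj x
    exact ⟨x', (Ad.e cp' hx).unique hB ((show T'.e x = T.e a from e) ▸ Ad.e cp ha)⟩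
  · obtain ⟨y, hy⟩ := h c hc x
    refine ⟨y, hy.symm.trans ?_⟩
    rw [smul_e', show T'.e x = T.e a from e', T.kr_inv, inv_one, T.kr_coe, T.kr_coe, ← e]
    simp
  have k : ∀ b ∈ eichGroup q, Cm T (T'.kr b.1 1).toLinearMap := fun b hb => γ.cm_of_comm fun a ha => by
    have k1 : ∀ a ∈ eichGroup q, ∃ z ∈ Subgroup.center _,
        T'.kr b.1 1 * T.kr a.1 1 * (T'.kr b.1 1)⁻¹ = z * T.kr a.1 1 := fun a ha => by
      obtain ⟨x, hx⟩ := (h' b hb).conj_kr a.1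
      obtain ⟨y, hy⟩ := (h a ha).conj_kr b.1⁻¹
      have e : T.kr (x * a.1⁻¹) 1 = T'.kr (b.1 * y) 1 := by
        rw [kr_mul', kr_mul', ← hx, ← hy, kr_inv', kr_inv']; group
      obtain ⟨c, hc⟩ := hs (x * a.1⁻¹).toLinearMap ⟨_, (T'.kr_coe _).symm.trans
        ((congrArg _ e.symm).trans (T.kr_coe _))⟩
      refine ⟨T.kr (x * a.1⁻¹) 1, Subgroup.mem_center_iff.2 fun g => LinearEquiv.ext fun v => ?_, by
        rw [hx, T.kr_mul]; simp⟩
      have : (T.kr (x * a.1⁻¹) 1).toLinearMap = c • 1 := T.ext' fun v u => by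
        simp [show x (a.1.symm v) = c • v from hc v]
      have k : ∀ v, T.kr (x * a.1⁻¹) 1 v = c • v := LinearMap.congr_fun this
      simp [k]
    have := γ.perf (L := (Subgroup.centralizer {T'.kr b.1 1}).comap (T.krHom.comp (O q).subtype))
      (fun a ha c hc => by
        obtain ⟨z, h1, e1⟩ := k1 a ha
        obtain ⟨z', h2, e2⟩ := k1 c hc
        rw [Subgroup.mem_comap, map_commutatorElement, Subgroup.mem_centralizer_singleton_iff]
        change ⁅T.kr a.1 1, T.kr c.1 1⁆ * _ = _ * ⁅T.kr a.1 1, T.kr c.1 1⁆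
        generalize T.kr a.1 1 = x, T.kr c.1 1 = y, T'.kr b.1 1 = n at *
        have h3 : ∀ {z x y : V ≃ₗ[F] V}, z ∈ Subgroup.center _ → ⁅z * x, y⁆ = ⁅x, y⁆ :=
          fun {z x y} h => by
            rw [commutatorElement_def, commutatorElement_def, mul_inv_rev, ← mul_assoc,
              mul_assoc _ z⁻¹, mul_assoc z, mul_assoc z, ← Subgroup.mem_center_iff.1 h]
            group
        calc _ = ⁅z * x, z' * y⁆ * n := by
              rw [h3 h1, ← commutatorElement_inv (z' * y), h3 h2, commutatorElement_inv]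
          _ = _ := by rw [← e1, ← e2]; group) ha
    exact T.kr_coe _ ▸ congrArg LinearEquiv.toLinearMap
      (Subgroup.mem_centralizer_singleton_iff.1 this).symm
  exact fun a x => (γ.cm_of_comm (T := T') (fun b hb => T'.kr_coe _ ▸ (k b hb x).symm) a).symm

/-- Two families normalising almost all of each other's factors agree. -/
theorem mem_WG_of_rel {B : V →ₗ[F] V →ₗ[F] F} (hB : EF (RingHom.id F) 1 B)
    (cp : ∀ i, Cp (polarBilin q) B (Φ.T i)) (hg : g ∈ UG B) (j j' : ι)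
    (h : ∀ m ≠ j, ∀ b ∈ eichGroup q, g * (Φ.T m).kr b.1 1 * g⁻¹ ∈ WG Φ)
    (h' : ∀ l ≠ j', ∀ b ∈ eichGroup q, g⁻¹ * (Φ.T l).kr b.1 1 * g ∈ WG Φ) : g ∈ WG Φ := by
  have := γ.nontrivial
  have k : ∀ m ≠ j, ∀ b ∈ eichGroup q, ((fsmul g Φ).T m).kr b.1 1 ∈ WG Φ := fun m hm b hb => by
    simpa [fsmul, TF.smul_kr] using h m hm b hb
  have k' := fun l hl b hb => mem_WG_fsmul.2 (h' l hl b hb)
  refine mem_WG_of (by have := γ.three; omega) j fun m hm => by_contra fun h1 => h1 ⟨j', fun a =>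
    exists_e fun l hl => (γ.sub_or_cm hB (cp l) ((cp m).smul hg) (fun b hb =>
      γ.sub_of_rel (Φ := fsmul g Φ) (k m hm) (k' l hl b hb)) fun b hb =>
        γ.sub_of_rel (k' l hl) (k m hm b hb)).resolve_left (fun e => h1 ⟨l, e.symm⟩) a⟩

end OU

end Cfsg.Lib.TO
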